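import Mathlib

/-! Coverings of groups by the conjugates of two proper subgroups. -/

set_option autoImplicit false

namespace H46.Cov

/-- the conjugates of two proper subgroups cover -/
def Cov (G : Type*) [Group G] : Prop := ∃ H K : Subgroup G, H ≠ ⊤ ∧ K ≠ ⊤ ∧ ∀ g : G, ∃ x : G, x * g * x⁻¹ ∈ H ∨ x * g * x⁻¹ ∈ K

/-- passing to the central quotient -/
theorem quot {S : Type*} [Group S] {H K : Subgroup S} (hH : H ≠ ⊤) (hK : K ≠ ⊤) (zH : Subgroup.center S ≤ H) (zK : Subgroup.center S ≤ K)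
    (h : ∀ g : S, ∃ x : S, x * g * x⁻¹ ∈ H ∨ x * g * x⁻¹ ∈ K) : Cov (S ⧸ Subgroup.center S) := by
  let π := QuotientGroup.mk' (Subgroup.center S)
  have hπ : Function.Surjective π := QuotientGroup.mk'_surjective _
  have key : ∀ L : Subgroup S, L ≠ ⊤ → Subgroup.center S ≤ L → L.map π ≠ ⊤ := by
    intro L hL hz h1
    apply hL
    have h2 := Subgroup.comap_map_eq π L
    rw [h1, Subgroup.comap_top, QuotientGroup.ker_mk', sup_of_le_left hz] at h2
    exact h2.symm
  refine ⟨H.map π, K.map π, key H hH zH, key K hK zK, ?_⟩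
  intro g
  obtain ⟨g, rfl⟩ := hπ g
  obtain ⟨x, hx⟩ := h g
  refine ⟨π x, ?_⟩
  rw [← map_mul, ← map_inv, ← map_mul]
  rcases hx with hx | hx
  · exact Or.inl ⟨_, hx, rfl⟩
  · exact Or.inr ⟨_, hx, rfl⟩

end H46.Cov
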