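import Mathlib
import Cfsg.Agent.Lib.H17.ZornCount2
import Cfsg.Agent.Lib.H17.OrthTrans

/-! Transitivity of the automorphism group of the split octonions on pairs; a covering by two classes of subgroups in characteristic two. -/

set_option autoImplicit false

namespace H46.CovG2

open Cfsg.Lie H17.Zorn
open Matrix hiding one

variable {F : Type*} [Field F]

local infixl:70 " ⋆ " => zornMul

theorem id1 (x w c : O F) : x ⋆ (w ⋆ c) = (w ⋆ x) ⋆ c + B c x • w - T c • (w ⋆ x) + T (w ⋆ c) • x - B x (w ⋆ c) • (one : O F) := by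
  ext i
  simp only [mul_def, Pi.add_apply, Pi.sub_apply, Pi.smul_apply, smul_eq_mul, B, T]
  fin_cases i <;> simp [one] <;> ring

theorem id2 (w c x : O F) : (w ⋆ c) ⋆ x = (w ⋆ cj x) ⋆ c - B c x • w + T c • (w ⋆ x) := by
  ext i
  simp only [mul_def, Pi.add_apply, Pi.sub_apply, Pi.smul_apply, smul_eq_mul, B, T]
  fin_cases i <;> simp [cj] <;> ring


/-- multiplication of coordinates -/
def m4 (x y : Fin 4 → F) : Fin 4 → F := ![x 0 * y 0 - x 2 * y 1, x 0 * y 1 + x 1 * y 0 - x 3 * y 1,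
  x 0 * y 2 + x 2 * y 0 - x 2 * y 3, x 0 * y 3 + x 3 * y 0 + x 1 * y 2 - x 2 * y 1 - x 3 * y 3]

/-- conjugation of coordinates -/
def c4 (x : Fin 4 → F) : Fin 4 → F := ![x 0 - x 3, -x 1, -x 2, -x 3]

theorem hh_add (a b : O F) (x y : Fin 4 → F) : hh a b (x + y) = hh a b x + hh a b y := by
  simp only [hh, Pi.add_apply, add_smul]
  abel

theorem hh_smul (a b : O F) (r : F) (x : Fin 4 → F) : hh a b (r • x) = r • hh a b x := by
  simp only [hh, Pi.smul_apply, smul_eq_mul, mul_smul, smul_add]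

theorem hh_one (a b : O F) : hh a b ![1, 0, 0, 0] = (one : O F) := by simp [hh]

/-- multiplication of pairs -/
def mC (p q : (Fin 4 → F) × (Fin 4 → F)) : (Fin 4 → F) × (Fin 4 → F) :=
  (m4 p.1 q.1 + (m4 q.2 p.2 + (-(2 * q.2 0 - q.2 3)) • p.2), m4 q.2 p.1 + m4 p.2 (c4 q.1))

section frame
variable {a b c : O F} (h : Pair a b) (hc : ∀ x, B c (hh a b x) = 0) (hN : N c = 1)
include h hc

theorem Tc : T c = 0 := by
  rw [T_eq, ← hh_one a b]
  exact hc _

theorem p1 (x w : Fin 4 → F) : hh a b x ⋆ (hh a b w ⋆ c) = (hh a b w ⋆ hh a b x) ⋆ c := by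
  have h1 : T (hh a b w ⋆ c) = 0 := by
    rw [T_eq, ← hh_one a b]
    exact h.perp_mul hc _ _
  have h2 : B (hh a b x) (hh a b w ⋆ c) = 0 := by
    rw [B_comm]
    exact h.perp_mul hc _ _
  rw [id1, hc, Tc h hc, h1, h2]
  simp

theorem p2 (x w : Fin 4 → F) : (hh a b w ⋆ c) ⋆ hh a b x = (hh a b w ⋆ cj (hh a b x)) ⋆ c := by
  rw [id2, hc, Tc h hc]
  simp

include hN in
theorem p3 (y w : Fin 4 → F) : (hh a b y ⋆ c) ⋆ (hh a b w ⋆ c) = hh a b w ⋆ hh a b y + (-(2 * w 0 - w 3)) • hh a b y := by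
  have h1 : T (hh a b w ⋆ c) = 0 := by
    rw [T_eq, ← hh_one a b]
    exact h.perp_mul hc _ _
  have h2 : cj (hh a b w ⋆ c) = (-1 : F) • (hh a b w ⋆ c) := by
    rw [cj_eq, h1, zero_smul, zero_sub, neg_one_smul]
  have h3 : c ⋆ cj c = (one : O F) := by
    have := mul_mul_cj (one : O F) c
    rw [one_mul', hN, one_smul] at this
    exact this
  have h4 : B c (hh a b w ⋆ c) = 2 * w 0 - w 3 := by
    rw [B_comm, B_mul_right, h3, h.B_one]
  have h5 : c ⋆ c = (-1 : F) • (one : O F) := by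
    rw [H17.Zorn.sq, Tc h hc, hN, zero_smul, zero_sub, one_smul, neg_one_smul]
  rw [id2, h2, mul_smul', p1 h hc, H17.Zorn.smul_mul', alt_right, h5, mul_smul', mul_one', smul_smul, h4, Tc h hc]
  simp only [neg_mul_neg, one_mul, one_smul, zero_smul, add_zero, neg_smul, sub_eq_add_neg]

include hN in
theorem Phi_mul (p q : (Fin 4 → F) × (Fin 4 → F)) : Phi a b c p ⋆ Phi a b c q = Phi a b c (mC p q) := by
  simp only [Phi_apply]
  rw [add_mul', mul_add', mul_add', p1 h hc, p2 h hc, p3 h hc hN, h.cj_hh, h.hh_mul, h.hh_mul, h.hh_mul, h.hh_mul]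
  unfold mC
  simp only
  rw [hh_add, hh_add, hh_add, hh_smul, add_mul']
  unfold m4 c4
  abel

end frame

/-- the parametrization -/
noncomputable def frE {a b c : O F} (h : Pair a b) (hc : ∀ x, B c (hh a b x) = 0) (hN : N c = 1) : ((Fin 4 → F) × (Fin 4 → F)) ≃ₗ[F] O F :=
  LinearEquiv.ofBijective (Phi a b c) ⟨by
    have hs := Phi_surj h hc (by rw [hN]; exact one_ne_zero)
    exact (LinearMap.injective_iff_surjective_of_finrank_eq_finrank (by simp)).mpr hs, Phi_surj h hc (by rw [hN]; exact one_ne_zero)⟩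

/-- the group is transitive on pairs -/
theorem trans_pair {a b a' b' : O F} (h : Pair a b) (h' : Pair a' b') : ∃ g : G2 F, act g a = a' ∧ act g b = b' := by
  obtain ⟨c, hc, hN⟩ := exists_c h
  obtain ⟨c', hc', hN'⟩ := exists_c h'
  let e := frE h hc hN
  let e' := frE h' hc' hN'
  have he : ∀ p, e p = Phi a b c p := fun p => rfl
  have he' : ∀ p, e' p = Phi a' b' c' p := fun p => rfl
  let G := (H17.OrthTrans.phi (Fin 8) F).symm (e.symm.trans e')
  have hG : ∀ p, (G : Matrix (Fin 8) (Fin 8) F) *ᵥ (e p) = e' p := by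
    intro p
    rw [← H17.OrthTrans.phi_apply, MulEquiv.apply_symm_apply]
    change e' (e.symm (e p)) = e' p
    rw [e.symm_apply_apply]
  have hGmem : G ∈ G2 F := by
    intro x y
    obtain ⟨p, rfl⟩ := e.surjective x
    obtain ⟨q, rfl⟩ := e.surjective y
    change (G : Matrix (Fin 8) (Fin 8) F) *ᵥ (e p ⋆ e q) = ((G : Matrix (Fin 8) (Fin 8) F) *ᵥ (e p)) ⋆ ((G : Matrix (Fin 8) (Fin 8) F) *ᵥ (e q))
    rw [hG, hG, he, he, Phi_mul h hc hN, ← he, hG, he', he', he', Phi_mul h' hc' hN']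
  have ha : ∀ (a b c : O F), Phi a b c (![0, 1, 0, 0], 0) = a := by
    intro a b c
    rw [Phi_apply]
    simp [hh, zero_mul']
  have hb : ∀ (a b c : O F), Phi a b c (![0, 0, 1, 0], 0) = b := by
    intro a b c
    rw [Phi_apply]
    simp [hh, zero_mul']
  refine ⟨⟨G, hGmem⟩, ?_, ?_⟩
  · change (G : Matrix (Fin 8) (Fin 8) F) *ᵥ a = a'
    conv_lhs => rw [← ha a b c, ← he, hG, he', ha]
  · change (G : Matrix (Fin 8) (Fin 8) F) *ᵥ b = b'
    conv_lhs => rw [← hb a b c, ← he, hG, he', hb]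

theorem mul_cj (b : O F) : b ⋆ cj b = N b • (one : O F) := by
  have := mul_mul_cj (one : O F) b
  rwa [one_mul'] at this

theorem cj_mul (b : O F) : cj b ⋆ b = N b • (one : O F) := by
  rw [cj_eq, sub_eq_add_neg, add_mul', H17.Zorn.smul_mul', one_mul', show (-b : O F) = (-1 : F) • b by simp, H17.Zorn.smul_mul', H17.Zorn.sq]
  simp

/-- the pair attached to an element of trace one -/
theorem pair_of {e b : O F} {n : F} (hT : T e = 1) (hN : N e = n) (hTb : T b = 0) (hNb : N b = 0) (hB : B e b = 1) :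
    Pair (e + (-n) • b + e ⋆ b) b ∧ (e + (-n) • b + e ⋆ b) ⋆ b = e ⋆ b := by
  have hcb : cj b = (-1 : F) • b := by rw [cj_eq, hTb, zero_smul, zero_sub, neg_one_smul]
  have h1 : T (e ⋆ b) = -1 := by
    rw [T_eq, B_mul_right, one_mul', hcb, B_smul, hB, mul_one]
  have h2 : B e (e ⋆ b) = 0 := by
    rw [B_comm, B_mul_left, cj_mul, B_smul, ← T_eq, hTb, mul_zero]
  have h3 : B b (e ⋆ b) = 0 := by
    rw [B_comm, B_mul_right, mul_cj, hNb, zero_smul]
    simp [B]
  have h4 : b ⋆ b = 0 := by rw [H17.Zorn.sq, hTb, hNb]; simp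
  refine ⟨⟨?_, ?_, hTb, hNb, ?_⟩, ?_⟩
  · rw [T_add, T_add, T_smul, hT, hTb, h1]; ring
  · rw [N_add, N_add, N_smul, N_mul, hN, hNb, B_smul, hB, add_B, smul_B, h2, h3]; ring
  · rw [add_B, add_B, smul_B, hB, B_self, hNb, B_comm (e ⋆ b), h3]; ring
  · rw [add_mul', add_mul', H17.Zorn.smul_mul', h4, alt_right, h4, mul_zero']; simp

/-- transitivity on elements of trace one and given norm -/
theorem trans_e {e e' : O F} {n : F} (hT : T e = 1) (hN : N e = n) (hT' : T e' = 1) (hN' : N e' = n)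
    (hb : ∃ b, T b = 0 ∧ N b = 0 ∧ B e b = 1) (hb' : ∃ b, T b = 0 ∧ N b = 0 ∧ B e' b = 1) : ∃ g : G2 F, act g e = e' := by
  obtain ⟨b, b1, b2, b3⟩ := hb
  obtain ⟨b', b1', b2', b3'⟩ := hb'
  obtain ⟨h, hm⟩ := pair_of hT hN b1 b2 b3
  obtain ⟨h', hm'⟩ := pair_of hT' hN' b1' b2' b3'
  obtain ⟨g, ga, gb⟩ := trans_pair h h'
  refine ⟨g, ?_⟩
  have h1 : e = (e + (-n) • b + e ⋆ b) + n • b + (-1 : F) • ((e + (-n) • b + e ⋆ b) ⋆ b) := by
    rw [hm]
    module
  have h1' : e' = (e' + (-n) • b' + e' ⋆ b') + n • b' + (-1 : F) • ((e' + (-n) • b' + e' ⋆ b') ⋆ b') := by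
    rw [hm']
    module
  rw [h1, act_add, act_add, act_smul, act_smul, act_mul, ga, gb]
  exact h1'.symm

section two
variable (h2 : (2 : F) = 0)
include h2

theorem exists_b {e : O F} (hT : T e = 1) : ∃ b, T b = 0 ∧ N b = 0 ∧ B e b = 1 := by
  suffices ∃ b, T b = 0 ∧ N b = 0 ∧ B e b ≠ 0 by
    obtain ⟨b, h1, h3, h4⟩ := this
    refine ⟨(B e b)⁻¹ • b, ?_, ?_, ?_⟩
    · rw [T_smul, h1, mul_zero]
    · rw [N_smul, h3, mul_zero]
    · rw [B_smul, inv_mul_cancel₀ h4]
  by_contra hcon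
  push Not at hcon
  have k1 := hcon ![0, 0, 0, 0, 1, 0, 0, 0] (by simp [T]) (by simp [N])
  have k2 := hcon ![0, 0, 0, 0, 0, 1, 0, 0] (by simp [T]) (by simp [N])
  have k3 := hcon ![0, 0, 0, 0, 0, 0, 1, 0] (by simp [T]) (by simp [N])
  have k4 := hcon ![0, 1, 0, 0, 0, 0, 0, 0] (by simp [T]) (by simp [N])
  have k5 := hcon ![0, 0, 1, 0, 0, 0, 0, 0] (by simp [T]) (by simp [N])
  have k6 := hcon ![0, 0, 0, 1, 0, 0, 0, 0] (by simp [T]) (by simp [N])
  have k0 := hcon ![1, 1, 0, 0, -1, 0, 0, -1] (by simp [T]) (by simp [N])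
  simp only [B, Matrix.cons_val] at k0 k1 k2 k3 k4 k5 k6
  unfold T at hT
  have h3 : (1 : F) = 0 := by linear_combination (-1 : F) * hT + k0 + k1 - k4 + e 0 * h2
  exact one_ne_zero h3

/-- an automorphism moves some element of trace one by a scalar -/
theorem exists_fix (g : G2 F) : ∃ e : O F, T e = 1 ∧ ∃ c : F, act g e = e + c • (one : O F) := by
  let L : O F →ₗ[F] O F :=
    { toFun := fun x => act g⁻¹ x - x
      map_add' := fun x y => by rw [act_add]; abel
      map_smul' := fun r x => by rw [act_smul, RingHom.id_apply, smul_sub] }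
  let Tl : O F →ₗ[F] F := { toFun := T, map_add' := T_add, map_smul' := fun r x => T_smul r x }
  let R : Submodule F (O F) := (LinearMap.ker Tl).map L
  have hone : (one : O F) ∉ R := by
    rintro ⟨x, hx, h1⟩
    have hx' : T x = 0 := hx
    have h3 : act g⁻¹ x = x + one := by
      have h4 : act g⁻¹ x - x = one := h1
      rw [← h4]; abel
    have h5 := (act_TN g⁻¹ x).2
    rw [h3, N_add, N_one, ← T_eq, hx'] at h5
    have : (1 : F) = 0 := by linear_combination h5
    exact one_ne_zero this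
  obtain ⟨φ, hφ1, hφ2⟩ := Submodule.exists_le_ker_of_notMem hone
  let y : O F := ![φ (Pi.single 7 1), -φ (Pi.single 4 1), -φ (Pi.single 5 1), -φ (Pi.single 6 1), -φ (Pi.single 1 1), -φ (Pi.single 2 1), -φ (Pi.single 3 1), φ (Pi.single 0 1)]
  have hy : ∀ x, B y x = φ x := by
    intro x
    have h1 : x = ∑ i, x i • (Pi.single i (1 : F) : O F) := by
      ext j
      simp [Finset.sum_apply, Pi.single_apply]
    conv_rhs => rw [h1, map_sum]
    simp only [map_smul, smul_eq_mul, Fin.sum_univ_eight, B, y, Matrix.cons_val]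
    ring
  have hTy : T y ≠ 0 := by rw [T_eq, hy]; exact hφ1
  have hz : ∀ x, T x = 0 → B (act g y - y) x = 0 := by
    intro x hx
    have h1 : φ (act g⁻¹ x - x) = 0 := hφ2 ⟨x, hx, rfl⟩
    have h3 : B (act g y) x = B y (act g⁻¹ x) := by
      conv_lhs => rw [← act_inv g x]
      exact act_B g _ _
    rw [← hy] at h1
    have h4 : B y (act g⁻¹ x) = B y x := by
      have h5 : B y (act g⁻¹ x) = B y ((act g⁻¹ x - x) + x) := by rw [sub_add_cancel]
      rw [h5, B_add, h1, zero_add]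
    rw [sub_eq_add_neg, add_B, show (-y : O F) = (-1 : F) • y by simp, smul_B, h3, h4]
    ring
  obtain ⟨z, hzd⟩ : ∃ z, z = act g y - y := ⟨_, rfl⟩
  rw [← hzd] at hz
  have k1 := hz ![0, 0, 0, 0, 1, 0, 0, 0] (by simp [T])
  have k2 := hz ![0, 0, 0, 0, 0, 1, 0, 0] (by simp [T])
  have k3 := hz ![0, 0, 0, 0, 0, 0, 1, 0] (by simp [T])
  have k4 := hz ![0, 1, 0, 0, 0, 0, 0, 0] (by simp [T])
  have k5 := hz ![0, 0, 1, 0, 0, 0, 0, 0] (by simp [T])
  have k6 := hz ![0, 0, 0, 1, 0, 0, 0, 0] (by simp [T])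
  have k0 := hz ![1, 0, 0, 0, 0, 0, 0, -1] (by simp [T])
  simp only [B, Matrix.cons_val] at k0 k1 k2 k3 k4 k5 k6
  have hz1 : z = z 0 • (one : O F) := by
    ext i
    fin_cases i
    · simp [one]
    · simp [one]; linear_combination -k1
    · simp [one]; linear_combination -k2
    · simp [one]; linear_combination -k3
    · simp [one]; linear_combination -k4
    · simp [one]; linear_combination -k5
    · simp [one]; linear_combination -k6
    · simp [one]; linear_combination k0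
  refine ⟨(T y)⁻¹ • y, by rw [T_smul, inv_mul_cancel₀ hTy], (T y)⁻¹ * z 0, ?_⟩
  rw [act_smul, mul_smul, ← hz1, ← smul_add, hzd]
  congr 1
  abel

/-- the standard element of trace one -/
def e1 (n : F) : O F := ![0, 1, 0, 0, -n, 0, 0, 1]

/-- another one -/
def e2 (n : F) : O F := ![0, 0, 1, 0, 0, -n, 0, 1]

omit h2 in
theorem e1_TN (n : F) : T (e1 n) = 1 ∧ N (e1 n) = n := by
  constructor <;> simp [T, N, e1]

omit h2 in
theorem e2_TN (n : F) : T (e2 n) = 1 ∧ N (e2 n) = n := by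
  constructor <;> simp [T, N, e2]

omit h2 in
/-- the stabilizer of a quadratic subalgebra -/
def St (n : F) : Subgroup (G2 F) where
  carrier := {g | ∃ c : F, act g (e1 n) = e1 n + c • (one : O F)}
  one_mem' := ⟨0, by simp [act]⟩
  mul_mem' := by
    rintro g h ⟨c, hc⟩ ⟨d, hd⟩
    refine ⟨c + d, ?_⟩
    rw [act_act, hd, act_add, act_smul, act_one, hc, add_smul]
    abel
  inv_mem' := by
    rintro g ⟨c, hc⟩
    refine ⟨-c, ?_⟩
    have h1 := act_inv' g (e1 n)
    rw [hc, act_add, act_smul, act_one] at h1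
    rw [neg_smul, ← sub_eq_add_neg, eq_sub_iff_add_eq]
    exact h1

theorem St_ne_top (n : F) : St n ≠ (⊤ : Subgroup (G2 F)) := by
  intro h
  obtain ⟨g, hg⟩ := trans_e (e1_TN n).1 (e1_TN n).2 (e2_TN n).1 (e2_TN n).2 (exists_b h2 (e1_TN n).1) (exists_b h2 (e2_TN n).1)
  have h1 : g ∈ St n := by rw [h]; exact Subgroup.mem_top g
  obtain ⟨c, hc⟩ := h1
  rw [hg] at hc
  have h3 := congrFun hc 1
  simp [e1, e2, one] at h3

theorem cover [Finite F] : ∃ H K : Subgroup (G2 F), H ≠ ⊤ ∧ K ≠ ⊤ ∧ ∀ g : G2 F, ∃ x : G2 F, x * g * x⁻¹ ∈ H ∨ x * g * x⁻¹ ∈ K := by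
  haveI : CharP F 2 := by
    have : Fact (Nat.Prime 2) := ⟨Nat.prime_two⟩
    exact CharTwo.of_one_ne_zero_of_two_eq_zero one_ne_zero h2
  let P : F →+ F :=
    { toFun := fun d => d ^ 2 + d
      map_zero' := by ring
      map_add' := fun a b => by
        have : (a + b) ^ 2 = a ^ 2 + b ^ 2 := by linear_combination a * b * h2
        rw [this]; ring }
  have hP : ∀ d, P d = d ^ 2 + d := fun d => rfl
  -- an element outside the image
  have hidx : P.range.index = 2 := by
    have h1 : Nat.card P.ker = 2 := by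
      have h3 : (P.ker : Set F) = {0, 1} := by
        ext d
        rw [SetLike.mem_coe, AddMonoidHom.mem_ker, hP, Set.mem_insert_iff, Set.mem_singleton_iff]
        constructor
        · intro h
          have h4 : d * (d + 1) = 0 := by linear_combination h
          rcases mul_eq_zero.mp h4 with h5 | h5
          · exact Or.inl h5
          · right; linear_combination h5 - h2
        · rintro (rfl | rfl)
          · ring
          · linear_combination h2
      rw [← SetLike.coe_sort_coe, h3, Nat.card_coe_set_eq, Set.ncard_pair zero_ne_one]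
    have h3 : Nat.card P.range * 2 = Nat.card F := by
      have h4 := AddSubgroup.card_mul_index P.ker
      rw [AddSubgroup.index_ker, h1] at h4
      rw [mul_comm]; exact h4
    have h4 := AddSubgroup.card_mul_index P.range
    have h5 : 0 < Nat.card P.range := Nat.card_pos
    exact Nat.eq_of_mul_eq_mul_left h5 (by rw [h4, h3])
  obtain ⟨ν, hν⟩ := AddSubgroup.index_eq_two_iff.mp hidx
  refine ⟨St 0, St ν, St_ne_top h2 0, St_ne_top h2 ν, ?_⟩
  intro g
  obtain ⟨e, hT, c, hc⟩ := exists_fix h2 g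
  -- normalise the norm
  have key : ∀ n : F, (N e + n ∈ P.range) → ∃ x : G2 F, x * g * x⁻¹ ∈ St n := by
    rintro n ⟨d, hd⟩
    rw [hP] at hd
    have hT' : T (e + d • (one : O F)) = 1 := by
      rw [T_add, T_smul, hT]
      simp only [T, one, Matrix.cons_val]
      linear_combination d * h2
    have hN' : N (e + d • (one : O F)) = n := by
      rw [N_add, N_smul, N_one, B_smul, ← T_eq, hT]
      linear_combination hd + N e * h2
    obtain ⟨x, hx⟩ := trans_e hT' hN' (e1_TN n).1 (e1_TN n).2 (exists_b h2 hT') (exists_b h2 (e1_TN n).1)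
    refine ⟨x, c, ?_⟩
    have h1 : act x⁻¹ (e1 n) = e + d • (one : O F) := by rw [← hx, act_inv']
    rw [act_act, act_act, h1, act_add, act_smul, act_one, hc, act_add, act_add, act_smul, act_smul, act_one, ← hx, act_add, act_smul, act_one]
    abel
  rcases (hν (N e)).or with h | h
  · obtain ⟨x, hx⟩ := key ν h
    exact ⟨x, Or.inr hx⟩
  · obtain ⟨x, hx⟩ := key 0 (by rw [add_zero]; exact h)
    exact ⟨x, Or.inl hx⟩

end two

end H46.CovG2
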