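import Mathlib

/-! Stabilizers of subspaces in a linear representation. -/

set_option autoImplicit false

namespace H46.CovSt

open Module

variable {K : Type*} [Field K] {V : Type*} [AddCommGroup V] [Module K V] {G : Type*} [Group G] (ρ : G →* Module.End K V)

/-- the stabilizer of a subspace -/
def St (X : Submodule K V) : Subgroup G where
  carrier := {g | X.map (ρ g) = X}
  one_mem' := by
    change X.map (ρ 1) = X
    rw [map_one]
    exact Submodule.map_id X
  mul_mem' := by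
    intro g h hg hh
    change X.map (ρ (g * h)) = X
    have h1 : ρ (g * h) = (ρ g) ∘ₗ (ρ h) := map_mul ρ g h
    rw [h1, Submodule.map_comp]
    have h2 : X.map (ρ h) = X := hh
    rw [h2]
    exact hg
  inv_mem' := by
    intro g hg
    have h2 : X.map (ρ g) = X := hg
    change X.map (ρ g⁻¹) = X
    nth_rewrite 1 [← h2]
    rw [← Submodule.map_comp]
    have h1 : (ρ g⁻¹) ∘ₗ (ρ g) = LinearMap.id := by
      have h3 : ρ (g⁻¹ * g) = (ρ g⁻¹) ∘ₗ (ρ g) := map_mul ρ _ _
      rw [← h3, inv_mul_cancel, map_one]; rfl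
    rw [h1, Submodule.map_id]

theorem mem_St {X : Submodule K V} {g : G} : g ∈ St ρ X ↔ X.map (ρ g) = X := Iff.rfl

theorem inj (g : G) : Function.Injective (ρ g) := by
  intro v w h
  have h1 : ∀ x, ρ g⁻¹ (ρ g x) = x := by
    intro x
    have h3 : ρ (g⁻¹ * g) = (ρ g⁻¹) * (ρ g) := map_mul ρ _ _
    rw [inv_mul_cancel, map_one] at h3
    exact (congrArg (fun f : Module.End K V => f x) h3).symm
  rw [← h1 v, h, h1]

theorem map_eq [Module.Finite K V] {X Y : Submodule K V} {g : G} (h : ∀ v ∈ X, ρ g v ∈ Y) (hXY : finrank K X = finrank K Y) : X.map (ρ g) = Y := by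
  apply Submodule.eq_of_le_of_finrank_eq
  · rintro _ ⟨v, hv, rfl⟩
    exact h v hv
  · rw [← hXY]
    exact (Submodule.equivMapOfInjective (ρ g) (inj ρ g) X).finrank_eq.symm

theorem conj_mem [Module.Finite K V] {X X₀ : Submodule K V} {g x : G} (hg : ∀ v ∈ X, ρ g v ∈ X) (hx : ∀ v ∈ X, ρ x v ∈ X₀)
    (hX : finrank K X = finrank K X₀) : x * g * x⁻¹ ∈ St ρ X₀ := by
  have h1 : X.map (ρ g) = X := map_eq ρ hg rfl
  have h2 : X.map (ρ x) = X₀ := map_eq ρ hx hX
  have h3 : ∀ a b : G, X.map (ρ (a * b)) = (X.map (ρ b)).map (ρ a) := by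
    intro a b
    have h4 : ρ (a * b) = (ρ a) ∘ₗ (ρ b) := map_mul ρ _ _
    rw [h4, Submodule.map_comp]
  rw [mem_St, ← h2, ← Submodule.map_comp]
  have h5 : (ρ (x * g * x⁻¹)) ∘ₗ (ρ x) = (ρ x) ∘ₗ (ρ g) := by
    have h6 : ρ (x * g * x⁻¹ * x) = ρ (x * g * x⁻¹) * ρ x := map_mul ρ _ _
    rw [inv_mul_cancel_right, map_mul] at h6
    exact h6.symm
  rw [h5, Submodule.map_comp, h1]

theorem scalar_mem [Module.Finite K V] (X : Submodule K V) {g : G} {c : K} (hg : ∀ v, ρ g v = c • v) : g ∈ St ρ X := by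
  rw [mem_St]
  apply map_eq ρ _ rfl
  intro v hv
  rw [hg]
  exact X.smul_mem _ hv

end H46.CovSt
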