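import Mathlib
import Cfsg.Agent.Lib.H46.CovSt

/-! Normalizers of field structures of degree three. -/

set_option autoImplicit false

namespace H46.CovSt

open Module Polynomial

variable {K : Type*} [Field K] {V : Type*} [AddCommGroup V] [Module K V] {G : Type*} [Group G] (ρ : G →* Module.End K V)
  {E : Type*} [Field E] [Algebra K E] (φ : E →ₐ[K] Module.End K V)

theorem rho_inv (g : G) : ρ g⁻¹ * ρ g = 1 ∧ ρ g * ρ g⁻¹ = 1 := by
  constructor
  · rw [← map_mul, inv_mul_cancel, map_one]
  · rw [← map_mul, mul_inv_cancel, map_one]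

/-- the normalizer of a field structure -/
def NE [Finite E] [Nontrivial V] : Subgroup G where
  carrier := {g | ∀ x, ∃ z, ρ g * φ x = φ z * ρ g}
  one_mem' := by
    intro x
    exact ⟨x, by rw [map_one, one_mul, mul_one]⟩
  mul_mem' := by
    intro g h hg hh x
    obtain ⟨z, hz⟩ := hh x
    obtain ⟨y, hy⟩ := hg z
    refine ⟨y, ?_⟩
    rw [map_mul, mul_assoc, hz, ← mul_assoc, hy, mul_assoc]
  inv_mem' := by
    intro g hg x
    have hg' : ∀ x, ∃ z, ρ g * φ x = φ z * ρ g := hg
    choose α hα using hg'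
    have hinj : Function.Injective α := by
      intro a b hab
      have h1 : ρ g * φ a = ρ g * φ b := by rw [hα, hα, hab]
      have h2 : φ a = φ b := by
        calc φ a = (ρ g⁻¹ * ρ g) * φ a := by rw [(rho_inv ρ g).1, one_mul]
          _ = ρ g⁻¹ * (ρ g * φ b) := by rw [mul_assoc, h1]
          _ = φ b := by rw [← mul_assoc, (rho_inv ρ g).1, one_mul]
      exact φ.toRingHom.injective h2
    obtain ⟨y, hy⟩ := (Finite.injective_iff_surjective.mp hinj) x
    refine ⟨y, ?_⟩
    have h1 := hα y
    rw [hy] at h1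
    calc ρ g⁻¹ * φ x = ρ g⁻¹ * φ x * (ρ g * ρ g⁻¹) := by rw [(rho_inv ρ g).2, mul_one]
      _ = ρ g⁻¹ * (φ x * ρ g) * ρ g⁻¹ := by simp only [mul_assoc]
      _ = ρ g⁻¹ * (ρ g * φ y) * ρ g⁻¹ := by rw [h1]
      _ = (ρ g⁻¹ * ρ g) * (φ y * ρ g⁻¹) := by simp only [mul_assoc]
      _ = φ y * ρ g⁻¹ := by rw [(rho_inv ρ g).1, one_mul]

theorem mem_NE [Finite E] [Nontrivial V] {g : G} : g ∈ NE ρ φ ↔ ∀ x, ∃ z, ρ g * φ x = φ z * ρ g := Iff.rfl

/-- elements outside the ground field generate an extension of prime degree -/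
theorem gen_of_prime [Module.Finite K E] (hE : (finrank K E).Prime) {x : E} (hx : ∀ c : K, x ≠ algebraMap K E c) (y : E) : ∃ p : K[X], aeval x p = y := by
  have h1 := Module.finrank_mul_finrank K (IntermediateField.adjoin K {x}) E
  have h2 : finrank K (IntermediateField.adjoin K {x}) ≠ 1 := by
    intro h
    rw [IntermediateField.finrank_adjoin_simple_eq_one_iff] at h
    obtain ⟨c, hc⟩ := IntermediateField.mem_bot.mp h
    exact hx c hc.symm
  have h3 : IntermediateField.adjoin K {x} = ⊤ := by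
    have h4 : finrank K (IntermediateField.adjoin K {x}) = finrank K E := by
      rcases (Nat.dvd_prime hE).mp ⟨_, h1.symm⟩ with h | h
      · exact absurd h h2
      · exact h
    exact IntermediateField.eq_of_le_of_finrank_eq le_top (by rw [h4]; exact IntermediateField.finrank_top'.symm)
  have hint : IsIntegral K x := Algebra.IsIntegral.isIntegral x
  have h4 : y ∈ (IntermediateField.adjoin K {x}).toSubalgebra := by rw [h3]; trivial
  rw [IntermediateField.adjoin_simple_toSubalgebra_of_isAlgebraic hint.isAlgebraic, Algebra.adjoin_singleton_eq_range_aeval] at h4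
  obtain ⟨p, hp⟩ := h4
  exact ⟨p, hp⟩

/-- the normalizer of a field structure of degree three contains no transvections -/
theorem NE_no_transvection [Finite E] [Nontrivial V] (hE : finrank K E = 3) (h2 : ∃ v w : V, LinearIndependent K ![v, w]) {g : G} {ψ : Module.Dual K V} {u : V} (hu : u ≠ 0) (hψ : ψ ≠ 0)
    (hg : ∀ v, ρ g v = v + ψ v • u) : g ∉ NE ρ φ := by
  intro hmem
  haveI : Module.Finite K E := Module.Finite.of_finite
  have hφinj : ∀ (a : E) (v : V), φ a v = 0 → v ≠ 0 → a = 0 := by
    intro a v hv hv0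
    by_contra ha
    apply hv0
    have h1 : φ a⁻¹ * φ a = 1 := by rw [← map_mul, inv_mul_cancel₀ ha, map_one]
    have h3 := congrArg (fun f : Module.End K V => f v) h1
    change φ a⁻¹ (φ a v) = v at h3
    rw [← h3, hv, map_zero]
  obtain ⟨v₀, hv₀, hψv₀⟩ : ∃ v₀ : V, v₀ ≠ 0 ∧ ψ v₀ = 0 := by
    obtain ⟨v, w, hvw⟩ := h2
    by_cases h : ψ v = 0
    · exact ⟨v, hvw.ne_zero 0, h⟩
    · refine ⟨ψ w • v - ψ v • w, ?_, ?_⟩
      · intro h0
        rw [LinearIndependent.pair_iff] at hvw
        have := hvw (ψ w) (-ψ v) (by rw [neg_smul, ← sub_eq_add_neg]; exact h0)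
        exact h (neg_eq_zero.mp this.2)
      · rw [map_sub, map_smul, map_smul, smul_eq_mul, smul_eq_mul]; ring
  let ℓ : E →ₗ[K] K :=
    { toFun := fun x => ψ (φ x v₀)
      map_add' := fun x y => by rw [map_add, LinearMap.add_apply, map_add]
      map_smul' := fun c x => by rw [map_smul, LinearMap.smul_apply, map_smul]; rfl }
  have hker : 2 ≤ finrank K (LinearMap.ker ℓ) := by
    have h1 := LinearMap.finrank_range_add_finrank_ker ℓ
    have h3 : finrank K (LinearMap.range ℓ) ≤ 1 := by
      have := Submodule.finrank_le (LinearMap.range ℓ)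
      rwa [finrank_self] at this
    omega
  obtain ⟨x, hxk, hx⟩ : ∃ x ∈ LinearMap.ker ℓ, ∀ c : K, x ≠ algebraMap K E c := by
    by_contra hcon
    push Not at hcon
    have h1 : LinearMap.ker ℓ ≤ Submodule.span K {(1 : E)} := by
      intro x hx
      obtain ⟨c, hc⟩ := hcon x hx
      rw [hc, Algebra.algebraMap_eq_smul_one]
      exact Submodule.smul_mem _ _ (Submodule.mem_span_singleton_self _)
    have h3 := Submodule.finrank_mono h1
    rw [finrank_span_singleton one_ne_zero] at h3
    omega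
  obtain ⟨z, hz⟩ := hmem x
  have h3 : φ x v₀ = φ z v₀ := by
    have h4 := congrArg (fun f : Module.End K V => f v₀) hz
    change ρ g (φ x v₀) = φ z (ρ g v₀) at h4
    have h5 : ψ (φ x v₀) = 0 := hxk
    rw [hg, hg, h5, hψv₀, zero_smul, add_zero, add_zero] at h4
    exact h4
  have h4 : x = z := by
    apply sub_eq_zero.mp
    apply hφinj (x - z) v₀ _ hv₀
    rw [map_sub, LinearMap.sub_apply, h3, sub_self]
  rw [← h4] at hz
  have hcomm : ∀ y : E, Commute (ρ g) (φ y) := by
    intro y
    obtain ⟨p, rfl⟩ := gen_of_prime (by rw [hE]; exact Nat.prime_three) hx y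
    rw [← aeval_algHom_apply]
    have h6 : Commute (ρ g) (φ x) := hz
    induction p using Polynomial.induction_on' with
    | add p q hp hq =>
      rw [map_add]
      exact hp.add_right hq
    | monomial n c =>
      rw [aeval_monomial]
      have h8 : Commute (ρ g) (algebraMap K (Module.End K V) c) := (Algebra.commutes c (ρ g)).symm
      exact h8.mul_right (h6.pow_right n)
  obtain ⟨v₁, hv₁⟩ : ∃ v₁, ψ v₁ ≠ 0 := by
    by_contra hcon
    push Not at hcon
    exact hψ (LinearMap.ext hcon)
  have h5 : ∀ y : E, ∃ c : K, y = algebraMap K E c := by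
    intro y
    have h6 := congrArg (fun f : Module.End K V => f v₁) (hcomm y).eq
    change ρ g (φ y v₁) = φ y (ρ g v₁) at h6
    rw [hg, hg, map_add, map_smul, add_right_inj] at h6
    refine ⟨(ψ v₁)⁻¹ * ψ (φ y v₁), ?_⟩
    apply sub_eq_zero.mp
    apply hφinj _ u _ hu
    rw [map_sub, LinearMap.sub_apply, AlgHom.commutes, Module.algebraMap_end_apply, mul_smul, h6, smul_smul, inv_mul_cancel₀ hv₁, one_smul, sub_self]
  obtain ⟨c, hc⟩ := h5 x
  exact hx c hc

end H46.CovSt
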