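import Mathlib
import Cfsg.Agent.Lib.H46.Cov
import Cfsg.Agent.Lib.H46.FieldInv
import Cfsg.Agent.Lib.H46.ExtElt
import Cfsg.Agent.Lib.H46.Decomp
import Cfsg.Agent.Lib.H46.OrthDec
import Cfsg.Agent.Lib.H46.SpDich
import Cfsg.Agent.Lib.H46.DecSU
import Cfsg.Agent.Lib.H85.SecMaxAff

/-! Linear groups of small dimension are covered by the stabilizers of points and of field structures. -/

set_option autoImplicit false

namespace H46.CovSL

open Module Polynomial H46.Decomp H46.FieldInv H46.ExtElt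

section structure_
variable {F : Type*} [Field F] [Finite F] {V : Type*} [AddCommGroup V] [Module F V] [FiniteDimensional F V]

/-- an operator with irreducible minimal polynomial gives a field structure -/
theorem exists_phi [Nontrivial V] {s : Module.End F V} (hs : Irreducible (minpoly F s)) (E : Type*) [Field E] [Finite E] [Algebra F E]
    (hE : finrank F E ∣ (minpoly F s).natDegree) : ∃ φ : E →ₐ[F] Module.End F V, ∀ h, Commute h s → ∀ x, Commute h (φ x) := by
  obtain ⟨φ, hφ, hinj⟩ := field_act s _ rfl hs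
  haveI : Fact (Irreducible (minpoly F s)) := ⟨hs⟩
  haveI : Module.Finite F (AdjoinRoot (minpoly F s)) := (AdjoinRoot.powerBasis hs.ne_zero).finite
  haveI : Finite (AdjoinRoot (minpoly F s)) := Module.finite_of_finite F
  have hd : finrank F (AdjoinRoot (minpoly F s)) = (minpoly F s).natDegree := by
    rw [(AdjoinRoot.powerBasis hs.ne_zero).finrank, AdjoinRoot.powerBasis_dim]
  obtain ⟨ψ⟩ := FiniteField.nonempty_algHom_of_finrank_dvd (F := F) (K := E) (L := AdjoinRoot (minpoly F s)) (by rw [hd]; exact hE)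
  refine ⟨φ.comp ψ, ?_⟩
  intro h hc x
  rw [AlgHom.comp_apply]
  obtain ⟨p, hp⟩ := AdjoinRoot.mk_surjective (ψ x)
  have h1 : φ (AdjoinRoot.mk _ p) = aeval s p := by
    have h3 : AdjoinRoot.mk (minpoly F s) p = aeval (AdjoinRoot.root (minpoly F s)) p := (AdjoinRoot.aeval_eq p).symm
    rw [h3, ← aeval_algHom_apply, hφ]
  rw [← hp, h1]
  exact commute_aeval hc p

/-- dimension two or three -/
theorem exists_phi_small {g : Module.End F V} (h2 : 2 ≤ finrank F V) (h3 : finrank F V ≤ 3) (hg : ∀ (c : F) (v : V), g v = c • v → v = 0) (E : Type*) [Field E] [Finite E] [Algebra F E]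
    (hE : finrank F E ∣ finrank F V) : ∃ φ : E →ₐ[F] Module.End F V, ∀ x, Commute g (φ x) := by
  haveI : Nontrivial V := Module.nontrivial_of_finrank_pos (R := F) (by omega)
  have hdeg : (LinearMap.charpoly g).natDegree = finrank F V := LinearMap.charpoly_natDegree g
  have hirr : Irreducible (LinearMap.charpoly g) := by
    rw [(LinearMap.charpoly_monic g).irreducible_iff_roots_eq_zero_of_degree_le_three (by omega) (by omega), Multiset.eq_zero_iff_forall_notMem]
    intro c hc
    have h1 := (mem_roots'.mp hc).2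
    rw [← Module.End.hasEigenvalue_iff_isRoot_charpoly] at h1
    obtain ⟨v, hv⟩ := h1.exists_hasEigenvector
    exact hv.2 (hg c v (Module.End.mem_eigenspace_iff.mp hv.1))
  have hmin : minpoly F g = LinearMap.charpoly g := by
    have h1 : minpoly F g ∣ LinearMap.charpoly g := LinearMap.minpoly_dvd_charpoly g
    have hint : IsIntegral F g := Algebra.IsIntegral.isIntegral g
    rcases (hirr.dvd_iff.mp h1) with h | h
    · exact absurd h (minpoly.not_isUnit F g)
    · exact (eq_of_monic_of_associated (LinearMap.charpoly_monic g) (minpoly.monic hint) h).symm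
  obtain ⟨φ, hφ⟩ := exists_phi (s := g) (by rw [hmin]; exact hirr) E (by rw [hmin, hdeg]; exact hE)
  exact ⟨φ, hφ g (Commute.refl g)⟩

/-- gluing -/
theorem glue {W₁ W₂ : Submodule F V} (hW : IsCompl W₁ W₂) (E : Type*) [Field E] [Algebra F E] (φ₁ : E →ₐ[F] Module.End F W₁) (φ₂ : E →ₐ[F] Module.End F W₂)
    {g : Module.End F V} {g₁ : Module.End F W₁} {g₂ : Module.End F W₂} (h₁ : ∀ w : W₁, ((g₁ w : W₁) : V) = g w) (h₂ : ∀ w : W₂, ((g₂ w : W₂) : V) = g w)
    (c₁ : ∀ x, Commute g₁ (φ₁ x)) (c₂ : ∀ x, Commute g₂ (φ₂ x)) : ∃ φ : E →ₐ[F] Module.End F V, ∀ x, Commute g (φ x) := by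
  let e := Submodule.prodEquivOfIsCompl W₁ W₂ hW
  let ψ : E →ₐ[F] Module.End F (W₁ × W₂) := (LinearMap.prodMapAlgHom F W₁ W₂).comp (φ₁.prod φ₂)
  have hψ : ∀ x v, ψ x v = (φ₁ x v.1, φ₂ x v.2) := fun x v => rfl
  let Φ : E →ₐ[F] Module.End F V := (e.conjAlgEquiv F : Module.End F (W₁ × W₂) →ₐ[F] Module.End F V).comp ψ
  have hΦ : ∀ x v, Φ x (e v) = e (φ₁ x v.1, φ₂ x v.2) := by
    intro x v
    change e (ψ x (e.symm (e v))) = _
    rw [e.symm_apply_apply, hψ]
  refine ⟨Φ, ?_⟩
  intro x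
  have he : ∀ v : W₁ × W₂, e v = (v.1 : V) + (v.2 : V) := fun v => rfl
  have hge : ∀ v : W₁ × W₂, g (e v) = e (g₁ v.1, g₂ v.2) := by
    intro v
    rw [he, he, map_add, h₁, h₂]
  apply LinearMap.ext
  intro v
  obtain ⟨v, rfl⟩ := e.surjective v
  change g (Φ x (e v)) = Φ x (g (e v))
  rw [hΦ, hge, hge, hΦ]
  have d1 : g₁ (φ₁ x v.1) = φ₁ x (g₁ v.1) := congrArg (fun f : Module.End F W₁ => f v.1) (c₁ x).eq
  have d2 : g₂ (φ₂ x v.2) = φ₂ x (g₂ v.2) := congrArg (fun f : Module.End F W₂ => f v.2) (c₂ x).eq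
  simp only [d1, d2]

/-- nilpotent operators have kernel -/
theorem exists_eig [Nontrivial V] {g : Module.End F V} {c : F} {N : ℕ} (h : (g - algebraMap F _ c) ^ N = 0) : ∃ v, v ≠ 0 ∧ g v = c • v := by
  by_contra hcon
  push Not at hcon
  have hinj : ∀ v, (g - algebraMap F (Module.End F V) c) v = 0 → v = 0 := by
    intro v hv
    by_contra hne
    apply hcon v hne
    rw [LinearMap.sub_apply, sub_eq_zero, Module.algebraMap_end_apply] at hv
    exact hv
  have h1 : ∀ (k : ℕ) v, ((g - algebraMap F (Module.End F V) c) ^ k) v = 0 → v = 0 := by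
    intro k
    induction k with
    | zero => intro v hv; exact hv
    | succ k ih =>
      intro v hv
      rw [pow_succ] at hv
      exact hinj v (ih _ hv)
  obtain ⟨v, hv⟩ := exists_ne (0 : V)
  exact hv (h1 N v (by rw [h]; rfl))

/-- dimension four -/
theorem exists_phi_four (p : ℕ) [Fact p.Prime] [CharP F p] {g : (Module.End F V)ˣ} (h4 : finrank F V = 4) (hg : ∀ (c : F) (v : V), (g : Module.End F V) v = c • v → v = 0)
    (E : Type*) [Field E] [Finite E] [Algebra F E] (hE : finrank F E = 2) : ∃ φ : E →ₐ[F] Module.End F V, ∀ x, Commute (g : Module.End F V) (φ x) := by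
  have hp : p.Prime := Fact.out
  haveI : Nontrivial V := Module.nontrivial_of_finrank_pos (R := F) (by omega)
  haveI : Finite V := Module.finite_of_finite F
  haveI : Finite (Module.End F V) := Finite.of_injective (fun g => (g : V → V)) DFunLike.coe_injective
  have hpos : 0 < orderOf g := orderOf_pos g
  obtain ⟨k, hk⟩ : ∃ k, k = (orderOf g).factorization p := ⟨_, rfl⟩
  obtain ⟨m, hmd⟩ : ∃ m, m = orderOf g / p ^ k := ⟨_, rfl⟩
  have hpe : p ^ k ∣ orderOf g := hk ▸ Nat.ordProj_dvd _ p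
  have hN : orderOf g = m * p ^ k := by rw [hmd, Nat.div_mul_cancel hpe]
  have htp : ¬ p ∣ m := by rw [hmd, hk]; exact Nat.not_dvd_ordCompl hp hpos.ne'
  have hm0 : (m : F) ≠ 0 := by
    rw [Ne, CharP.cast_eq_zero_iff F p]
    exact htp
  set s : Module.End F V := (g : Module.End F V) ^ p ^ k with hs
  have hsm : s ^ m = 1 := by
    rw [hs, ← pow_mul, mul_comm, ← hN, ← Units.val_pow_eq_pow_val, pow_orderOf_eq_one, Units.val_one]
  have hst : aeval s (X ^ m - C 1 : F[X]) = 0 := by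
    simp [hsm]
  have hP : Squarefree (X ^ m - C 1 : F[X]) := (separable_X_pow_sub_C 1 hm0 one_ne_zero).squarefree
  have hgs : Commute (g : Module.End F V) s := (Commute.refl _).pow_right _
  rcases decomp_or_irreducible s _ hP hst with ⟨W₁, W₂, hW, hW₁, hW₂, hinv⟩ | hirr
  · obtain ⟨i₁, i₂⟩ := hinv _ hgs
    obtain ⟨g₁, -, a₁⟩ := H46.OrthDec.exists_res g W₁ i₁
    obtain ⟨g₂, -, a₂⟩ := H46.OrthDec.exists_res g W₂ i₂
    have e₁ : ∀ (c : F) (v : W₁), (g₁ : Module.End F W₁) v = c • v → v = 0 := by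
      intro c v hv
      apply Subtype.ext
      apply hg c
      rw [← a₁, hv]; rfl
    have e₂ : ∀ (c : F) (v : W₂), (g₂ : Module.End F W₂) v = c • v → v = 0 := by
      intro c v hv
      apply Subtype.ext
      apply hg c
      rw [← a₂, hv]; rfl
    have one : ∀ {W : Type _} [AddCommGroup W] [Module F W] (f : Module.End F W), finrank F W = 1 → ∃ (c : F) (v : W), f v = c • v ∧ v ≠ 0 := by
      intro W _ _ f hW
      obtain ⟨v, hv0, hv⟩ := finrank_eq_one_iff'.mp hW
      obtain ⟨c, hc⟩ := hv (f v)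
      exact ⟨c, v, hc.symm, hv0⟩
    have hfs := Submodule.finrank_add_eq_of_isCompl hW
    have hp1 : 0 < finrank F W₁ := by
      rw [Nat.pos_iff_ne_zero, Ne, Submodule.finrank_eq_zero]; exact hW₁
    have hp2 : 0 < finrank F W₂ := by
      rw [Nat.pos_iff_ne_zero, Ne, Submodule.finrank_eq_zero]; exact hW₂
    have n1 : finrank F W₁ ≠ 1 := by
      intro h
      obtain ⟨c, v, hv, hv0⟩ := one (g₁ : Module.End F W₁) h
      exact hv0 (e₁ c v hv)
    have n2 : finrank F W₂ ≠ 1 := by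
      intro h
      obtain ⟨c, v, hv, hv0⟩ := one (g₂ : Module.End F W₂) h
      exact hv0 (e₂ c v hv)
    have d1 : finrank F W₁ = 2 := by omega
    have d2 : finrank F W₂ = 2 := by omega
    obtain ⟨φ₁, c₁⟩ := exists_phi_small (g := (g₁ : Module.End F W₁)) (by omega) (by omega) e₁ E (by rw [hE, d1])
    obtain ⟨φ₂, c₂⟩ := exists_phi_small (g := (g₂ : Module.End F W₂)) (by omega) (by omega) e₂ E (by rw [hE, d2])
    exact glue hW E φ₁ φ₂ a₁ a₂ c₁ c₂
  · obtain ⟨l, hl0, hldim, -⟩ := field_data s _ rfl hirr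
    have hd : finrank F (AdjoinRoot (minpoly F s)) = (minpoly F s).natDegree := by
      rw [(AdjoinRoot.powerBasis hirr.ne_zero).finrank, AdjoinRoot.powerBasis_dim]
    rw [hd, h4] at hldim
    have hne1 : (minpoly F s).natDegree ≠ 1 := by
      intro h1
      have hint : IsIntegral F s := Algebra.IsIntegral.isIntegral s
      obtain ⟨c, hc⟩ : ∃ c : F, s = algebraMap F _ c := by
        have h3 : minpoly F s = X + C ((minpoly F s).coeff 0) := (minpoly.monic hint).eq_X_add_C h1
        have h5 := minpoly.aeval F s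
        rw [h3, map_add, aeval_X, aeval_C, add_eq_zero_iff_eq_neg, ← map_neg] at h5
        exact ⟨_, h5⟩
      haveI : CharP (Module.End F V) p := charP_of_injective_algebraMap (FaithfulSMul.algebraMap_injective F (Module.End F V)) p
      obtain ⟨b, hb⟩ : ∃ b : F, b ^ p ^ k = c := by
        haveI : PerfectRing F p := inferInstance
        refine ⟨(iterateFrobeniusEquiv F p k).symm c, ?_⟩
        have := (iterateFrobeniusEquiv F p k).apply_symm_apply c
        rwa [iterateFrobeniusEquiv_apply, iterateFrobenius_def] at this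
      have h3 : ((g : Module.End F V) - algebraMap F _ b) ^ p ^ k = 0 := by
        rw [sub_pow_char_pow_of_commute p k (Algebra.commutes b (g : Module.End F V)).symm, ← map_pow, hb, ← hc, ← hs, sub_self]
      obtain ⟨v, hv0, hv⟩ := exists_eig h3
      exact hv0 (hg b v hv)
    have h2d : 2 ∣ (minpoly F s).natDegree := by
      have h1 : (minpoly F s).natDegree ∣ 4 := ⟨l, hldim.symm⟩
      have h3 : (minpoly F s).natDegree ≤ 4 := Nat.le_of_dvd (by norm_num) h1
      have h5 : 0 < (minpoly F s).natDegree := Nat.pos_of_dvd_of_pos h1 (by norm_num)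
      interval_cases (minpoly F s).natDegree
      · exact absurd rfl hne1
      · exact dvd_rfl
      · omega
      · exact ⟨2, rfl⟩
    obtain ⟨φ, hφ⟩ := exists_phi hirr E (by rw [hE]; exact h2d)
    exact ⟨φ, hφ _ hgs⟩

end structure_

section conj
variable {F : Type*} [Field F] [Finite F]

/-- a field structure as a coordinate space -/
theorem model {V : Type*} [AddCommGroup V] [Module F V] [FiniteDimensional F V] {E : Type*} [Field E] [Finite E] [Algebra F E] [FiniteDimensional F E]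
    (φ : E →ₐ[F] Module.End F V) {k : ℕ} (hk : finrank F E * k = finrank F V) : ∃ e : V ≃ₗ[F] (Fin k → E), ∀ x v, e (φ x v) = x • e v := by
  letI : Module E V := Module.compHom V φ.toRingHom
  have hsmul : ∀ (x : E) (v : V), x • v = φ x v := fun x v => rfl
  haveI : IsScalarTower F E V := by
    constructor
    intro c x v
    rw [hsmul, hsmul, map_smul, LinearMap.smul_apply]
  haveI : Module.Finite E V := Module.Finite.of_restrictScalars_finite F E V
  have h1 := Module.finrank_mul_finrank F E V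
  have h3 : finrank E V = k := by
    have : 0 < finrank F E := Module.finrank_pos
    exact Nat.eq_of_mul_eq_mul_left this (by rw [h1, hk])
  let b : Basis (Fin k) E V := (Module.finBasis E V).reindex (finCongr h3)
  refine ⟨b.equivFun.restrictScalars F, ?_⟩
  intro x v
  rw [← hsmul]
  exact map_smul b.equivFun x v

/-- operators commuting with the field structure, of given determinant -/
theorem exists_det {E : Type*} [Field E] [Finite E] [Algebra F E] [FiniteDimensional F E] (k : ℕ) (hk : 0 < k) (c : F) (hc : c ≠ 0) :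
    ∃ z : Module.End F (Fin k → E), (∀ (x : E) v, z (x • v) = x • z v) ∧ LinearMap.det z = c := by
  obtain ⟨x, hx⟩ := FiniteField.norm_surjective F E c
  let f : (Fin k → E) →ₗ[E] (Fin k → E) := Matrix.toLin' (Matrix.diagonal (Function.update (fun _ => (1 : E)) ⟨0, hk⟩ x))
  refine ⟨f.restrictScalars F, fun x v => map_smul f x v, ?_⟩
  have h1 : LinearMap.det f = x := by
    rw [LinearMap.det_toLin', Matrix.det_diagonal, Finset.prod_update_of_mem (Finset.mem_univ _)]
    simp
  rw [LinearMap.det_restrictScalars, h1, hx]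

/-- the centralizer of a field structure -/
def KE {n : ℕ} {E : Type*} [Field E] [Algebra F E] (φ : E →ₐ[F] Module.End F (Fin n → F)) : Subgroup (Matrix.SpecialLinearGroup (Fin n) F) where
  carrier := {A | ∀ x, Commute (Matrix.toLin' (A : Matrix (Fin n) (Fin n) F)) (φ x)}
  one_mem' := by
    intro x
    rw [Matrix.SpecialLinearGroup.coe_one, Matrix.toLin'_one]
    exact Commute.one_left _
  mul_mem' := by
    intro A B hA hB x
    rw [Matrix.SpecialLinearGroup.coe_mul, Matrix.toLin'_mul]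
    exact (hA x).mul_left (hB x)
  inv_mem' := by
    intro A hA x
    have h1 : Matrix.toLin' (A : Matrix (Fin n) (Fin n) F) * Matrix.toLin' ((A⁻¹ : Matrix.SpecialLinearGroup (Fin n) F) : Matrix (Fin n) (Fin n) F) = 1 := by
      have h3 : Matrix.toLin' ((A * A⁻¹ : Matrix.SpecialLinearGroup (Fin n) F) : Matrix (Fin n) (Fin n) F) = 1 := by
        rw [mul_inv_cancel, Matrix.SpecialLinearGroup.coe_one, Matrix.toLin'_one]; rfl
      rwa [Matrix.SpecialLinearGroup.coe_mul, Matrix.toLin'_mul] at h3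
    have h2 : Matrix.toLin' ((A⁻¹ : Matrix.SpecialLinearGroup (Fin n) F) : Matrix (Fin n) (Fin n) F) * Matrix.toLin' (A : Matrix (Fin n) (Fin n) F) = 1 := by
      have h3 : Matrix.toLin' ((A⁻¹ * A : Matrix.SpecialLinearGroup (Fin n) F) : Matrix (Fin n) (Fin n) F) = 1 := by
        rw [inv_mul_cancel, Matrix.SpecialLinearGroup.coe_one, Matrix.toLin'_one]; rfl
      rwa [Matrix.SpecialLinearGroup.coe_mul, Matrix.toLin'_mul] at h3
    set a := Matrix.toLin' (A : Matrix (Fin n) (Fin n) F)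
    set b := Matrix.toLin' ((A⁻¹ : Matrix.SpecialLinearGroup (Fin n) F) : Matrix (Fin n) (Fin n) F)
    have h3 := (hA x).eq
    show b * φ x = φ x * b
    calc b * φ x = b * φ x * (a * b) := by rw [h1, mul_one]
      _ = b * (φ x * a) * b := by simp only [mul_assoc]
      _ = b * (a * φ x) * b := by rw [h3]
      _ = (b * a) * (φ x * b) := by simp only [mul_assoc]
      _ = φ x * b := by rw [h2, one_mul]

theorem conj_KE {n : ℕ} (hn : 0 < n) {E : Type*} [Field E] [Finite E] [Algebra F E] (hE : finrank F E ∣ n) (φ₀ φ : E →ₐ[F] Module.End F (Fin n → F))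
    (A : Matrix.SpecialLinearGroup (Fin n) F) (hA : ∀ x, Commute (Matrix.toLin' (A : Matrix (Fin n) (Fin n) F)) (φ x)) :
    ∃ X : Matrix.SpecialLinearGroup (Fin n) F, X * A * X⁻¹ ∈ KE φ₀ := by
  haveI : FiniteDimensional F E := Module.Finite.of_finite
  obtain ⟨k, hk⟩ := hE
  have hk0 : 0 < k := by
    rcases Nat.eq_zero_or_pos k with h | h
    · rw [h, mul_zero] at hk; omega
    · exact h
  have hdim : finrank F (Fin n → F) = n := by rw [Module.finrank_fin_fun]
  obtain ⟨e, he⟩ := model φ (k := k) (by rw [hdim, hk])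
  obtain ⟨e₀, he₀⟩ := model φ₀ (k := k) (by rw [hdim, hk])
  let y : (Fin n → F) ≃ₗ[F] (Fin n → F) := e.trans e₀.symm
  have hdy : LinearMap.det (y : (Fin n → F) →ₗ[F] (Fin n → F)) ≠ 0 := (LinearEquiv.isUnit_det' y).ne_zero
  obtain ⟨z, hz, hzd⟩ := exists_det (F := F) (E := E) k hk0 _ (inv_ne_zero hdy)
  let z' : Module.End F (Fin n → F) := (e₀.symm : (Fin k → E) →ₗ[F] (Fin n → F)) ∘ₗ z ∘ₗ (e₀ : (Fin n → F) →ₗ[F] (Fin k → E))
  have hz' : ∀ v, z' v = e₀.symm (z (e₀ v)) := fun v => rfl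
  have hdz : LinearMap.det z' = (LinearMap.det (y : (Fin n → F) →ₗ[F] (Fin n → F)))⁻¹ := by
    rw [← hzd]
    exact LinearMap.det_conj z e₀.symm
  let M : Matrix (Fin n) (Fin n) F := LinearMap.toMatrix' (z' ∘ₗ (y : (Fin n → F) →ₗ[F] (Fin n → F)))
  have hM : M.det = 1 := by
    rw [LinearMap.det_toMatrix', LinearMap.det_comp, hdz, inv_mul_cancel₀ hdy]
  let X : Matrix.SpecialLinearGroup (Fin n) F := ⟨M, hM⟩
  have hX : ∀ v, Matrix.toLin' (X : Matrix (Fin n) (Fin n) F) v = z' (y v) := by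
    intro v
    change Matrix.toLin' M v = _
    rw [Matrix.toLin'_toMatrix']; rfl
  -- intertwining
  have hXφ : ∀ x, Matrix.toLin' (X : Matrix (Fin n) (Fin n) F) * φ x = φ₀ x * Matrix.toLin' (X : Matrix (Fin n) (Fin n) F) := by
    intro x
    apply LinearMap.ext
    intro v
    change Matrix.toLin' (X : Matrix (Fin n) (Fin n) F) (φ x v) = φ₀ x (Matrix.toLin' (X : Matrix (Fin n) (Fin n) F) v)
    rw [hX, hX, hz', hz']
    change e₀.symm (z (e₀ (e₀.symm (e (φ x v))))) = φ₀ x (e₀.symm (z (e₀ (e₀.symm (e v)))))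
    rw [e₀.apply_symm_apply, e₀.apply_symm_apply, he, hz]
    apply e₀.injective
    rw [he₀, e₀.apply_symm_apply, e₀.apply_symm_apply]
  refine ⟨X, ?_⟩
  intro x
  have hinv : Matrix.toLin' (X : Matrix (Fin n) (Fin n) F) * Matrix.toLin' ((X⁻¹ : Matrix.SpecialLinearGroup (Fin n) F) : Matrix (Fin n) (Fin n) F) = 1 := by
    have h3 : Matrix.toLin' ((X * X⁻¹ : Matrix.SpecialLinearGroup (Fin n) F) : Matrix (Fin n) (Fin n) F) = 1 := by
      rw [mul_inv_cancel, Matrix.SpecialLinearGroup.coe_one, Matrix.toLin'_one]; rfl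
    rwa [Matrix.SpecialLinearGroup.coe_mul, Matrix.toLin'_mul] at h3
  have hinv' : Matrix.toLin' ((X⁻¹ : Matrix.SpecialLinearGroup (Fin n) F) : Matrix (Fin n) (Fin n) F) * Matrix.toLin' (X : Matrix (Fin n) (Fin n) F) = 1 := by
    have h3 : Matrix.toLin' ((X⁻¹ * X : Matrix.SpecialLinearGroup (Fin n) F) : Matrix (Fin n) (Fin n) F) = 1 := by
      rw [inv_mul_cancel, Matrix.SpecialLinearGroup.coe_one, Matrix.toLin'_one]; rfl
    rwa [Matrix.SpecialLinearGroup.coe_mul, Matrix.toLin'_mul] at h3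
  show Matrix.toLin' ((X * A * X⁻¹ : Matrix.SpecialLinearGroup (Fin n) F) : Matrix (Fin n) (Fin n) F) * φ₀ x = φ₀ x * Matrix.toLin' ((X * A * X⁻¹ : Matrix.SpecialLinearGroup (Fin n) F) : Matrix (Fin n) (Fin n) F)
  rw [Matrix.SpecialLinearGroup.coe_mul, Matrix.SpecialLinearGroup.coe_mul, Matrix.toLin'_mul, Matrix.toLin'_mul]
  have h3 := hXφ x
  have h4 := (hA x).eq
  set a := Matrix.toLin' (A : Matrix (Fin n) (Fin n) F)
  set t := Matrix.toLin' (X : Matrix (Fin n) (Fin n) F)
  set t' := Matrix.toLin' ((X⁻¹ : Matrix.SpecialLinearGroup (Fin n) F) : Matrix (Fin n) (Fin n) F)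
  change (t * a) * t' * φ₀ x = φ₀ x * ((t * a) * t')
  have h5 : t' * φ₀ x = φ x * t' := by
    calc t' * φ₀ x = t' * φ₀ x * (t * t') := by rw [hinv, mul_one]
      _ = t' * (φ₀ x * t) * t' := by simp only [mul_assoc]
      _ = t' * (t * φ x) * t' := by rw [h3]
      _ = (t' * t) * (φ x * t') := by simp only [mul_assoc]
      _ = φ x * t' := by rw [hinv', one_mul]
  calc (t * a) * t' * φ₀ x = t * (a * (t' * φ₀ x)) := by simp only [mul_assoc]
    _ = t * (a * φ x) * t' := by rw [h5]; simp only [mul_assoc]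
    _ = (t * φ x) * (a * t') := by rw [h4]; simp only [mul_assoc]
    _ = φ₀ x * ((t * a) * t') := by rw [h3]; simp only [mul_assoc]

/-- the stabilizer of a point -/
def PL {n : ℕ} (v₀ : Fin n → F) : Subgroup (Matrix.SpecialLinearGroup (Fin n) F) where
  carrier := {A | ∃ c : F, (A : Matrix (Fin n) (Fin n) F).mulVec v₀ = c • v₀}
  one_mem' := ⟨1, by rw [Matrix.SpecialLinearGroup.coe_one, Matrix.one_mulVec, one_smul]⟩
  mul_mem' := by
    rintro A B ⟨a, ha⟩ ⟨b, hb⟩
    refine ⟨b * a, ?_⟩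
    rw [Matrix.SpecialLinearGroup.coe_mul, ← Matrix.mulVec_mulVec, hb, Matrix.mulVec_smul, ha, smul_smul]
  inv_mem' := by
    rintro A ⟨a, ha⟩
    have h1 : ((A⁻¹ : Matrix.SpecialLinearGroup (Fin n) F) : Matrix (Fin n) (Fin n) F).mulVec ((A : Matrix (Fin n) (Fin n) F).mulVec v₀) = v₀ := by
      rw [Matrix.mulVec_mulVec, ← Matrix.SpecialLinearGroup.coe_mul, inv_mul_cancel, Matrix.SpecialLinearGroup.coe_one, Matrix.one_mulVec]
    rw [ha, Matrix.mulVec_smul] at h1
    by_cases h0 : a = 0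
    · rw [h0, zero_smul] at h1
      refine ⟨0, ?_⟩
      rw [← h1, Matrix.mulVec_zero, smul_zero]
    · refine ⟨a⁻¹, ?_⟩
      conv_rhs => rw [← h1]
      rw [smul_smul, inv_mul_cancel₀ h0, one_smul]

theorem exists_move {n : ℕ} (i₀ : Fin n) {v : Fin n → F} (hv : v ≠ 0) :
    ∃ (X : Matrix.SpecialLinearGroup (Fin n) F) (c : F), c ≠ 0 ∧ (X : Matrix (Fin n) (Fin n) F).mulVec v = c • Pi.single i₀ 1 := by
  classical
  have h0 : (Pi.single i₀ (1 : F) : Fin n → F) ≠ 0 := by
    intro h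
    have := congrFun h i₀
    simp at this
  obtain ⟨y, hy⟩ := H85.SecMaxAff.trans (K := F) hv h0
  have hdy : LinearMap.det (y : (Fin n → F) →ₗ[F] (Fin n → F)) ≠ 0 := (LinearEquiv.isUnit_det' y).ne_zero
  obtain ⟨δ, hδ⟩ : ∃ δ, δ = (LinearMap.det (y : (Fin n → F) →ₗ[F] (Fin n → F)))⁻¹ := ⟨_, rfl⟩
  let D : Matrix (Fin n) (Fin n) F := Matrix.diagonal (Function.update (fun _ => (1 : F)) i₀ δ)
  let M : Matrix (Fin n) (Fin n) F := D * LinearMap.toMatrix' (y : (Fin n → F) →ₗ[F] (Fin n → F))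
  have hM : M.det = 1 := by
    rw [Matrix.det_mul, Matrix.det_diagonal, Finset.prod_update_of_mem (Finset.mem_univ _), LinearMap.det_toMatrix', hδ]
    simp [hdy]
  refine ⟨⟨M, hM⟩, δ, by rw [hδ]; exact inv_ne_zero hdy, ?_⟩
  change M.mulVec v = _
  rw [← Matrix.mulVec_mulVec, LinearMap.toMatrix'_mulVec]
  have h1 : (y : (Fin n → F) →ₗ[F] (Fin n → F)) v = Pi.single i₀ 1 := hy
  rw [h1]
  ext j
  rw [Matrix.mulVec_diagonal]
  by_cases hj : j = i₀
  · subst hj; simp
  · simp [hj]

theorem PL_ne_top {n : ℕ} (i₀ i₁ : Fin n) (h : i₀ ≠ i₁) : PL (Pi.single i₀ (1 : F) : Fin n → F) ≠ ⊤ := by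
  classical
  intro htop
  have h0 : (Pi.single i₁ (1 : F) : Fin n → F) ≠ 0 := by
    intro h
    have := congrFun h i₁
    simp at this
  obtain ⟨X, c, hc, hX⟩ := exists_move i₀ h0
  have h1 : X⁻¹ ∈ PL (Pi.single i₀ (1 : F) : Fin n → F) := by rw [htop]; exact Subgroup.mem_top _
  obtain ⟨b, hb⟩ := h1
  have h3 : ((X⁻¹ : Matrix.SpecialLinearGroup (Fin n) F) : Matrix (Fin n) (Fin n) F).mulVec ((X : Matrix (Fin n) (Fin n) F).mulVec (Pi.single i₁ 1)) = Pi.single i₁ 1 := by
    rw [Matrix.mulVec_mulVec, ← Matrix.SpecialLinearGroup.coe_mul, inv_mul_cancel, Matrix.SpecialLinearGroup.coe_one, Matrix.one_mulVec]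
  rw [hX, Matrix.mulVec_smul, hb] at h3
  have h4 := congrFun h3 i₁
  simp [Ne.symm h] at h4

theorem KE_ne_top {n : ℕ} (hn : 2 ≤ n) {E : Type*} [Field E] [Finite E] [Algebra F E] (hE : 2 ≤ finrank F E) (φ : E →ₐ[F] Module.End F (Fin n → F)) : KE φ ≠ ⊤ := by
  intro htop
  -- every `φ x` is scalar
  have hsc : ∀ x, ∃ c : F, φ x = algebraMap F _ c := by
    intro x
    have h1 : ∀ i j : Fin n, i ≠ j → Commute (LinearMap.toMatrix' (φ x)) (Matrix.transvection i j (1 : F)) := by
      intro i j hij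
      have h4 : Commute (Matrix.toLin' (Matrix.transvection i j (1 : F))) (φ x) := by
        have h3 : ∀ T : Matrix.SpecialLinearGroup (Fin n) F, T ∈ KE φ := fun T => by rw [htop]; exact Subgroup.mem_top _
        exact h3 ⟨Matrix.transvection i j (1 : F), Matrix.det_transvection_of_ne i j hij 1⟩ x
      have h5 := congrArg LinearMap.toMatrix' h4.eq
      change LinearMap.toMatrix' (Matrix.toLin' (Matrix.transvection i j (1 : F)) ∘ₗ φ x) = LinearMap.toMatrix' (φ x ∘ₗ Matrix.toLin' (Matrix.transvection i j (1 : F))) at h5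
      rw [LinearMap.toMatrix'_comp, LinearMap.toMatrix'_comp, LinearMap.toMatrix'_toLin'] at h5
      exact h5.symm
    have h3 : ∀ i j : Fin n, i ≠ j → Commute (Matrix.single i j (1 : F)) (LinearMap.toMatrix' (φ x)) := by
      intro i j hij
      have h4 := (h1 i j hij).eq
      unfold Matrix.transvection at h4
      rw [mul_add, add_mul, mul_one, one_mul] at h4
      exact (add_left_cancel h4).symm
    obtain ⟨c, hc⟩ := Matrix.mem_range_scalar_of_commute_single (fun i j hij => h3 i j hij)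
    refine ⟨c, ?_⟩
    apply LinearMap.toMatrix'.injective
    rw [← hc]
    have h5 : LinearMap.toMatrix' (algebraMap F (Module.End F (Fin n → F)) c) = c • LinearMap.toMatrix' (LinearMap.id : (Fin n → F) →ₗ[F] (Fin n → F)) := by
      rw [← map_smul]; rfl
    rw [h5, LinearMap.toMatrix'_id, Matrix.scalar_apply, ← Matrix.smul_one_eq_diagonal]
  have hinj : Function.Injective φ := by
    haveI : Nontrivial (Fin n → F) := by
      haveI : Nonempty (Fin n) := ⟨⟨0, by omega⟩⟩
      infer_instance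
    exact φ.toRingHom.injective
  have hsurj : Function.Surjective (algebraMap F E) := by
    intro x
    obtain ⟨c, hc⟩ := hsc x
    refine ⟨c, hinj ?_⟩
    rw [hc, AlgHom.commutes]
  have h1 : finrank F E = 1 := by
    rw [finrank_eq_one_iff']
    refine ⟨1, one_ne_zero, fun w => ?_⟩
    obtain ⟨c, hc⟩ := hsurj w
    exact ⟨c, by rw [Algebra.smul_def, hc, mul_one]⟩
  omega

theorem center_mul {n : ℕ} {A : Matrix.SpecialLinearGroup (Fin n) F} (hA : A ∈ Subgroup.center (Matrix.SpecialLinearGroup (Fin n) F)) :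
    ∃ c : F, (A : Matrix (Fin n) (Fin n) F) = Matrix.scalar (Fin n) c := by
  obtain ⟨r, -, hr⟩ := Matrix.SpecialLinearGroup.mem_center_iff.mp hA
  exact ⟨r, hr.symm⟩

/-- the covering -/
theorem cover {n : ℕ} (hn : 2 ≤ n) {d : ℕ} (hd : 2 ≤ d) (hdn : d ∣ n)
    (h : ∀ (A : Matrix.SpecialLinearGroup (Fin n) F) (E : Type) [Field E] [Finite E] [Algebra F E], finrank F E = d →
      (∀ (c : F) (v : Fin n → F), (A : Matrix (Fin n) (Fin n) F).mulVec v = c • v → v = 0) → ∃ φ : E →ₐ[F] Module.End F (Fin n → F), ∀ x, Commute (Matrix.toLin' (A : Matrix (Fin n) (Fin n) F)) (φ x)) :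
    H46.Cov.Cov (Matrix.ProjectiveSpecialLinearGroup (Fin n) F) := by
  classical
  obtain ⟨E, _, _, _, hE, -⟩ := exists_field_ext F d (by omega)
  let i₀ : Fin n := ⟨0, by omega⟩
  let i₁ : Fin n := ⟨1, by omega⟩
  have hne : i₀ ≠ i₁ := by
    intro h
    have := congrArg Fin.val h
    simp [i₀, i₁] at this
  have hP : ∀ A ∈ Subgroup.center (Matrix.SpecialLinearGroup (Fin n) F), A ∈ PL (Pi.single i₀ (1 : F) : Fin n → F) := by
    intro A hA
    obtain ⟨c, hc⟩ := center_mul hA
    refine ⟨c, ?_⟩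
    rw [hc, Matrix.scalar_apply]
    ext j
    rw [Matrix.mulVec_diagonal, Pi.smul_apply, smul_eq_mul]
  have hcov : ∀ A : Matrix.SpecialLinearGroup (Fin n) F, (∃ X : Matrix.SpecialLinearGroup (Fin n) F, X * A * X⁻¹ ∈ PL (Pi.single i₀ (1 : F) : Fin n → F)) ∨
      ∃ φ : E →ₐ[F] Module.End F (Fin n → F), ∀ x, Commute (Matrix.toLin' (A : Matrix (Fin n) (Fin n) F)) (φ x) := by
    intro A
    by_cases hA : ∀ (c : F) (v : Fin n → F), (A : Matrix (Fin n) (Fin n) F).mulVec v = c • v → v = 0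
    · exact Or.inr (h A E hE hA)
    · push Not at hA
      obtain ⟨c, v, hcv, hv⟩ := hA
      obtain ⟨X, b, hb, hX⟩ := exists_move i₀ hv
      left
      refine ⟨X, c, ?_⟩
      have h3 : ((X⁻¹ : Matrix.SpecialLinearGroup (Fin n) F) : Matrix (Fin n) (Fin n) F).mulVec ((X : Matrix (Fin n) (Fin n) F).mulVec v) = v := by
        rw [Matrix.mulVec_mulVec, ← Matrix.SpecialLinearGroup.coe_mul, inv_mul_cancel, Matrix.SpecialLinearGroup.coe_one, Matrix.one_mulVec]
      rw [hX, Matrix.mulVec_smul] at h3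
      have h4 : ((X⁻¹ : Matrix.SpecialLinearGroup (Fin n) F) : Matrix (Fin n) (Fin n) F).mulVec (Pi.single i₀ 1) = b⁻¹ • v := by
        rw [← h3, smul_smul, inv_mul_cancel₀ hb, one_smul]
      rw [Matrix.SpecialLinearGroup.coe_mul, Matrix.SpecialLinearGroup.coe_mul, ← Matrix.mulVec_mulVec, ← Matrix.mulVec_mulVec, h4, Matrix.mulVec_smul, hcv, Matrix.mulVec_smul, Matrix.mulVec_smul, hX,
        smul_smul, smul_smul, mul_comm b⁻¹, mul_assoc, inv_mul_cancel₀ hb, mul_one]
  by_cases hex : ∃ φ : E →ₐ[F] Module.End F (Fin n → F), True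
  · obtain ⟨φ₀, -⟩ := hex
    refine H46.Cov.quot (PL_ne_top (F := F) i₀ i₁ hne) (KE_ne_top hn (by rw [hE]; exact hd) φ₀) hP ?_ ?_
    · intro A hA x
      obtain ⟨c, hc⟩ := center_mul hA
      rw [hc]
      have h1 : Matrix.toLin' (Matrix.scalar (Fin n) c) = algebraMap F (Module.End F (Fin n → F)) c := by
        apply LinearMap.ext
        intro v
        rw [Matrix.toLin'_apply, Matrix.scalar_apply, Module.algebraMap_end_apply]
        ext j
        rw [Matrix.mulVec_diagonal, Pi.smul_apply, smul_eq_mul]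
      rw [h1]
      exact Algebra.commutes c (φ₀ x)
    · intro A
      rcases hcov A with ⟨X, hX⟩ | ⟨φ, hφ⟩
      · exact ⟨X, Or.inl hX⟩
      · obtain ⟨X, hX⟩ := conj_KE (by omega) (by rw [hE]; exact hdn) φ₀ φ A hφ
        exact ⟨X, Or.inr hX⟩
  · refine H46.Cov.quot (PL_ne_top (F := F) i₀ i₁ hne) (PL_ne_top (F := F) i₀ i₁ hne) hP hP ?_
    intro A
    rcases hcov A with ⟨X, hX⟩ | ⟨φ, hφ⟩
    · exact ⟨X, Or.inl hX⟩
    · exact absurd ⟨φ, trivial⟩ hex

theorem cover_two : H46.Cov.Cov (Matrix.ProjectiveSpecialLinearGroup (Fin 2) F) := by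
  apply cover (d := 2) le_rfl le_rfl dvd_rfl
  intro A E _ _ _ hE hA
  exact exists_phi_small (g := Matrix.toLin' (A : Matrix (Fin 2) (Fin 2) F)) (by rw [Module.finrank_fin_fun]) (by rw [Module.finrank_fin_fun]; norm_num)
    (fun c v hv => hA c v (by rw [← Matrix.toLin'_apply]; exact hv)) E (by rw [hE, Module.finrank_fin_fun])

theorem cover_three : H46.Cov.Cov (Matrix.ProjectiveSpecialLinearGroup (Fin 3) F) := by
  apply cover (d := 3) (by norm_num) (by norm_num) dvd_rfl
  intro A E _ _ _ hE hA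
  exact exists_phi_small (g := Matrix.toLin' (A : Matrix (Fin 3) (Fin 3) F)) (by rw [Module.finrank_fin_fun]; norm_num) (by rw [Module.finrank_fin_fun])
    (fun c v hv => hA c v (by rw [← Matrix.toLin'_apply]; exact hv)) E (by rw [hE, Module.finrank_fin_fun])

theorem cover_four : H46.Cov.Cov (Matrix.ProjectiveSpecialLinearGroup (Fin 4) F) := by
  obtain ⟨p, hp⟩ := CharP.exists F
  haveI := hp
  haveI : Fact p.Prime := ⟨CharP.char_is_prime F p⟩
  apply cover (d := 2) (by norm_num) le_rfl (by norm_num)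
  intro A E _ _ _ hE hA
  let g : (Module.End F (Fin 4 → F))ˣ := Matrix.GeneralLinearGroup.toLin (A : Matrix.GeneralLinearGroup (Fin 4) F)
  have hg : (g : Module.End F (Fin 4 → F)) = Matrix.toLin' (A : Matrix (Fin 4) (Fin 4) F) := rfl
  rw [← hg]
  exact exists_phi_four p (g := g) (by rw [Module.finrank_fin_fun]) (fun c v hv => hA c v (by rw [← Matrix.toLin'_apply, ← hg]; exact hv)) E hE

end conj

end H46.CovSL
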