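import Mathlib
import Cfsg.Agent.Lib.H46.UDich
import Cfsg.Agent.Lib.H46.CovSL

/-! Isometries of hermitian spaces over finite fields: eigenvectors and totally isotropic invariant planes. -/

set_option autoImplicit false

namespace H46.CovU

open Module Polynomial H46.SForm H46.SForm.SForm H46.OrthDec H46.FieldInv H46.ExtElt H46.OrdPSU

variable {K : Type*} [Field K] [Fintype K] {q : ℕ}

theorem odd_of_bar (hF : Fintype.card K = q ^ 2) (d : ℕ) (hd : ∀ c : K, bar hF c = c ^ (q ^ d)) : Odd d := by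
  rw [← Nat.not_even_iff_odd]
  intro hev
  obtain ⟨c, hc⟩ := exists_bar_ne hF
  apply hc
  rw [hd c]
  obtain ⟨m, rfl⟩ := hev
  have : ∀ m : ℕ, c ^ (q ^ (m + m)) = c := by
    intro m
    induction m with
    | zero => simp
    | succ m ih =>
      rw [show m + 1 + (m + 1) = (m + m) + 2 by ring, pow_add, pow_mul, ih, ← hF, FiniteField.pow_card]
  exact this m

section

variable {V : Type*} [AddCommGroup V] [Module K V]

/-- irreducible isometries have minimal polynomials of odd degree -/
theorem irr_odd [Module.Finite K V] (hF : Fintype.card K = q ^ 2) [Nontrivial V] {f : SForm K V (bar hF)} (hnd : f.ND) (hsym : f.Sym 1)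
    (s : (Module.End K V)ˣ) (hs : f.Isom s) (h : Irreducible (minpoly K (s : Module.End K V))) :
    Odd (minpoly K (s : Module.End K V)).natDegree ∧ (minpoly K (s : Module.End K V)).natDegree ∣ finrank K V := by
  obtain ⟨R, hR, -, hθR, hcR⟩ := irred_data (bar_bar hF) (hsym.ndr hnd) s hs _ rfl h (Or.inl (exists_bar_ne hF))
  obtain ⟨k, hk0, hkdim, -⟩ := field_data (s : Module.End K V) _ rfl h
  haveI hfact : Fact (Irreducible (minpoly K (s : Module.End K V))) := ⟨h⟩
  haveI hfin0 : Module.Finite K (AdjoinRoot (minpoly K (s : Module.End K V))) := (AdjoinRoot.powerBasis h.ne_zero).finite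
  haveI hfin1 : Finite (AdjoinRoot (minpoly K (s : Module.End K V))) := Module.finite_of_finite K
  have hd : finrank K (AdjoinRoot (minpoly K (s : Module.End K V))) = (minpoly K (s : Module.End K V)).natDegree := by
    rw [(AdjoinRoot.powerBasis h.ne_zero).finrank, AdjoinRoot.powerBasis_dim]
  rw [hd] at hkdim
  have hcardE : Nat.card (AdjoinRoot (minpoly K (s : Module.End K V))) = q ^ (2 * (minpoly K (s : Module.End K V)).natDegree) := by
    rw [Module.natCard_eq_pow_finrank (K := K), hd, Nat.card_eq_fintype_card, hF, ← pow_mul]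
  have hRq : R = q ^ (minpoly K (s : Module.End K V)).natDegree := by
    rw [hcardE, mul_comm, pow_mul] at hR
    exact Nat.pow_left_injective (by norm_num : 2 ≠ 0) hR
  exact ⟨odd_of_bar hF _ (by intro c; rw [hcR c, hRq]), ⟨k, hkdim.symm⟩⟩

/-- isotropic subspaces are totally isotropic -/
theorem ti_of_iso (hF : Fintype.card K = q ^ 2) {f : SForm K V (bar hF)} (hsym : f.Sym 1) (X : Submodule K V)
    (h : ∀ v ∈ X, f.B v v = 0) : ∀ v ∈ X, ∀ w ∈ X, f.B v w = 0 := by
  intro v hv w hw
  by_contra hb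
  have key : ∀ c : K, bar hF c * f.B v w + c * bar hF (f.B v w) = 0 := by
    intro c
    have h1 := h (v + c • w) (add_mem hv (X.smul_mem c hw))
    rw [f.add_left, f.add_right, f.add_right, f.smul_left, f.smul_left, f.smul_right, f.smul_right, h v hv, h w hw, hsym v w] at h1
    linear_combination h1
  have hb' : bar hF (f.B v w) ≠ 0 := by
    intro h0
    rw [map_eq_zero] at h0
    exact hb h0
  have key2 : ∀ x : K, x + bar hF x = 0 := by
    intro x
    have h1 := key (x * (bar hF (f.B v w))⁻¹)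
    rw [map_mul, map_inv₀, bar_bar, mul_assoc, mul_assoc, inv_mul_cancel₀ hb, inv_mul_cancel₀ hb', mul_one, mul_one] at h1
    rw [add_comm]
    exact h1
  obtain ⟨c, hc⟩ := exists_bar_ne hF
  apply hc
  have h1 := key2 1
  rw [map_one] at h1
  have h2 := key2 c
  linear_combination h2 - c * h1

/-- totally isotropic subspaces are small -/
theorem ti_finrank [Module.Finite K V] {σ : K →+* K} {f : SForm K V σ} (hndr : f.NDR) (W : Submodule K V) (hW : ∀ v ∈ W, ∀ w ∈ W, f.B v w = 0) :
    2 * finrank K W ≤ finrank K V := by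
  have hV : Finite V := Module.finite_of_finite K
  let φ : W → Module.Dual K (V ⧸ W) := fun w => W.liftQ
    { toFun := fun v => f.B v (w : V)
      map_add' := fun x y => f.add_left _ _ _
      map_smul' := fun c x => f.smul_left _ _ _ } (by
        intro v hv
        rw [LinearMap.mem_ker]
        exact hW v hv w w.2)
  have hφ : ∀ (w : W) (v : V), φ w (W.mkQ v) = f.B v (w : V) := fun w v => rfl
  have hinj : Function.Injective φ := by
    intro x y hxy
    apply Subtype.ext
    apply sub_eq_zero.mp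
    apply hndr
    intro v
    have h1 : f.B v x = f.B v y := by rw [← hφ, ← hφ, hxy]
    rw [f.sub_right, h1, sub_self]
  have hfin : Finite (Module.Dual K (V ⧸ W)) := Module.finite_of_finite K
  have h1 := Nat.card_le_card_of_injective φ hinj
  rw [Module.natCard_eq_pow_finrank (K := K), Module.natCard_eq_pow_finrank (K := K) (V := Module.Dual K (V ⧸ W)), Subspace.dual_finrank_eq,
    Nat.pow_le_pow_iff_right (Finite.one_lt_card (α := K))] at h1
  have h2 := Submodule.finrank_quotient_add_finrank W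
  omega

/-- the semisimple part of an isometry -/
theorem tri [Module.Finite K V] (hF : Fintype.card K = q ^ 2) (p : ℕ) [Fact p.Prime] [CharP K p] [Nontrivial V] {f : SForm K V (bar hF)} (hnd : f.ND) (hsym : f.Sym 1)
    (g : (Module.End K V)ˣ) (hg : f.Isom g) :
    (∃ W₁ W₂ : Submodule K V, IsCompl W₁ W₂ ∧ W₁ ≠ ⊥ ∧ W₂ ≠ ⊥ ∧ (∀ v ∈ W₁, ∀ w ∈ W₂, f.B v w = 0) ∧
      (∀ v ∈ W₁, (g : Module.End K V) v ∈ W₁) ∧ (∀ v ∈ W₂, (g : Module.End K V) v ∈ W₂)) ∨
    (∃ c : K, c * bar hF c = 1 ∧ IsNilpotent ((g : Module.End K V) - algebraMap K _ c)) ∨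
    (∃ k : ℕ, Irreducible (minpoly K ((g ^ p ^ k : (Module.End K V)ˣ) : Module.End K V)) ∧ Odd (minpoly K ((g ^ p ^ k : (Module.End K V)ˣ) : Module.End K V)).natDegree ∧
      (minpoly K ((g ^ p ^ k : (Module.End K V)ˣ) : Module.End K V)).natDegree ≠ 1 ∧
      (minpoly K ((g ^ p ^ k : (Module.End K V)ˣ) : Module.End K V)).natDegree ∣ finrank K V) ∨
    (∃ (W₁ W₂ : Submodule K V), Pair f W₁ W₂ ∧ W₁ ≠ ⊥ ∧ W₂ ≠ ⊥ ∧
      (∀ v ∈ W₁, (g : Module.End K V) v ∈ W₁) ∧ (∀ v ∈ W₂, (g : Module.End K V) v ∈ W₂)) := by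
  have hp : p.Prime := Fact.out
  haveI : Finite V := Module.finite_of_finite K
  haveI : Finite (Module.End K V) := Finite.of_injective (fun g => (g : V → V)) DFunLike.coe_injective
  have hpos : 0 < orderOf g := orderOf_pos g
  obtain ⟨k, hk⟩ : ∃ k, k = (orderOf g).factorization p := ⟨_, rfl⟩
  obtain ⟨m, hmd⟩ : ∃ m, m = orderOf g / p ^ k := ⟨_, rfl⟩
  have hpe : p ^ k ∣ orderOf g := hk ▸ Nat.ordProj_dvd _ p
  have hN : orderOf g = m * p ^ k := by rw [hmd, Nat.div_mul_cancel hpe]
  have htp : ¬ p ∣ m := by rw [hmd, hk]; exact Nat.not_dvd_ordCompl hp hpos.ne'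
  have hm0 : (m : K) ≠ 0 := by
    rw [Ne, CharP.cast_eq_zero_iff K p]
    exact htp
  obtain ⟨s, hs⟩ : ∃ s : (Module.End K V)ˣ, s = g ^ p ^ k := ⟨_, rfl⟩
  have hsm : s ^ m = 1 := by
    rw [hs, ← pow_mul, mul_comm, ← hN, pow_orderOf_eq_one]
  have hst : aeval (s : Module.End K V) (X ^ m - C 1 : K[X]) = 0 := by
    have : (s : Module.End K V) ^ m = 1 := by rw [← Units.val_pow_eq_pow_val, hsm]; rfl
    simp [this]
  have hP : Squarefree (X ^ m - C 1 : K[X]) := (separable_X_pow_sub_C 1 hm0 one_ne_zero).squarefree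
  have hgs : Commute (g : Module.End K V) (s : Module.End K V) := by
    rw [hs, Units.val_pow_eq_pow_val]
    exact Commute.self_pow _ _
  have hsi : f.Isom s := by rw [hs]; exact hg.pow _
  rcases structure_isom (bar_bar hF) (ε := (1 : K)) ⟨map_one _, by ring⟩ hsym hnd s hsi _ hP hst with h | h | h
  · left
    obtain ⟨W₁, W₂, hW, hW₁, hW₂, horth, hinv⟩ := h
    exact ⟨W₁, W₂, hW, hW₁, hW₂, horth, hinv _ hgs⟩
  · right
    obtain ⟨ho, hd⟩ := irr_odd hF hnd hsym s hsi h
    by_cases h1 : (minpoly K (s : Module.End K V)).natDegree = 1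
    · left
      have hint : IsIntegral K (s : Module.End K V) := Algebra.IsIntegral.isIntegral _
      obtain ⟨c, hc⟩ : ∃ c : K, (s : Module.End K V) = algebraMap K _ c := by
        have h3 : minpoly K (s : Module.End K V) = X + C ((minpoly K (s : Module.End K V)).coeff 0) := (minpoly.monic hint).eq_X_add_C h1
        have h5 := minpoly.aeval K (s : Module.End K V)
        rw [h3, map_add, aeval_X, aeval_C, add_eq_zero_iff_eq_neg, ← map_neg] at h5
        exact ⟨_, h5⟩
      haveI : CharP (Module.End K V) p := charP_of_injective_algebraMap (FaithfulSMul.algebraMap_injective K (Module.End K V)) p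
      haveI : PerfectRing K p := inferInstance
      obtain ⟨b, hb⟩ : ∃ b : K, b ^ p ^ k = c := by
        refine ⟨(iterateFrobeniusEquiv K p k).symm c, ?_⟩
        have := (iterateFrobeniusEquiv K p k).apply_symm_apply c
        rwa [iterateFrobeniusEquiv_apply, iterateFrobenius_def] at this
      refine ⟨b, ?_, p ^ k, ?_⟩
      · have h3 : c * bar hF c = 1 := norm_one_of_scalar hnd hsi hc
        rw [← hb, map_pow, ← mul_pow] at h3
        have h4 : (b * bar hF b - 1) ^ p ^ k = 0 := by
          rw [sub_pow_char_pow, h3, one_pow, sub_self]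
        exact sub_eq_zero.mp (pow_eq_zero_iff (pow_pos hp.pos k).ne' |>.mp h4)
      · rw [sub_pow_char_pow_of_commute p k (Algebra.commutes b (g : Module.End K V)).symm, ← map_pow, hb, ← hc, hs, Units.val_pow_eq_pow_val, sub_self]
    · right; left
      rw [hs] at h ho hd h1
      exact ⟨k, h, ho, h1, hd⟩
  · right; right; right
    obtain ⟨W₁, W₂, h, hW, hW₁, hW₂, hiso₁, hiso₂, hinv, -, -⟩ := h
    exact ⟨W₁, W₂, ⟨hW, hiso₁, hiso₂⟩, hW₁, hW₂, hinv _ hgs⟩

theorem eig1 (g : Module.End K V) (h : finrank K V = 1) : ∃ (c : K) (v : V), v ≠ 0 ∧ g v = c • v := by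
  obtain ⟨v, hv0, hv⟩ := finrank_eq_one_iff'.mp h
  obtain ⟨c, hc⟩ := hv (g v)
  exact ⟨c, v, hv0, hc.symm⟩

theorem eig_sub (g : Module.End K V) (W : Submodule K V) (hW : ∀ v ∈ W, g v ∈ W) (h : finrank K W = 1) : ∃ (c : K) (v : V), v ∈ W ∧ v ≠ 0 ∧ g v = c • v := by
  obtain ⟨c, v, hv, h⟩ := eig1 (g.restrict hW) h
  refine ⟨c, v, v.2, fun h => hv (Subtype.ext h), ?_⟩
  exact congrArg Subtype.val h

/-- isometries of planes have eigenvectors -/
theorem eig2 [Module.Finite K V] (hF : Fintype.card K = q ^ 2) (p : ℕ) [Fact p.Prime] [CharP K p] (h2 : finrank K V = 2) {f : SForm K V (bar hF)} (hnd : f.ND) (hsym : f.Sym 1)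
    (g : (Module.End K V)ˣ) (hg : f.Isom g) : ∃ (c : K) (v : V), v ≠ 0 ∧ (g : Module.End K V) v = c • v := by
  haveI : Nontrivial V := Module.nontrivial_of_finrank_pos (R := K) (by omega)
  rcases tri hF p hnd hsym g hg with ⟨W₁, W₂, hW, hW₁, hW₂, -, h₁, h₂⟩ | ⟨c, -, N, hN⟩ | ⟨k, -, ho, h1, hd⟩ | ⟨W₁, W₂, hW, hW₁, hW₂, h₁, h₂⟩
  · have hfs := Submodule.finrank_add_eq_of_isCompl hW
    have hp1 : 0 < finrank K W₁ := by
      rw [Nat.pos_iff_ne_zero, Ne, Submodule.finrank_eq_zero]; exact hW₁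
    have hp2 : 0 < finrank K W₂ := by
      rw [Nat.pos_iff_ne_zero, Ne, Submodule.finrank_eq_zero]; exact hW₂
    obtain ⟨c, v, -, hv0, hv⟩ := eig_sub (g : Module.End K V) W₁ h₁ (by omega)
    exact ⟨c, v, hv0, hv⟩
  · obtain ⟨v, hv0, hv⟩ := H46.CovSL.exists_eig hN
    exact ⟨c, v, hv0, hv⟩
  · exfalso
    rw [h2] at hd
    rcases (Nat.dvd_prime Nat.prime_two).mp hd with h | h
    · exact h1 h
    · rw [h] at ho
      exact absurd ho (by decide)
  · have hfs := Submodule.finrank_add_eq_of_isCompl hW.compl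
    have hp1 : 0 < finrank K W₁ := by
      rw [Nat.pos_iff_ne_zero, Ne, Submodule.finrank_eq_zero]; exact hW₁
    have hp2 : 0 < finrank K W₂ := by
      rw [Nat.pos_iff_ne_zero, Ne, Submodule.finrank_eq_zero]; exact hW₂
    obtain ⟨c, v, -, hv0, hv⟩ := eig_sub (g : Module.End K V) W₁ h₁ (by omega)
    exact ⟨c, v, hv0, hv⟩

end

section
variable {V : Type*} [AddCommGroup V] [Module K V]

theorem ne_zero_of_line {σ : K →+* K} {f : SForm K V σ} (hnd : f.ND) {W₁ W₂ : Submodule K V} (hW : IsCompl W₁ W₂)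
    (horth : ∀ v ∈ W₁, ∀ w ∈ W₂, f.B v w = 0) (h1 : finrank K W₁ = 1) {v : V} (hv : v ∈ W₁) (hv0 : v ≠ 0) : f.B v v ≠ 0 := by
  intro h0
  apply hv0
  apply hnd
  intro w
  obtain ⟨a, ha, b, hb, rfl⟩ := mem_sup_of_compl hW w
  rw [f.add_right, horth v hv b hb, add_zero]
  obtain ⟨c, hc⟩ := exists_smul_eq_of_finrank_eq_one h1 (x := (⟨v, hv⟩ : W₁)) (fun h => hv0 (congrArg Subtype.val h)) ⟨a, ha⟩
  have h3 : c • v = a := congrArg Subtype.val hc
  rw [← h3, f.smul_right, h0, mul_zero]

/-- the plane spanned by two orthogonal isotropic eigenvectors -/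
theorem plane_of_eig {σ : K →+* K} {f : SForm K V σ} (g : Module.End K V) {v w : V} (hl : LinearIndependent K ![v, w])
    {c d : K} (hv : g v = c • v) (hw : g w = d • w) (h1 : f.B v v = 0) (h2 : f.B w w = 0) (h3 : f.B v w = 0) (h4 : f.B w v = 0) :
    ∃ X : Submodule K V, finrank K X = 2 ∧ (∀ x ∈ X, ∀ y ∈ X, f.B x y = 0) ∧ ∀ x ∈ X, g x ∈ X := by
  refine ⟨Submodule.span K {v, w}, ?_, ?_, ?_⟩
  · have := finrank_span_eq_card hl
    rw [Fintype.card_fin] at this
    have hr : Set.range ![v, w] = {v, w} := by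
      simp only [Matrix.range_cons, Matrix.range_empty, Set.union_empty]
      rfl
    rw [hr] at this
    exact this
  · intro x hx y hy
    obtain ⟨a, b, rfl⟩ := Submodule.mem_span_pair.mp hx
    obtain ⟨a', b', rfl⟩ := Submodule.mem_span_pair.mp hy
    simp only [f.add_left, f.add_right, f.smul_left, f.smul_right, h1, h2, h3, h4, mul_zero, add_zero]
  · intro x hx
    obtain ⟨a, b, rfl⟩ := Submodule.mem_span_pair.mp hx
    rw [map_add, map_smul, map_smul, hv, hw, smul_smul, smul_smul]
    exact Submodule.mem_span_pair.mpr ⟨_, _, rfl⟩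

/-- isometries of four dimensional hermitian spaces -/
theorem main4 [Module.Finite K V] (hF : Fintype.card K = q ^ 2) (p : ℕ) [Fact p.Prime] [CharP K p] (h4 : finrank K V = 4) {f : SForm K V (bar hF)} (hnd : f.ND) (hsym : f.Sym 1)
    (g : (Module.End K V)ˣ) (hg : f.Isom g) :
    (∃ (c : K) (v : V), f.B v v ≠ 0 ∧ (g : Module.End K V) v = c • v) ∨
    (∃ X : Submodule K V, finrank K X = 2 ∧ (∀ v ∈ X, ∀ w ∈ X, f.B v w = 0) ∧ ∀ v ∈ X, (g : Module.End K V) v ∈ X) := by
  haveI : Nontrivial V := Module.nontrivial_of_finrank_pos (R := K) (by omega)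
  have hndr : f.NDR := hsym.ndr hnd
  rcases tri hF p hnd hsym g hg with ⟨W₁, W₂, hW, hW₁, hW₂, horth, h₁, h₂⟩ | ⟨c, hc, hN⟩ | ⟨k, -, ho, h1, hd⟩ | ⟨W₁, W₂, hW, hW₁, hW₂, h₁, h₂⟩
  · have horth' : ∀ v ∈ W₂, ∀ w ∈ W₁, f.B v w = 0 := by
      intro v hv w hw
      rw [hsym w v, horth w hw v hv, map_zero, mul_zero]
    have hfs := Submodule.finrank_add_eq_of_isCompl hW
    have hp1 : 0 < finrank K W₁ := by
      rw [Nat.pos_iff_ne_zero, Ne, Submodule.finrank_eq_zero]; exact hW₁
    have hp2 : 0 < finrank K W₂ := by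
      rw [Nat.pos_iff_ne_zero, Ne, Submodule.finrank_eq_zero]; exact hW₂
    by_cases d1 : finrank K W₁ = 1
    · left
      obtain ⟨c, v, hvW, hv0, hv⟩ := eig_sub (g : Module.End K V) W₁ h₁ d1
      exact ⟨c, v, ne_zero_of_line hnd hW horth d1 hvW hv0, hv⟩
    by_cases d2 : finrank K W₂ = 1
    · left
      obtain ⟨c, v, hvW, hv0, hv⟩ := eig_sub (g : Module.End K V) W₂ h₂ d2
      exact ⟨c, v, ne_zero_of_line hnd hW.symm horth' d2 hvW hv0, hv⟩
    obtain ⟨u₁, u₂, i₁, i₂, n₁, n₂, -, -, -, a₁, a₂⟩ := decomp_isom hsym hnd W₁ W₂ hW horth g hg h₁ h₂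
    have s₁ : (f.pull W₁.subtype).Sym 1 := fun v w => hsym _ _
    have s₂ : (f.pull W₂.subtype).Sym 1 := fun v w => hsym _ _
    obtain ⟨c₁, v₁, v₁0, hv₁⟩ := eig2 hF p (by omega) n₁ s₁ u₁ i₁
    obtain ⟨c₂, v₂, v₂0, hv₂⟩ := eig2 hF p (by omega) n₂ s₂ u₂ i₂
    have e₁ : (g : Module.End K V) v₁ = c₁ • (v₁ : V) := by rw [← a₁, hv₁]; rfl
    have e₂ : (g : Module.End K V) v₂ = c₂ • (v₂ : V) := by rw [← a₂, hv₂]; rfl
    by_cases z₁ : f.B (v₁ : V) v₁ = 0
    · by_cases z₂ : f.B (v₂ : V) v₂ = 0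
      · right
        apply plane_of_eig _ _ e₁ e₂ z₁ z₂ (horth _ v₁.2 _ v₂.2) (horth' _ v₂.2 _ v₁.2)
        rw [LinearIndependent.pair_iff]
        intro a b hab
        have h3 : a • (v₁ : V) ∈ W₁ ⊓ W₂ := by
          refine ⟨W₁.smul_mem _ v₁.2, ?_⟩
          rw [eq_neg_of_add_eq_zero_left hab]
          exact W₂.neg_mem (W₂.smul_mem _ v₂.2)
        rw [hW.inf_eq_bot, Submodule.mem_bot] at h3
        have h5 : b • (v₂ : V) = 0 := by rw [h3, zero_add] at hab; exact hab
        constructor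
        · rcases smul_eq_zero.mp h3 with h | h
          · exact h
          · exact absurd (Subtype.ext h) v₁0
        · rcases smul_eq_zero.mp h5 with h | h
          · exact h
          · exact absurd (Subtype.ext h) v₂0
      · left; exact ⟨c₂, v₂, z₂, e₂⟩
    · left; exact ⟨c₁, v₁, z₁, e₁⟩
  · obtain ⟨N, hNd⟩ : ∃ N : Module.End K V, N = (g : Module.End K V) - algebraMap K _ c := ⟨_, rfl⟩
    rw [← hNd] at hN
    have hker : ∀ v, v ∈ LinearMap.ker N ↔ (g : Module.End K V) v = c • v := by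
      intro v
      rw [LinearMap.mem_ker, hNd, LinearMap.sub_apply, sub_eq_zero, Module.algebraMap_end_apply]
    by_cases hns : ∃ v ∈ LinearMap.ker N, f.B v v ≠ 0
    · obtain ⟨v, hv, hvv⟩ := hns
      left
      exact ⟨c, v, hvv, (hker v).mp hv⟩
    right
    push Not at hns
    have hti := ti_of_iso hF hsym (LinearMap.ker N) hns
    have hle := ti_finrank hndr _ hti
    have hN4 : N ^ 4 = 0 := by
      have h1 : LinearMap.charpoly N = X ^ finrank K V := (LinearMap.isNilpotent_iff_charpoly N).mp hN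
      have h2 := LinearMap.aeval_self_charpoly N
      rw [h1, h4] at h2
      simpa using h2
    have hkpos : 0 < finrank K (LinearMap.ker N) := by
      rw [Nat.pos_iff_ne_zero, Ne, Submodule.finrank_eq_zero]
      intro hbot
      obtain ⟨M, hM⟩ := hN
      rw [hNd] at hM
      obtain ⟨v, hv0, hv⟩ := H46.CovSL.exists_eig hM
      have : v ∈ LinearMap.ker N := (hker v).mpr hv
      rw [hbot, Submodule.mem_bot] at this
      exact hv0 this
    have hcomm : Commute (g : Module.End K V) N := by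
      rw [hNd]
      exact (Commute.refl _).sub_right (Algebra.commutes c (g : Module.End K V)).symm
    by_cases hk2 : finrank K (LinearMap.ker N) = 2
    · refine ⟨LinearMap.ker N, hk2, hti, ?_⟩
      intro v hv
      rw [(hker v).mp hv]
      exact Submodule.smul_mem _ _ hv
    have hk1 : finrank K (LinearMap.ker N) = 1 := by omega
    -- the range of the square
    have hr1 := LinearMap.finrank_range_add_finrank_ker N
    have hr2 := LinearMap.finrank_range_add_finrank_ker (N.domRestrict (LinearMap.range N))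
    have hr3 : finrank K (LinearMap.ker (N.domRestrict (LinearMap.range N))) ≤ 1 := by
      rw [← hk1]
      let i : LinearMap.ker (N.domRestrict (LinearMap.range N)) →ₗ[K] LinearMap.ker N :=
        { toFun := fun x => ⟨((x : LinearMap.range N) : V), x.2⟩
          map_add' := fun x y => rfl
          map_smul' := fun c x => rfl }
      apply LinearMap.finrank_le_finrank_of_injective (f := i)
      intro x y hxy
      apply Subtype.ext
      apply Subtype.ext
      have h5 : (i x : V) = (i y : V) := congrArg Subtype.val hxy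
      exact h5
    have hr4 : LinearMap.range (N.domRestrict (LinearMap.range N)) = LinearMap.range (N * N) := by
      ext x
      constructor
      · rintro ⟨⟨y, z, rfl⟩, rfl⟩
        exact ⟨z, rfl⟩
      · rintro ⟨z, rfl⟩
        exact ⟨⟨N z, z, rfl⟩, rfl⟩
    rw [hr4] at hr2
    have hti2 : ∀ v ∈ LinearMap.range (N * N), ∀ w ∈ LinearMap.range (N * N), f.B v w = 0 := by
      rintro _ ⟨x, rfl⟩ _ ⟨y, rfl⟩
      have hadj : f.Adj N (((g⁻¹ : (Module.End K V)ˣ) : Module.End K V) - algebraMap K _ (bar hF c)) := by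
        rw [hNd]
        exact hg.adj.sub (Adj.algebraMap (bar_bar hF) c)
      have hM : (((g⁻¹ : (Module.End K V)ˣ) : Module.End K V) - algebraMap K _ (bar hF c)) =
          (algebraMap K _ (-(bar hF c)) * ((g⁻¹ : (Module.End K V)ˣ) : Module.End K V)) * N := by
        rw [hNd, mul_sub, mul_assoc, Units.inv_mul, mul_one]
        have h5 : (algebraMap K (Module.End K V)) (-(bar hF) c) * ((g⁻¹ : (Module.End K V)ˣ) : Module.End K V) * (algebraMap K (Module.End K V)) c =
            - ((g⁻¹ : (Module.End K V)ˣ) : Module.End K V) := by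
          rw [mul_assoc, ← Algebra.commutes c ((g⁻¹ : (Module.End K V)ˣ) : Module.End K V), ← mul_assoc, ← map_mul]
          have : -(bar hF) c * c = -1 := by linear_combination -hc
          rw [this, map_neg, map_one, neg_one_mul]
        rw [h5, map_neg]
        abel
      obtain ⟨M, hMd⟩ : ∃ M : Module.End K V, M = algebraMap K _ (-(bar hF c)) * ((g⁻¹ : (Module.End K V)ˣ) : Module.End K V) := ⟨_, rfl⟩
      rw [← hMd] at hM
      have hcommM : Commute M N := by
        rw [hMd]
        refine Commute.mul_left (Algebra.commutes _ N) ?_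
        exact Commute.units_inv_left hcomm
      rw [hM] at hadj
      have h6 := (hadj.mul hadj) x ((N * N) y)
      rw [h6]
      have h7 : (M * N * (M * N)) * (N * N) = 0 := by
        have h8 : M * N * (M * N) = M * M * (N * N) := by
          calc M * N * (M * N) = M * (N * M) * N := by simp only [mul_assoc]
            _ = M * (M * N) * N := by rw [hcommM.eq]
            _ = M * M * (N * N) := by simp only [mul_assoc]
        rw [h8, mul_assoc (M * M)]
        have h9 : N * N * (N * N) = N ^ 4 := by rw [pow_succ, pow_succ, pow_succ, pow_one]; simp only [mul_assoc]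
        rw [h9, hN4, mul_zero]
      have h10 : (M * N * (M * N)) ((N * N) y) = 0 := congrArg (fun h : Module.End K V => h y) h7
      rw [h10, f.zero_right]
    have hle2 := ti_finrank hndr _ hti2
    refine ⟨LinearMap.range (N * N), by omega, hti2, ?_⟩
    rintro _ ⟨x, rfl⟩
    refine ⟨(g : Module.End K V) x, ?_⟩
    exact congrArg (fun h : Module.End K V => h x) (hcomm.mul_right hcomm).eq.symm
  · exfalso
    rw [h4] at hd
    have h3 : (minpoly K ((g ^ p ^ k : (Module.End K V)ˣ) : Module.End K V)).natDegree ≤ 4 := Nat.le_of_dvd (by norm_num) hd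
    interval_cases (minpoly K ((g ^ p ^ k : (Module.End K V)ˣ) : Module.End K V)).natDegree
    · omega
    · exact h1 rfl
    · exact absurd ho (by decide)
    · omega
    · exact absurd ho (by decide)
  · right
    have hfs := Submodule.finrank_add_eq_of_isCompl hW.compl
    have := hW.finrank_eq hndr
    exact ⟨W₁, by omega, hW.iso₁, h₁⟩

end

end H46.CovU
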