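import Mathlib
import Cfsg.Agent.Lib.H46.CovU
import Cfsg.Agent.Lib.H16.Witt

/-! Transitivity of special unitary groups on nonisotropic lines and totally isotropic subspaces. -/

set_option autoImplicit false

namespace H46.CovU

open Module Polynomial H46.SForm H46.SForm.SForm H46.OrdPSU

variable {K : Type*} [Field K] [Fintype K] {q : ℕ} {V : Type*} [AddCommGroup V] [Module K V]

/-- Witt's theorem -/
theorem witt [Module.Finite K V] (hF : Fintype.card K = q ^ 2) {f : SForm K V (bar hF)} (hnd : f.ND) (hsym : f.Sym 1)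
    (X Y : Submodule K V) (φ : X ≃ₗ[K] Y) (hφ : ∀ x x' : X, f.B (φ x : V) (φ x' : V) = f.B (x : V) (x' : V)) :
    ∃ g : V ≃ₗ[K] V, (∀ u v : V, f.B (g u) (g v) = f.B u v) ∧ ∀ x : X, g (x : V) = (φ x : V) := by
  let B : V →ₛₗ[bar hF] V →ₗ[K] K := LinearMap.mk₂'ₛₗ (bar hF) (RingHom.id K) (fun u v => f.B v u)
    (fun u u' v => f.add_right _ _ _) (fun c u v => f.smul_right _ _ _) (fun u v v' => f.add_left _ _ _) (fun c u v => f.smul_left _ _ _)
  have hB : ∀ u v, B u v = f.B v u := fun u v => rfl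
  have hS : B.IsSymm := ⟨fun x y => by
    rw [hB, hB, hsym y x, one_mul]⟩
  have hN : B.Nondegenerate := ⟨fun x hx => hsym.ndr hnd x (fun v => hx v), fun y hy => hnd y (fun v => hy v)⟩
  obtain ⟨x, hx⟩ := exists_bar_ne hF
  obtain ⟨g, h1, h2⟩ := H16.Witt.witt_herm (bar hF) (fun h => hx (by rw [h]; rfl)) (bar_bar hF) B hS hN X Y φ (fun x x' => hφ x' x)
  exact ⟨g, fun u v => h1 v u, h2⟩

/-- determinants of isometries have norm one -/
theorem det_norm [Module.Finite K V] (hF : Fintype.card K = q ^ 2) {f : SForm K V (bar hF)} (hnd : f.ND) (g : V ≃ₗ[K] V) (hg : ∀ u v, f.B (g u) (g v) = f.B u v) :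
    LinearMap.det (g : V →ₗ[K] V) * bar hF (LinearMap.det (g : V →ₗ[K] V)) = 1 := by
  let n := finrank K V
  let b : Basis (Fin n) K V := Module.finBasis K V
  let A := LinearMap.toMatrix b b (g : V →ₗ[K] V)
  let M : Matrix (Fin n) (Fin n) K := fun i j => f.B (b i) (b j)
  have hl : ∀ (s : Finset (Fin n)) (x : Fin n → K) (w : V), f.B (∑ i ∈ s, x i • b i) w = ∑ i ∈ s, x i * f.B (b i) w := by
    classical
    intro s x w
    induction s using Finset.induction_on with
    | empty => simp [f.zero_left]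
    | insert a s ha ih =>
      rw [Finset.sum_insert ha, Finset.sum_insert ha, f.add_left, ih, f.smul_left]
  have hr : ∀ (s : Finset (Fin n)) (y : Fin n → K) (v : V), f.B v (∑ j ∈ s, y j • b j) = ∑ j ∈ s, bar hF (y j) * f.B v (b j) := by
    classical
    intro s y v
    induction s using Finset.induction_on with
    | empty => simp [f.zero_right]
    | insert a s ha ih =>
      rw [Finset.sum_insert ha, Finset.sum_insert ha, f.add_right, ih, f.smul_right]
  have hub : ∀ j, g (b j) = ∑ i, A i j • b i := by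
    intro j
    have := (Basis.sum_repr b (g (b j))).symm
    rw [this]
    apply Finset.sum_congr rfl
    intro i _
    congr 1
    exact (LinearMap.toMatrix_apply b b (g : V →ₗ[K] V) i j).symm
  have hinv : A.transpose * M * (A.map (bar hF)) = M := by
    ext i j
    have h3 : f.B (g (b i)) (g (b j)) = M i j := hg _ _
    rw [hub, hub, hl] at h3
    rw [← h3, Matrix.mul_apply]
    simp only [Matrix.mul_apply, Matrix.transpose_apply, Matrix.map_apply, Finset.sum_mul]
    rw [Finset.sum_comm]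
    apply Finset.sum_congr rfl
    intro k _
    rw [hr, Finset.mul_sum]
    apply Finset.sum_congr rfl
    intro l _
    show A k i * f.B (b k) (b l) * bar hF (A l j) = A k i * (bar hF (A l j) * f.B (b k) (b l))
    ring
  have hMdet : M.det ≠ 0 := by
    intro h0
    obtain ⟨x, hx0, hx⟩ := Matrix.exists_vecMul_eq_zero_iff.mpr h0
    apply hx0
    have hv : ∑ j, x j • b j = 0 := by
      apply hnd
      intro w
      rw [← b.sum_repr w, hr]
      apply Finset.sum_eq_zero
      intro i _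
      rw [hl]
      have h8 := congrFun hx i
      simp only [Matrix.vecMul, dotProduct, Pi.zero_apply] at h8
      have h9 : ∑ j, x j * f.B (b j) (b i) = 0 := h8
      rw [h9, mul_zero]
    funext j
    exact Fintype.linearIndependent_iff.mp b.linearIndependent x hv j
  have h10 := congrArg Matrix.det hinv
  rw [Matrix.det_mul, Matrix.det_mul, Matrix.det_transpose] at h10
  have h12 : (A.map (bar hF)).det = bar hF A.det := by
    rw [RingHom.map_det]; rfl
  rw [h12] at h10
  have h13 : A.det = LinearMap.det (g : V →ₗ[K] V) := LinearMap.det_toMatrix b _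
  rw [h13] at h10
  apply mul_right_cancel₀ hMdet
  linear_combination h10

/-- Hilbert 90 -/
theorem hilbert (hF : Fintype.card K = q ^ 2) {c : K} (hc : c * bar hF c = 1) : ∃ a : K, a ≠ 0 ∧ a = c * bar hF a := by
  obtain ⟨x, hx⟩ : ∃ x : K, x + c * bar hF x ≠ 0 := by
    by_contra hcon
    push Not at hcon
    obtain ⟨x, hx⟩ := exists_bar_ne hF
    apply hx
    have h1 := hcon 1
    rw [map_one] at h1
    have h2 := hcon x
    have h3 : c = -1 := by linear_combination h1
    rw [h3] at h2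
    linear_combination -h2
  refine ⟨x + c * bar hF x, hx, ?_⟩
  rw [map_add, map_mul, bar_bar]
  linear_combination -x * hc

/-- traces -/
theorem exists_trace (hF : Fintype.card K = q ^ 2) {c : K} (hc : bar hF c = c) : ∃ t : K, t + bar hF t = c := by
  obtain ⟨x, hx⟩ : ∃ x : K, x + bar hF x ≠ 0 := by
    by_contra hcon
    push Not at hcon
    obtain ⟨x, hx⟩ := exists_bar_ne hF
    apply hx
    have h1 := hcon 1
    rw [map_one] at h1
    have h2 := hcon x
    linear_combination h2 - x * h1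
  refine ⟨c * (x + bar hF x)⁻¹ * x, ?_⟩
  have h1 : bar hF (x + bar hF x) = x + bar hF x := by rw [map_add, bar_bar, add_comm]
  rw [map_mul, map_mul, map_inv₀, h1, hc]
  field_simp

/-- norms -/
theorem exists_norm (hF : Fintype.card K = q ^ 2) {c : K} (hc : bar hF c = c) : ∃ t : K, t * bar hF t = c := by
  by_cases hc0 : c = 0
  · exact ⟨0, by rw [hc0, zero_mul]⟩
  have hq : 1 < q := H16.Herm.one_lt_q hF
  obtain ⟨g, hg⟩ := IsCyclic.exists_ofOrder_eq_natCard (α := Kˣ)
  have hcard : Nat.card Kˣ = (q + 1) * (q - 1) := by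
    rw [Nat.card_units, Nat.card_eq_fintype_card, hF, ← Nat.sq_sub_sq, one_pow]
  have hu : (Units.mk0 c hc0) ^ (q - 1) = 1 := by
    apply Units.ext
    rw [Units.val_pow_eq_pow_val, Units.val_mk0, Units.val_one]
    apply mul_right_cancel₀ hc0
    rw [← pow_succ, Nat.sub_add_cancel hq.le, one_mul]
    exact hc
  obtain ⟨k, hk⟩ : ∃ k : ℕ, g ^ k = Units.mk0 c hc0 := by
    have h1 : Submonoid.powers g = ⊤ := by
      have := mem_powers_iff_mem_zpowers (x := g) (y := Units.mk0 c hc0)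
      rw [Submonoid.eq_top_iff']
      intro y
      rw [mem_powers_iff_mem_zpowers]
      have h2 : Subgroup.zpowers g = ⊤ := by
        apply Subgroup.eq_top_of_card_eq
        rw [Nat.card_zpowers, hg]
      rw [h2]; exact Subgroup.mem_top _
    have h2 : Units.mk0 c hc0 ∈ Submonoid.powers g := by rw [h1]; exact Submonoid.mem_top _
    exact h2
  rw [← hk, ← pow_mul] at hu
  have h1 := orderOf_dvd_of_pow_eq_one hu
  rw [hg, hcard] at h1
  obtain ⟨j, hj⟩ := Nat.dvd_of_mul_dvd_mul_right (by omega) h1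
  refine ⟨((g ^ j : Kˣ) : K), ?_⟩
  rw [bar_apply, ← pow_succ', ← Units.val_pow_eq_pow_val, ← pow_mul, mul_comm j, ← hj, hk]; rfl

/-- nonisotropic lines are conjugate under the special unitary group -/
theorem trans_line [Module.Finite K V] (hF : Fintype.card K = q ^ 2) {f : SForm K V (bar hF)} (hnd : f.ND) (hsym : f.Sym 1)
    {v e : V} (hv : f.B v v ≠ 0) (he : f.B e e = 1) :
    ∃ y : V ≃ₗ[K] V, (∀ u v : V, f.B (y u) (y v) = f.B u v) ∧ LinearMap.det (y : V →ₗ[K] V) = 1 ∧ ∃ c : K, c ≠ 0 ∧ y v = c • e := by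
  have h1 : bar hF (f.B v v)⁻¹ = (f.B v v)⁻¹ := by
    have h2 := hsym v v
    rw [one_mul] at h2
    rw [map_inv₀, ← h2]
  obtain ⟨t, ht⟩ := exists_norm hF h1
  have ht0 : t ≠ 0 := by
    rintro rfl
    rw [zero_mul] at ht
    exact inv_ne_zero hv ht.symm
  have hv0 : v ≠ 0 := by rintro rfl; exact hv (f.zero_left _)
  have he0 : e ≠ 0 := by rintro rfl; rw [f.zero_left] at he; exact zero_ne_one he
  have htv0 : t • v ≠ 0 := smul_ne_zero ht0 hv0
  have htv : f.B (t • v) (t • v) = 1 := by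
    rw [f.smul_left, f.smul_right, ← mul_assoc, ht, inv_mul_cancel₀ hv]
  let φ₁ := LinearEquiv.toSpanNonzeroSingleton K V (t • v) htv0
  let φ₂ := LinearEquiv.toSpanNonzeroSingleton K V e he0
  let φ := φ₁.symm.trans φ₂
  have hφ : ∀ c : K, ((φ ⟨c • (t • v), Submodule.smul_mem _ _ (Submodule.mem_span_singleton_self _)⟩ : Submodule.span K {e}) : V) = c • e := by
    intro c
    have h2 : (⟨c • (t • v), Submodule.smul_mem _ _ (Submodule.mem_span_singleton_self _)⟩ : Submodule.span K {t • v}) = φ₁ c := Subtype.ext rfl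
    change ((φ₂ (φ₁.symm _) : Submodule.span K {e}) : V) = _
    rw [h2, φ₁.symm_apply_apply]; rfl
  obtain ⟨y, hy1, hy2⟩ := witt hF hnd hsym (Submodule.span K {t • v}) (Submodule.span K {e}) φ (by
    rintro ⟨x, hx⟩ ⟨x', hx'⟩
    obtain ⟨c, rfl⟩ := Submodule.mem_span_singleton.mp hx
    obtain ⟨c', rfl⟩ := Submodule.mem_span_singleton.mp hx'
    rw [hφ, hφ]
    simp only [f.smul_left, f.smul_right, he]
    have := htv
    rw [f.smul_left, f.smul_right] at this
    linear_combination -(c * bar hF c') * this)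
  have hye : y (t • v) = e := by
    have h2 := hy2 ⟨(1 : K) • (t • v), Submodule.smul_mem _ _ (Submodule.mem_span_singleton_self _)⟩
    rw [hφ] at h2
    have h3 : y ((1 : K) • (t • v)) = (1 : K) • e := h2
    rwa [one_smul, one_smul] at h3
  -- correct the determinant
  set δ := LinearMap.det (y : V →ₗ[K] V) with hδ
  have hδn : δ * bar hF δ = 1 := det_norm hF hnd y hy1
  have hδ0 : δ ≠ 0 := left_ne_zero_of_mul_eq_one hδn
  let ψ : Module.Dual K V :=
    { toFun := fun v => (δ⁻¹ - 1) * f.B v e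
      map_add' := fun x y => by rw [f.add_left, mul_add]
      map_smul' := fun c x => by rw [f.smul_left, smul_eq_mul, RingHom.id_apply]; ring }
  have hψ : ∀ v, ψ v = (δ⁻¹ - 1) * f.B v e := fun v => rfl
  let D : V →ₗ[K] V := LinearMap.transvection ψ e
  have hD : ∀ v, D v = v + ((δ⁻¹ - 1) * f.B v e) • e := fun v => rfl
  have hDdet : LinearMap.det D = δ⁻¹ := by
    rw [LinearMap.transvection.det, hψ, he]; ring
  have hDi : ∀ u v, f.B (D u) (D v) = f.B u v := by
    intro u v
    rw [hD, hD, f.add_left, f.add_right, f.add_right, f.smul_left, f.smul_left, f.smul_right, f.smul_right, he, hsym v e]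
    simp only [map_mul, map_sub, map_one, map_inv₀]
    have h3 : (δ⁻¹ - 1) + (bar hF δ)⁻¹ - 1 + (δ⁻¹ - 1) * ((bar hF δ)⁻¹ - 1) = 0 := by
      have h4 : δ⁻¹ * (bar hF δ)⁻¹ = 1 := by rw [← mul_inv, hδn, inv_one]
      linear_combination h4
    linear_combination (f.B u e * bar hF (f.B v e)) * h3
  let z : V ≃ₗ[K] V := (LinearEquiv.ofIsUnitDet (f := D) (v := Module.finBasis K V) (v' := Module.finBasis K V) (by
    rw [LinearMap.det_toMatrix, hDdet]
    exact (inv_ne_zero hδ0).isUnit))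
  have hz : ∀ v, z v = D v := fun v => rfl
  refine ⟨y.trans z, ?_, ?_, t⁻¹ * δ⁻¹, mul_ne_zero (inv_ne_zero ht0) (inv_ne_zero hδ0), ?_⟩
  · intro u v
    rw [LinearEquiv.trans_apply, LinearEquiv.trans_apply, hz, hz, hDi, hy1]
  · have h2 : ((y.trans z : V ≃ₗ[K] V) : V →ₗ[K] V) = D ∘ₗ (y : V →ₗ[K] V) := by
      ext v; rfl
    rw [h2, LinearMap.det_comp, hDdet, ← hδ, inv_mul_cancel₀ hδ0]
  · have h2 : y v = t⁻¹ • e := by
      rw [← hye, map_smul, smul_smul, inv_mul_cancel₀ ht0, one_smul]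
    rw [LinearEquiv.trans_apply, hz, hD, h2, f.smul_left, he]
    rw [← add_smul]
    congr 1
    ring

/-- totally isotropic subspaces of the same dimension are conjugate under the special unitary group -/
theorem trans_ti [Module.Finite K V] (hF : Fintype.card K = q ^ 2) {f : SForm K V (bar hF)} (hnd : f.ND) (hsym : f.Sym 1)
    {X Y : Submodule K V} (hX : ∀ v ∈ X, ∀ w ∈ X, f.B v w = 0) (hY : ∀ v ∈ Y, ∀ w ∈ Y, f.B v w = 0) (hXY : finrank K X = finrank K Y) (hY0 : Y ≠ ⊥) :
    ∃ y : V ≃ₗ[K] V, (∀ u v : V, f.B (y u) (y v) = f.B u v) ∧ LinearMap.det (y : V →ₗ[K] V) = 1 ∧ ∀ v ∈ X, y v ∈ Y := by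
  let φ : X ≃ₗ[K] Y := LinearEquiv.ofFinrankEq X Y hXY
  obtain ⟨y, hy1, hy2⟩ := witt hF hnd hsym X Y φ (fun x x' => by rw [hX _ x.2 _ x'.2, hY _ (φ x).2 _ (φ x').2])
  set δ := LinearMap.det (y : V →ₗ[K] V) with hδ
  have hδn : δ * bar hF δ = 1 := det_norm hF hnd y hy1
  have hδ0 : δ ≠ 0 := left_ne_zero_of_mul_eq_one hδn
  obtain ⟨a, ha0, ha⟩ := hilbert hF (c := δ⁻¹) (by rw [map_inv₀, ← mul_inv, hδn, inv_one])
  have hba0 : bar hF a ≠ 0 := by rw [Ne, map_eq_zero]; exact ha0
  -- a hyperbolic pair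
  obtain ⟨u, hu, hu0⟩ := Submodule.exists_mem_ne_zero_of_ne_bot hY0
  obtain ⟨w, hw⟩ : ∃ w, f.B u w ≠ 0 := by
    by_contra hcon
    push Not at hcon
    exact hu0 (hnd u hcon)
  have huu : f.B u u = 0 := hY u hu u hu
  obtain ⟨w₁, hw₁⟩ : ∃ w₁, f.B u w₁ = 1 := by
    refine ⟨bar hF (f.B u w)⁻¹ • w, ?_⟩
    rw [f.smul_right, bar_bar, inv_mul_cancel₀ hw]
  have hw₁' : f.B w₁ u = 1 := by rw [hsym u w₁, hw₁, map_one, mul_one]
  obtain ⟨t, ht⟩ := exists_trace hF (c := - f.B w₁ w₁) (by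
    rw [map_neg]
    have h2 := hsym w₁ w₁
    rw [one_mul] at h2
    rw [← h2])
  obtain ⟨w₂, hw₂d⟩ : ∃ w₂, w₂ = w₁ + t • u := ⟨_, rfl⟩
  have hw₂ : f.B u w₂ = 1 := by rw [hw₂d, f.add_right, f.smul_right, huu, mul_zero, add_zero, hw₁]
  have hw₂' : f.B w₂ u = 1 := by rw [hsym u w₂, hw₂, map_one, mul_one]
  have hw₂₂ : f.B w₂ w₂ = 0 := by
    rw [hw₂d, f.add_left, f.add_right, f.add_right, f.smul_left, f.smul_left, f.smul_right, f.smul_right, huu, hw₁, hw₁']
    linear_combination ht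
  let b : K := (bar hF a)⁻¹
  have hab : a * bar hF b = 1 := by
    change a * bar hF (bar hF a)⁻¹ = 1
    rw [map_inv₀, bar_bar, mul_inv_cancel₀ ha0]
  have hab' : b * bar hF a = 1 := inv_mul_cancel₀ hba0
  have habd : a * b = δ⁻¹ := by
    change a * (bar hF a)⁻¹ = δ⁻¹
    nth_rewrite 1 [ha]
    rw [mul_assoc, mul_inv_cancel₀ hba0, mul_one]
  let ψ₁ : Module.Dual K V :=
    { toFun := fun v => (a - 1) * f.B v w₂
      map_add' := fun x y => by rw [f.add_left, mul_add]
      map_smul' := fun c x => by rw [f.smul_left, smul_eq_mul, RingHom.id_apply]; ring }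
  let ψ₂ : Module.Dual K V :=
    { toFun := fun v => (b - 1) * f.B v u
      map_add' := fun x y => by rw [f.add_left, mul_add]
      map_smul' := fun c x => by rw [f.smul_left, smul_eq_mul, RingHom.id_apply]; ring }
  let D₁ : V →ₗ[K] V := LinearMap.transvection ψ₁ u
  let D₂ : V →ₗ[K] V := LinearMap.transvection ψ₂ w₂
  have hD₁ : ∀ v, D₁ v = v + ((a - 1) * f.B v w₂) • u := fun v => rfl
  have hD₂ : ∀ v, D₂ v = v + ((b - 1) * f.B v u) • w₂ := fun v => rfl
  let D : V →ₗ[K] V := D₁ ∘ₗ D₂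
  have hD : ∀ v, D v = v + ((b - 1) * f.B v u) • w₂ + ((a - 1) * f.B v w₂) • u := by
    intro v
    change D₁ (D₂ v) = _
    rw [hD₁, hD₂, f.add_left, f.smul_left, hw₂₂, mul_zero, add_zero]
  have hDdet : LinearMap.det D = δ⁻¹ := by
    have e1 : LinearMap.det D₁ = a := by
      rw [LinearMap.transvection.det]
      change 1 + (a - 1) * f.B u w₂ = a
      rw [hw₂]; ring
    have e2 : LinearMap.det D₂ = b := by
      rw [LinearMap.transvection.det]
      change 1 + (b - 1) * f.B w₂ u = b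
      rw [hw₂']; ring
    rw [LinearMap.det_comp, e1, e2, habd]
  have hDi : ∀ x y, f.B (D x) (D y) = f.B x y := by
    intro x y
    rw [hD, hD]
    simp only [f.add_left, f.add_right, f.smul_left, f.smul_right, hw₂₂, huu, hw₂, hw₂', map_mul, map_sub, map_one]
    rw [hsym y w₂, hsym y u]
    linear_combination (f.B x w₂ * bar hF (f.B y u)) * hab + (f.B x u * bar hF (f.B y w₂)) * hab'
  let z : V ≃ₗ[K] V := (LinearEquiv.ofIsUnitDet (f := D) (v := Module.finBasis K V) (v' := Module.finBasis K V) (by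
    rw [LinearMap.det_toMatrix, hDdet]
    exact (inv_ne_zero hδ0).isUnit))
  have hz : ∀ v, z v = D v := fun v => rfl
  refine ⟨y.trans z, ?_, ?_, ?_⟩
  · intro u v
    rw [LinearEquiv.trans_apply, LinearEquiv.trans_apply, hz, hz, hDi, hy1]
  · have h2 : ((y.trans z : V ≃ₗ[K] V) : V →ₗ[K] V) = D ∘ₗ (y : V →ₗ[K] V) := by
      ext v; rfl
    rw [h2, LinearMap.det_comp, hDdet, ← hδ, inv_mul_cancel₀ hδ0]
  · intro v hv
    have h2 : y v ∈ Y := by rw [hy2 ⟨v, hv⟩]; exact Submodule.coe_mem _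
    rw [LinearEquiv.trans_apply, hz, hD, hY _ h2 _ hu, mul_zero, zero_smul, add_zero]
    exact Y.add_mem h2 (Y.smul_mem _ hu)

end H46.CovU
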