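import Mathlib
import Cfsg.Agent.Lib.H46.CovUT
import Cfsg.Agent.Lib.H46.CovSt
import Cfsg.Agent.Lib.H46.Cov

/-! The four dimensional unitary groups are covered by two subgroups. -/

set_option autoImplicit false

namespace H46.CovPSU4

open Module Polynomial H46.SForm H46.SForm.SForm H46.OrdPSU H46.CovSt H46.CovU Matrix

variable {K : Type*} [Field K] [Fintype K] {q n : ℕ}

/-- the natural representation -/
def rho (n : ℕ) (K : Type*) [Field K] (q : ℕ) : Cfsg.SU n K q →* Module.End K (Fin n → K) where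
  toFun A := Matrix.toLin' ((A : Matrix.SpecialLinearGroup (Fin n) K) : Matrix (Fin n) (Fin n) K)
  map_one' := Matrix.toLin'_one
  map_mul' A B := Matrix.toLin'_mul _ _

theorem rho_apply (A : Cfsg.SU n K q) (v : Fin n → K) : rho n K q A v = ((A : Matrix.SpecialLinearGroup (Fin n) K) : Matrix (Fin n) (Fin n) K) *ᵥ v := rfl

theorem rho_isom (hF : Fintype.card K = q ^ 2) (A : Cfsg.SU n K q) (v w : Fin n → K) : (hForm hF n).B (rho n K q A v) (rho n K q A w) = (hForm hF n).B v w :=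
  A.2 v w

theorem exists_rho (hF : Fintype.card K = q ^ 2) (y : (Fin n → K) ≃ₗ[K] (Fin n → K)) (hy : ∀ u v, (hForm hF n).B (y u) (y v) = (hForm hF n).B u v)
    (hd : LinearMap.det (y : (Fin n → K) →ₗ[K] (Fin n → K)) = 1) : ∃ A : Cfsg.SU n K q, ∀ v, rho n K q A v = y v := by
  have hM : ∀ v, (LinearMap.toMatrix' (y : (Fin n → K) →ₗ[K] (Fin n → K))) *ᵥ v = y v := fun v => LinearMap.toMatrix'_mulVec _ v
  let a : Matrix.SpecialLinearGroup (Fin n) K := ⟨LinearMap.toMatrix' (y : (Fin n → K) →ₗ[K] (Fin n → K)), by rw [LinearMap.det_toMatrix', hd]⟩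
  have ha : a ∈ Cfsg.SU n K q := by
    intro v w
    change (hForm hF n).B ((LinearMap.toMatrix' (y : (Fin n → K) →ₗ[K] (Fin n → K))) *ᵥ v) ((LinearMap.toMatrix' (y : (Fin n → K) →ₗ[K] (Fin n → K))) *ᵥ w) = (hForm hF n).B v w
    rw [hM, hM, hy]
  exact ⟨⟨a, ha⟩, fun v => hM v⟩

theorem center_le (hF : Fintype.card K = q ^ 2) (hn : 2 ≤ n) (X : Submodule K (Fin n → K)) : Subgroup.center (Cfsg.SU n K q) ≤ St (rho n K q) X := by
  intro z hz
  obtain ⟨c, hc⟩ := H7.UnitSU.center_scalar hF hn hz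
  apply scalar_mem (rho n K q) X (c := c)
  intro v
  rw [rho_apply, hc]
  ext i
  rw [mulVec_diagonal]; rfl

/-- the unit as an isometry -/
theorem exists_unit (hF : Fintype.card K = q ^ 2) (A : Cfsg.SU n K q) : ∃ u : (Module.End K (Fin n → K))ˣ, (hForm hF n).Isom u ∧ (u : Module.End K (Fin n → K)) = rho n K q A := by
  refine ⟨⟨rho n K q A, rho n K q A⁻¹, ?_, ?_⟩, ?_, rfl⟩
  · rw [← map_mul, mul_inv_cancel, map_one]
  · rw [← map_mul, inv_mul_cancel, map_one]
  · intro v w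
    exact rho_isom hF A v w

theorem line_ne_top (hF : Fintype.card K = q ^ 2) (i j : Fin n) (hij : i ≠ j) : St (rho n K q) (Submodule.span K {(Pi.single i 1 : Fin n → K)}) ≠ ⊤ := by
  classical
  have hB : ∀ i : Fin n, (hForm hF n).B (Pi.single i 1) (Pi.single i 1) = 1 := by
    intro i
    change Cfsg.hermForm n K q _ _ = 1
    rw [H16.Herm.hermForm_single_left]
    simp
  intro htop
  obtain ⟨y, hy, hd, c, hc0, hc⟩ := trans_line hF (hForm_nd hF n) (hForm_sym hF n) (v := Pi.single j 1) (e := Pi.single i 1) (by rw [hB]; exact one_ne_zero) (hB i)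
  obtain ⟨A, hA⟩ := exists_rho hF y hy hd
  have h1 : A⁻¹ ∈ St (rho n K q) (Submodule.span K {(Pi.single i 1 : Fin n → K)}) := by rw [htop]; exact Subgroup.mem_top _
  rw [mem_St] at h1
  have h2 : rho n K q A⁻¹ (c • Pi.single i 1) ∈ Submodule.span K {(Pi.single i 1 : Fin n → K)} := by
    rw [← h1]
    exact ⟨_, Submodule.smul_mem _ _ (Submodule.mem_span_singleton_self _), rfl⟩
  rw [← hc, ← hA] at h2
  have h3 : rho n K q A⁻¹ (rho n K q A (Pi.single j 1)) = Pi.single j 1 := by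
    have h4 : rho n K q (A⁻¹ * A) = rho n K q A⁻¹ * rho n K q A := map_mul _ _ _
    rw [inv_mul_cancel, map_one] at h4
    exact (congrArg (fun f : Module.End K (Fin n → K) => f (Pi.single j 1)) h4).symm
  rw [h3] at h2
  obtain ⟨d, hd⟩ := Submodule.mem_span_singleton.mp h2
  have h5 := congrFun hd j
  simp [hij.symm] at h5

theorem ti_ne_top (hF : Fintype.card K = q ^ 2) {X : Submodule K (Fin n → K)} (hX : ∀ v ∈ X, ∀ w ∈ X, (hForm hF n).B v w = 0) (hX0 : X ≠ ⊥) :
    St (rho n K q) X ≠ ⊤ := by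
  intro htop
  obtain ⟨f, hf⟩ : ∃ f, f = hForm hF n := ⟨_, rfl⟩
  have hnd : f.ND := hf ▸ hForm_nd hF n
  have hsym : f.Sym 1 := hf ▸ hForm_sym hF n
  rw [← hf] at hX
  obtain ⟨u, hu, hu0⟩ := Submodule.exists_mem_ne_zero_of_ne_bot hX0
  obtain ⟨w, hw⟩ : ∃ w, f.B u w ≠ 0 := by
    by_contra hcon
    push Not at hcon
    exact hu0 (hnd u hcon)
  have huu : f.B u u = 0 := hX u hu u hu
  obtain ⟨w₁, hw₁⟩ : ∃ w₁, f.B u w₁ = 1 := by
    refine ⟨bar hF (f.B u w)⁻¹ • w, ?_⟩
    rw [f.smul_right, bar_bar, inv_mul_cancel₀ hw]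
  have hw₁' : f.B w₁ u = 1 := by rw [hsym u w₁, hw₁, map_one, mul_one]
  obtain ⟨t, ht⟩ := exists_trace hF (c := - f.B w₁ w₁) (by
    rw [map_neg]
    have h2 := hsym w₁ w₁
    rw [one_mul] at h2
    rw [← h2])
  obtain ⟨w₂, hw₂d⟩ : ∃ w₂, w₂ = w₁ + t • u := ⟨_, rfl⟩
  have hw₂ : f.B u w₂ = 1 := by rw [hw₂d, f.add_right, f.smul_right, huu, mul_zero, add_zero, hw₁]
  have hw₂₂ : f.B w₂ w₂ = 0 := by
    rw [hw₂d, f.add_left, f.add_right, f.add_right, f.smul_left, f.smul_left, f.smul_right, f.smul_right, huu, hw₁, hw₁']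
    linear_combination ht
  obtain ⟨a, ha0, ha⟩ := hilbert hF (c := -1) (by simp)
  let ψ : Module.Dual K (Fin n → K) :=
    { toFun := fun v => a * f.B v w₂
      map_add' := fun x y => by rw [f.add_left, mul_add]
      map_smul' := fun c x => by rw [f.smul_left, smul_eq_mul, RingHom.id_apply]; ring }
  have hψ : ψ w₂ = 0 := by change a * f.B w₂ w₂ = 0; rw [hw₂₂, mul_zero]
  let y : (Fin n → K) ≃ₗ[K] (Fin n → K) := LinearEquiv.transvection hψ
  have hy : ∀ v, y v = v + (a * f.B v w₂) • w₂ := fun v => rfl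
  have hyd : LinearMap.det (y : (Fin n → K) →ₗ[K] (Fin n → K)) = 1 := by
    have := LinearEquiv.transvection.det_eq_one hψ
    rw [← Units.val_inj, LinearEquiv.coe_det] at this
    exact this
  have hyi : ∀ x z, f.B (y x) (y z) = f.B x z := by
    intro x z
    rw [hy, hy]
    simp only [f.add_left, f.add_right, f.smul_left, f.smul_right, hw₂₂, map_mul]
    rw [hsym z w₂]
    linear_combination (f.B x w₂ * bar hF (f.B z w₂)) * ha
  obtain ⟨A, hA⟩ := exists_rho hF y (by rw [← hf]; exact hyi) hyd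
  have h1 : A ∈ St (rho n K q) X := by rw [htop]; exact Subgroup.mem_top _
  rw [mem_St] at h1
  have h2 : rho n K q A u ∈ X := by
    rw [← h1]
    exact ⟨u, hu, rfl⟩
  rw [hA, hy, hw₂, mul_one] at h2
  have h3 := hX u hu _ h2
  rw [f.add_right, f.smul_right, huu, hw₂, zero_add, mul_one, map_eq_zero] at h3
  exact ha0 h3

theorem cover (hF : Fintype.card K = q ^ 2) : H46.Cov.Cov (Cfsg.PSU 4 K q) := by
  classical
  obtain ⟨p, hp⟩ := CharP.exists K
  haveI : Fact p.Prime := ⟨CharP.char_is_prime K p⟩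
  have h01 : (0 : Fin 4) ≠ 1 := by decide
  have hB : (hForm hF 4).B (Pi.single 0 1) (Pi.single 0 1) = 1 := by
    change Cfsg.hermForm 4 K q _ _ = 1
    rw [H16.Herm.hermForm_single_left]
    simp
  have h4 : finrank K (Fin 4 → K) = 4 := Module.finrank_fin_fun K
  have e0 : (Pi.single 0 1 : Fin 4 → K) ≠ 0 := by
    intro h
    have := congrFun h 0
    simp at this
  -- reduction
  have key : ∀ X₀ : Submodule K (Fin 4 → K), St (rho 4 K q) X₀ ≠ ⊤ →
      (∀ X : Submodule K (Fin 4 → K), finrank K X = 2 → (∀ v ∈ X, ∀ w ∈ X, (hForm hF 4).B v w = 0) → finrank K X₀ = 2 ∧ (∀ v ∈ X₀, ∀ w ∈ X₀, (hForm hF 4).B v w = 0)) →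
      H46.Cov.Cov (Cfsg.PSU 4 K q) := by
    intro X₀ hX₀ hX
    apply H46.Cov.quot (line_ne_top hF (0 : Fin 4) 1 h01) hX₀ (center_le hF (by norm_num) _) (center_le hF (by norm_num) _)
    intro g
    obtain ⟨u, hu, hug⟩ := exists_unit hF g
    rcases main4 hF p h4 (hForm_nd hF 4) (hForm_sym hF 4) u hu with ⟨c, v, hv, hcv⟩ | ⟨X, hX2, hXt, hXg⟩
    · obtain ⟨y, hy, hd, b, hb0, hb⟩ := trans_line hF (hForm_nd hF 4) (hForm_sym hF 4) hv hB
      obtain ⟨A, hA⟩ := exists_rho hF y hy hd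
      have hv0 : v ≠ 0 := by rintro rfl; exact hv ((hForm hF 4).zero_left _)
      refine ⟨A, Or.inl (conj_mem (rho 4 K q) (X := Submodule.span K {v}) ?_ ?_ ?_)⟩
      · intro w hw
        obtain ⟨a, rfl⟩ := Submodule.mem_span_singleton.mp hw
        rw [map_smul, ← hug, hcv]
        exact Submodule.smul_mem _ _ (Submodule.smul_mem _ _ (Submodule.mem_span_singleton_self _))
      · intro w hw
        obtain ⟨a, rfl⟩ := Submodule.mem_span_singleton.mp hw
        rw [map_smul, hA, hb]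
        exact Submodule.smul_mem _ _ (Submodule.smul_mem _ _ (Submodule.mem_span_singleton_self _))
      · rw [finrank_span_singleton hv0, finrank_span_singleton e0]
    · obtain ⟨h2, hti⟩ := hX X hX2 hXt
      obtain ⟨y, hy, hd, hb⟩ := trans_ti hF (hForm_nd hF 4) (hForm_sym hF 4) hXt hti (by rw [hX2, h2]) (by
        rintro rfl
        rw [finrank_bot] at h2
        omega)
      obtain ⟨A, hA⟩ := exists_rho hF y hy hd
      refine ⟨A, Or.inr (conj_mem (rho 4 K q) (X := X) ?_ ?_ (by rw [hX2, h2]))⟩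
      · intro w hw
        rw [← hug]
        exact hXg w hw
      · intro w hw
        rw [hA]
        exact hb w hw
  by_cases hex : ∃ X : Submodule K (Fin 4 → K), finrank K X = 2 ∧ (∀ v ∈ X, ∀ w ∈ X, (hForm hF 4).B v w = 0)
  · obtain ⟨X₀, h2, hti⟩ := hex
    apply key X₀ (ti_ne_top hF hti ?_) (fun _ _ _ => ⟨h2, hti⟩)
    rintro rfl
    rw [finrank_bot] at h2
    omega
  · apply key (Submodule.span K {(Pi.single 0 1 : Fin 4 → K)}) (line_ne_top hF (0 : Fin 4) 1 h01)
    intro X h2 hti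
    exact absurd ⟨X, h2, hti⟩ hex

end H46.CovPSU4
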