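import Mathlib
import Cfsg.Agent.Lib.H46.CovPSU4
import Cfsg.Agent.Lib.H46.CovNE
import Cfsg.Agent.Lib.H49.SUClasses

/-! The three dimensional unitary groups in characteristic three are covered by two subgroups. -/

set_option autoImplicit false

namespace H46.CovPSU3

open Module Polynomial H46.SForm H46.SForm.SForm H46.OrdPSU H46.CovSt H46.CovU H46.CovPSU4

variable {K : Type*} [Field K] [Fintype K] {q : ℕ}

section model

variable (p a : ℕ) [Fact p.Prime] (hF : Fintype.card K = q ^ 2) (hq : q = p ^ a)
  (E : Type*) [Field E] [CharP E p] [Finite E] [Algebra K E] (hE : finrank K E = 3)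

/-- the involution of the cubic extension -/
def tau : E →+* E where
  toFun x := x ^ p ^ (3 * a)
  map_one' := one_pow _
  map_mul' x y := mul_pow _ _ _
  map_zero' := zero_pow (pow_pos (Fact.out : p.Prime).pos _).ne'
  map_add' x y := add_pow_char_pow x y p (3 * a)

theorem tau_apply (x : E) : tau p a E x = x ^ p ^ (3 * a) := rfl

include hF hE in
theorem card_E : Nat.card E = (q ^ 2) ^ 3 := by
  haveI : Module.Finite K E := Module.Finite.of_finite
  rw [Module.natCard_eq_pow_finrank (K := K) (V := E), hE, Nat.card_eq_fintype_card, hF]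

include hF hE hq in
theorem tau_tau (x : E) : tau p a E (tau p a E x) = x := by
  letI := Fintype.ofFinite E
  rw [tau_apply, tau_apply, ← pow_mul]
  have h1 : p ^ (3 * a) * p ^ (3 * a) = Fintype.card E := by
    rw [← Nat.card_eq_fintype_card, card_E hF E hE, hq]
    ring
  rw [h1, FiniteField.pow_card]

include hq in
theorem tau_algebraMap (c : K) : tau p a E (algebraMap K E c) = algebraMap K E (bar hF c) := by
  rw [tau_apply, ← map_pow, bar_apply]
  congr 1
  have h1 : p ^ (3 * a) = Fintype.card K * q := by
    rw [hF, hq]; ring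
  rw [h1, pow_mul, FiniteField.pow_card]

include hq in
theorem trace_tau (x : E) : Algebra.trace K E (tau p a E x) = bar hF (Algebra.trace K E x) := by
  apply (algebraMap K E).injective
  rw [← tau_algebraMap p a hF hq E, FiniteField.algebraMap_trace_eq_sum_pow, FiniteField.algebraMap_trace_eq_sum_pow, map_sum]
  apply Finset.sum_congr rfl
  intro i _
  rw [map_pow]

/-- the trace form -/
noncomputable def trForm : SForm K E (bar hF) where
  B := fun x y => Algebra.trace K E (x * tau p a E y)
  add_left := fun u v w => by rw [add_mul, map_add]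
  add_right := fun u v w => by rw [map_add, mul_add, map_add]
  smul_left := fun c v w => by rw [smul_mul_assoc, map_smul, smul_eq_mul]
  smul_right := fun c v w => by
    rw [Algebra.smul_def, map_mul (tau p a E), tau_algebraMap p a hF hq E, mul_left_comm, ← Algebra.smul_def, map_smul, smul_eq_mul]

theorem trForm_apply (x y : E) : (trForm p a hF hq E).B x y = Algebra.trace K E (x * tau p a E y) := rfl

include hE in
theorem trForm_nd : (trForm p a hF hq E).ND := by
  intro v hv
  haveI : Module.Finite K E := Module.Finite.of_finite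
  have h1 := (traceForm_nondegenerate K E).1 v
  apply h1
  intro z
  rw [Algebra.traceForm_apply]
  have h2 := hv (tau p a E z)
  rw [trForm_apply, tau_tau p a hF hq E hE] at h2
  exact h2

include hE in
theorem trForm_sym : (trForm p a hF hq E).Sym 1 := by
  intro v w
  rw [one_mul, trForm_apply, trForm_apply, ← trace_tau p a hF hq E, map_mul (tau p a E), tau_tau p a hF hq E hE, mul_comm]

end model

/-- hermitian spaces have orthonormal coordinates -/
theorem exists_isometry (hF : Fintype.card K = q ^ 2) {V : Type*} [AddCommGroup V] [Module K V] {n : ℕ} (hn : finrank K V = n) [Module.Finite K V]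
    (f : SForm K V (bar hF)) (hnd : f.ND) (hsym : f.Sym 1) : ∃ θ : V ≃ₗ[K] (Fin n → K), ∀ v w, (hForm hF n).B (θ v) (θ w) = f.B v w := by
  have hK : Nat.card K = q ^ 2 := by rw [Nat.card_eq_fintype_card, hF]
  let b : Basis (Fin n) K V := Module.finBasisOfFinrankEq K V hn
  let H : Matrix (Fin n) (Fin n) K := fun i j => f.B (b j) (b i)
  have hH : H49.Unitary.ct hK H = H := by
    ext i j
    rw [H49.Unitary.ct_apply]
    change (f.B (b i) (b j)) ^ q = f.B (b j) (b i)
    rw [hsym (b i) (b j), one_mul]; rfl
  have hl : ∀ (s : Finset (Fin n)) (x : Fin n → K) (w : V), f.B (∑ i ∈ s, x i • b i) w = ∑ i ∈ s, x i * f.B (b i) w := by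
    classical
    intro s x w
    induction s using Finset.induction_on with
    | empty => simp [f.zero_left]
    | insert a s ha ih =>
      rw [Finset.sum_insert ha, Finset.sum_insert ha, f.add_left, ih, f.smul_left]
  have hr : ∀ (s : Finset (Fin n)) (y : Fin n → K) (v : V), f.B v (∑ j ∈ s, y j • b j) = ∑ j ∈ s, bar hF (y j) * f.B v (b j) := by
    classical
    intro s y v
    induction s using Finset.induction_on with
    | empty => simp [f.zero_right]
    | insert a s ha ih =>
      rw [Finset.sum_insert ha, Finset.sum_insert ha, f.add_right, ih, f.smul_right]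
  have hHu : IsUnit H := by
    rw [Matrix.isUnit_iff_isUnit_det, isUnit_iff_ne_zero]
    intro h0
    obtain ⟨x, hx0, hx⟩ := Matrix.exists_mulVec_eq_zero_iff.mpr h0
    apply hx0
    have hv : ∑ j, x j • b j = 0 := by
      apply hnd
      intro w
      rw [← b.sum_repr w, hr]
      apply Finset.sum_eq_zero
      intro i _
      rw [hl]
      have h8 := congrFun hx i
      simp only [Matrix.mulVec, dotProduct, Pi.zero_apply] at h8
      have h9 : ∑ j, x j * f.B (b j) (b i) = 0 := by
        rw [← h8]
        apply Finset.sum_congr rfl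
        intro j _
        exact mul_comm _ _
      rw [h9, mul_zero]
    funext j
    exact Fintype.linearIndependent_iff.mp b.linearIndependent x hv j
  obtain ⟨y, hyu, hy, -⟩ := H49.Unitary.herm_eq_ct_mul hK H hHu hH
  have hyd : IsUnit y.det := (Matrix.isUnit_iff_isUnit_det y).mp hyu
  let θ₁ : (Fin n → K) ≃ₗ[K] (Fin n → K) := LinearEquiv.ofIsUnitDet (f := Matrix.toLin' y) (v := Pi.basisFun K (Fin n)) (v' := Pi.basisFun K (Fin n)) (by
    rw [LinearMap.det_toMatrix, LinearMap.det_toLin']; exact hyd)
  have hθ₁ : ∀ x, θ₁ x = y.mulVec x := fun x => rfl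
  refine ⟨b.equivFun.trans θ₁, ?_⟩
  intro v w
  rw [LinearEquiv.trans_apply, LinearEquiv.trans_apply, hθ₁, hθ₁]
  obtain ⟨x, hx⟩ : ∃ x, x = b.equivFun v := ⟨_, rfl⟩
  obtain ⟨x', hx'⟩ : ∃ x', x' = b.equivFun w := ⟨_, rfl⟩
  have hv : v = ∑ i, x i • b i := by rw [hx]; exact (b.sum_equivFun v).symm
  have hw : w = ∑ i, x' i • b i := by rw [hx']; exact (b.sum_equivFun w).symm
  rw [← hx, ← hx']
  conv_rhs => rw [hv, hw, hl]
  change ∑ i, (y.mulVec x) i * bar hF ((y.mulVec x') i) = _
  have h1 : ∀ i, bar hF ((y.mulVec x') i) = ∑ k, bar hF (y i k) * bar hF (x' k) := by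
    intro i
    simp only [Matrix.mulVec, dotProduct, map_sum, map_mul]
  simp only [h1]
  have h2 : ∀ i, (y.mulVec x) i = ∑ j, y i j * x j := fun i => rfl
  simp only [h2, Finset.sum_mul_sum]
  rw [Finset.sum_comm]
  apply Finset.sum_congr rfl
  intro j _
  rw [hr, Finset.sum_comm, Finset.mul_sum]
  apply Finset.sum_congr rfl
  intro k _
  have h3 : f.B (b j) (b k) = ∑ i, bar hF (y i k) * y i j := by
    have h4 : H k j = (H49.Unitary.ct hK y * y) k j := by rw [← hy]
    rw [Matrix.mul_apply] at h4
    exact h4
  rw [h3, Finset.mul_sum, Finset.mul_sum]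
  apply Finset.sum_congr rfl
  intro i _
  ring

end H46.CovPSU3
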