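import Mathlib
import Cfsg.Agent.Lib.H46.ExtElt

/-! Regular nilpotent operators and the Frobenius automorphism of a cubic extension in characteristic three. -/

set_option autoImplicit false

namespace H46.CovReg

open Module

/-- the powers of a regular nilpotent operator on a cyclic vector form a basis -/
theorem exists_basis {K V : Type*} [Field K] [AddCommGroup V] [Module K V] [Module.Finite K V] {n : ℕ} (hn : finrank K V = n) (hn0 : 0 < n)
    {N : Module.End K V} (h1 : N ^ n = 0) {v : V} (h2 : (N ^ (n - 1)) v ≠ 0) : ∃ b : Basis (Fin n) K V, ∀ i : Fin n, b i = (N ^ (i : ℕ)) v := by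
  have hz : ∀ m, n ≤ m → (N ^ m) v = 0 := by
    intro m hm
    obtain ⟨k, rfl⟩ := Nat.exists_eq_add_of_le hm
    rw [pow_add, h1, zero_mul]; rfl
  have hli : LinearIndependent K (fun i : Fin n => (N ^ (i : ℕ)) v) := by
    rw [Fintype.linearIndependent_iff]
    intro c hc
    have key : ∀ k : ℕ, k ≤ n → ∀ i : Fin n, (i : ℕ) < k → c i = 0 := by
      intro k
      induction k with
      | zero => intro _ i hi; omega
      | succ k ih =>
        intro hk i hi
        rcases Nat.lt_succ_iff_lt_or_eq.mp hi with h | h
        · exact ih (by omega) i h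
        · have h3 : ∀ j : Fin n, (N ^ (n - 1 - k)) (c j • (N ^ (j : ℕ)) v) = c j • (N ^ (n - 1 - k + j)) v := by
            intro j
            rw [map_smul, pow_add]; rfl
          have h4 := congrArg (N ^ (n - 1 - k)) hc
          rw [map_sum, map_zero] at h4
          simp only [h3] at h4
          rw [Finset.sum_eq_single i] at h4
          · have h5 : n - 1 - k + (i : ℕ) = n - 1 := by omega
            rw [h5] at h4
            rcases smul_eq_zero.mp h4 with h6 | h6
            · exact h6
            · exact absurd h6 h2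
          · intro j _ hj
            rcases Nat.lt_trichotomy (j : ℕ) k with h6 | h6 | h6
            · rw [ih (by omega) j h6, zero_smul]
            · exact absurd (Fin.ext (h6.trans h.symm)) hj
            · rw [hz _ (by omega), smul_zero]
          · intro h6
            exact absurd (Finset.mem_univ i) h6
    intro i
    exact key n le_rfl i i.2
  haveI : Nonempty (Fin n) := ⟨⟨0, hn0⟩⟩
  refine ⟨basisOfLinearIndependentOfCardEqFinrank hli (by rw [Fintype.card_fin, hn]), ?_⟩
  intro i
  rw [coe_basisOfLinearIndependentOfCardEqFinrank]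

/-- regular nilpotent operators are similar -/
theorem exists_equiv {K V V' : Type*} [Field K] [AddCommGroup V] [Module K V] [Module.Finite K V] [AddCommGroup V'] [Module K V'] [Module.Finite K V']
    {n : ℕ} (hn : finrank K V = n) (hn' : finrank K V' = n) (hn0 : 0 < n) {N : Module.End K V} {N' : Module.End K V'} (h1 : N ^ n = 0) (h1' : N' ^ n = 0)
    {v : V} {v' : V'} (h2 : (N ^ (n - 1)) v ≠ 0) (h2' : (N' ^ (n - 1)) v' ≠ 0) : ∃ e : V ≃ₗ[K] V', e v = v' ∧ ∀ x, e (N x) = N' (e x) := by
  obtain ⟨b, hb⟩ := exists_basis hn hn0 h1 h2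
  obtain ⟨b', hb'⟩ := exists_basis hn' hn0 h1' h2'
  let e : V ≃ₗ[K] V' := b.equiv b' (Equiv.refl _)
  have he : ∀ i, e (b i) = b' i := fun i => by
    change b.equiv b' (Equiv.refl _) (b i) = b' i
    rw [Basis.equiv_apply]; rfl
  have hp : ∀ m : ℕ, e ((N ^ m) v) = (N' ^ m) v' := by
    intro m
    by_cases hm : m < n
    · have := he ⟨m, hm⟩
      rwa [hb, hb'] at this
    · obtain ⟨k, rfl⟩ := Nat.exists_eq_add_of_le (not_lt.mp hm)
      rw [pow_add, pow_add, h1, h1', zero_mul, zero_mul, LinearMap.zero_apply, LinearMap.zero_apply, map_zero]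
  refine ⟨e, hp 0, ?_⟩
  have h5 : (e : V →ₗ[K] V') ∘ₗ N = N' ∘ₗ (e : V →ₗ[K] V') := by
    apply b.ext
    intro i
    change e (N (b i)) = N' (e (b i))
    rw [hb]
    have h6 : N ((N ^ (i : ℕ)) v) = (N ^ ((i : ℕ) + 1)) v := by rw [pow_succ']; rfl
    rw [h6, hp, hp, pow_succ']; rfl
  intro x
  exact congrArg (fun f : V →ₗ[K] V' => f x) h5

section frob

variable (K : Type*) [Field K] [Finite K] (E : Type*) [Field E] [Finite E] [Algebra K E]

/-- the Frobenius automorphism -/
noncomputable def psi : E ≃ₐ[K] E :=
  haveI := Fintype.ofFinite K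
  FiniteField.frobeniusAlgEquivOfAlgebraic K E

theorem psi_apply (x : E) : psi K E x = x ^ Nat.card K := by
  letI := Fintype.ofFinite K
  rw [Nat.card_eq_fintype_card]; rfl

/-- the Frobenius automorphism as a linear operator -/
noncomputable def psiL : Module.End K E := (psi K E).toLinearMap

theorem psiL_apply (x : E) : psiL K E x = psi K E x := rfl

theorem psi_iter (x : E) (i : ℕ) : (psiL K E ^ i) x = x ^ (Nat.card K ^ i) := by
  induction i generalizing x with
  | zero => rw [pow_zero, pow_zero, pow_one]; rfl
  | succ i ih =>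
    rw [pow_succ]
    change (psiL K E ^ i) (psi K E x) = _
    rw [ih, psi_apply, ← pow_mul]
    congr 1
    ring

variable (hE : finrank K E = 3)

include hE in
theorem psi_cube : psiL K E ^ 3 = 1 := by
  letI := Fintype.ofFinite E
  haveI : Module.Finite K E := Module.Finite.of_finite
  ext x
  rw [psi_iter]
  have h1 : Nat.card K ^ 3 = Fintype.card E := by
    rw [← Nat.card_eq_fintype_card, Module.natCard_eq_pow_finrank (K := K) (V := E), hE]
  rw [h1, FiniteField.pow_card]; rfl

include hE in
theorem psi_sub_cube [CharP K 3] : (psiL K E - 1) ^ 3 = 0 := by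
  haveI : Fact (Nat.Prime 3) := ⟨Nat.prime_three⟩
  haveI : CharP (Module.End K E) 3 := charP_of_injective_algebraMap (FaithfulSMul.algebraMap_injective K (Module.End K E)) 3
  rw [sub_pow_char_of_commute 3 (Commute.one_right _), psi_cube K E hE, one_pow, sub_self]

include hE in
theorem psi_sub_sq [CharP K 3] (x : E) : ((psiL K E - 1) ^ 2 : Module.End K E) x = algebraMap K E (Algebra.trace K E x) := by
  haveI : Module.Finite K E := Module.Finite.of_finite
  have h3 : (3 : E) = 0 := by
    have h4 : ((3 : ℕ) : K) = 0 := CharP.cast_eq_zero K 3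
    have h5 := congrArg (algebraMap K E) h4
    rw [map_zero, map_natCast] at h5
    exact_mod_cast h5
  rw [FiniteField.algebraMap_trace_eq_sum_pow, hE, Finset.sum_range_succ, Finset.sum_range_succ, Finset.sum_range_one]
  have h1 : (psiL K E - 1) ^ 2 = psiL K E ^ 2 - psiL K E ^ 1 - psiL K E ^ 1 + psiL K E ^ 0 := by
    rw [pow_two, sub_mul, mul_sub, mul_one, one_mul, pow_two, pow_one, pow_zero]
    abel
  rw [h1, LinearMap.add_apply, LinearMap.sub_apply, LinearMap.sub_apply, psi_iter, psi_iter, psi_iter]
  linear_combination (-(x ^ (Nat.card K ^ 1))) * h3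

theorem psi_trace (x : E) : Algebra.trace K E (psi K E x) = Algebra.trace K E x := Algebra.trace_eq_of_algEquiv (psi K E) x

theorem exists_trace_eq [Module.Finite K E] (c : K) : ∃ x : E, Algebra.trace K E x = c := Algebra.trace_surjective K E c

end frob

end H46.CovReg
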