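import Mathlib
import Cfsg.Agent.Lib.H46.CovPSU3
import Cfsg.Agent.Lib.H46.CovReg
import Cfsg.Agent.Lib.H46.ExtElt
import Cfsg.Agent.Lib.H46.CovSL

/-! The three dimensional unitary groups in characteristic three are covered by two subgroups. -/

set_option autoImplicit false

namespace H46.CovPSU3

open Module Polynomial H46.SForm H46.SForm.SForm H46.OrdPSU H46.CovSt H46.CovU H46.CovPSU4 H46.CovReg H46.FieldInv

variable {K : Type*} [Field K] [Fintype K] {q : ℕ}

/-- similar elements are conjugate -/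
theorem conj_SU (hF : Fintype.card K = q ^ 2) {a : ℕ} (ha : 1 ≤ a) (hq : q = 3 ^ a) (A B : Cfsg.SU 3 K q) (e : (Fin 3 → K) ≃ₗ[K] (Fin 3 → K))
    (he : ∀ v, e (rho 3 K q A v) = rho 3 K q B (e v)) : ∃ x : Cfsg.SU 3 K q, x * A * x⁻¹ = B := by
  have hK : Nat.card K = q ^ 2 := by rw [Nat.card_eq_fintype_card, hF]
  let a₁ : GL (Fin 3) K := Matrix.SpecialLinearGroup.toGL A.1
  let b₁ : GL (Fin 3) K := Matrix.SpecialLinearGroup.toGL B.1
  let a' : ↥(Cfsg.GU 3 K q) := ⟨a₁, fun v w => A.2 v w⟩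
  let b' : ↥(Cfsg.GU 3 K q) := ⟨b₁, fun v w => B.2 v w⟩
  let M : Matrix (Fin 3) (Fin 3) K := LinearMap.toMatrix' (e : (Fin 3 → K) →ₗ[K] (Fin 3 → K))
  have hMd : IsUnit M.det := by
    rw [LinearMap.det_toMatrix']
    exact LinearEquiv.isUnit_det' e
  have hMA : M * (A.1 : Matrix (Fin 3) (Fin 3) K) = (B.1 : Matrix (Fin 3) (Fin 3) K) * M := by
    have h1 : (e : (Fin 3 → K) →ₗ[K] (Fin 3 → K)) ∘ₗ rho 3 K q A = rho 3 K q B ∘ₗ (e : (Fin 3 → K) →ₗ[K] (Fin 3 → K)) := LinearMap.ext he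
    have h2 := congrArg LinearMap.toMatrix' h1
    rw [LinearMap.toMatrix'_comp, LinearMap.toMatrix'_comp] at h2
    change M * LinearMap.toMatrix' (Matrix.toLin' (A.1 : Matrix (Fin 3) (Fin 3) K)) = LinearMap.toMatrix' (Matrix.toLin' (B.1 : Matrix (Fin 3) (Fin 3) K)) * M at h2
    rwa [LinearMap.toMatrix'_toLin', LinearMap.toMatrix'_toLin'] at h2
  have hconj : IsConj ((a' : GL (Fin 3) K) : Matrix (Fin 3) (Fin 3) K) ((b' : GL (Fin 3) K) : Matrix (Fin 3) (Fin 3) K) :=
    ⟨Matrix.nonsingInvUnit M hMd, hMA⟩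
  obtain ⟨y, hy⟩ := isConj_iff.mp (H49.SUClasses.isConj_GU hF hconj)
  have hy' : y * a' = b' * y := by rw [← hy]; group
  obtain ⟨Y, hY⟩ : ∃ Y : Matrix (Fin 3) (Fin 3) K, Y = ((y : GL (Fin 3) K) : Matrix (Fin 3) (Fin 3) K) := ⟨_, rfl⟩
  have hYA : Y * (A.1 : Matrix (Fin 3) (Fin 3) K) = (B.1 : Matrix (Fin 3) (Fin 3) K) * Y := by
    rw [hY]
    exact congrArg (fun z : ↥(Cfsg.GU 3 K q) => ((z : GL (Fin 3) K) : Matrix (Fin 3) (Fin 3) K)) hy'
  have hYY : H49.Unitary.ct hK Y * Y = 1 := by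
    rw [hY]
    exact (H49.Unitary.mem_GU hK _).mp y.2
  have hYform : ∀ v w, Cfsg.hermForm 3 K q (Y.mulVec v) (Y.mulVec w) = Cfsg.hermForm 3 K q v w := by
    intro v w
    rw [hY]
    exact y.2 v w
  set δ := Y.det with hδ
  have hδn : δ ^ (q + 1) = 1 := by
    have h1 := congrArg Matrix.det hYY
    rw [Matrix.det_mul, Matrix.det_one] at h1
    have h2 : (H49.Unitary.ct hK Y).det = δ ^ q := by
      change ((Y.map (H49.Unitary.frob hK)).transpose).det = _
      rw [Matrix.det_transpose]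
      have h3 : (Y.map (H49.Unitary.frob hK)).det = H49.Unitary.frob hK Y.det := by
        rw [RingHom.map_det]; rfl
      rw [h3]; rfl
    rw [h2] at h1
    rw [pow_succ]
    exact h1
  have hδ0 : δ ≠ 0 := by
    intro h0
    rw [h0, zero_pow (by omega)] at hδn
    exact zero_ne_one hδn
  obtain ⟨b, rfl⟩ : ∃ b, a = b + 1 := ⟨a - 1, by omega⟩
  set lam : K := (δ⁻¹) ^ (2 * 3 ^ b + 1) with hlam
  have hl3 : lam ^ 3 = δ⁻¹ := by
    rw [hlam, ← pow_mul]
    have h1 : (2 * 3 ^ b + 1) * 3 = (q + 1) * 2 + 1 := by rw [hq, pow_succ]; ring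
    rw [h1, pow_succ, pow_mul, inv_pow, hδn, inv_one, one_pow, one_mul]
  have hln : lam * lam ^ q = 1 := by
    rw [← pow_succ', hlam, ← pow_mul, mul_comm, pow_mul, inv_pow, hδn, inv_one, one_pow]
  let Z : Matrix (Fin 3) (Fin 3) K := lam • Y
  have hZd : Z.det = 1 := by
    rw [Matrix.det_smul, Fintype.card_fin, hl3, ← hδ, inv_mul_cancel₀ hδ0]
  have hZform : ∀ v w, Cfsg.hermForm 3 K q (Z.mulVec v) (Z.mulVec w) = Cfsg.hermForm 3 K q v w := by
    intro v w
    change Cfsg.hermForm 3 K q ((lam • Y).mulVec v) ((lam • Y).mulVec w) = _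
    rw [Matrix.smul_mulVec, Matrix.smul_mulVec, H16.Herm.hermForm_smul_left, H16.Herm.hermForm_smul_right, hYform, ← mul_assoc, hln, one_mul]
  let x : Cfsg.SU 3 K q := ⟨⟨Z, hZd⟩, fun v w => hZform v w⟩
  refine ⟨x, ?_⟩
  rw [mul_inv_eq_iff_eq_mul]
  apply Subtype.ext
  apply Subtype.ext
  change (lam • Y) * (A.1 : Matrix (Fin 3) (Fin 3) K) = (B.1 : Matrix (Fin 3) (Fin 3) K) * (lam • Y)
  rw [Matrix.smul_mul, Matrix.mul_smul, hYA]

theorem exists_transvection (hF : Fintype.card K = q ^ 2) {n : ℕ} {w₂ : Fin n → K} (hw₂₂ : (hForm hF n).B w₂ w₂ = 0) :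
    ∃ (A : Cfsg.SU n K q) (a : K), a ≠ 0 ∧ ∀ v, rho n K q A v = v + (a * (hForm hF n).B v w₂) • w₂ := by
  obtain ⟨f, hf⟩ : ∃ f, f = hForm hF n := ⟨_, rfl⟩
  have hnd : f.ND := hf ▸ hForm_nd hF n
  have hsym : f.Sym 1 := hf ▸ hForm_sym hF n
  rw [← hf] at hw₂₂ ⊢
  obtain ⟨a, ha0, ha⟩ := hilbert hF (c := -1) (by simp)
  let ψ : Module.Dual K (Fin n → K) :=
    { toFun := fun v => a * f.B v w₂
      map_add' := fun x y => by rw [f.add_left, mul_add]
      map_smul' := fun c x => by rw [f.smul_left, smul_eq_mul, RingHom.id_apply]; ring }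
  have hψ : ψ w₂ = 0 := by change a * f.B w₂ w₂ = 0; rw [hw₂₂, mul_zero]
  let y : (Fin n → K) ≃ₗ[K] (Fin n → K) := LinearEquiv.transvection hψ
  have hy : ∀ v, y v = v + (a * f.B v w₂) • w₂ := fun v => rfl
  have hyd : LinearMap.det (y : (Fin n → K) →ₗ[K] (Fin n → K)) = 1 := by
    have := LinearEquiv.transvection.det_eq_one hψ
    rw [← Units.val_inj, LinearEquiv.coe_det] at this
    exact this
  have hyi : ∀ x z, f.B (y x) (y z) = f.B x z := by
    intro x z
    rw [hy, hy]
    simp only [f.add_left, f.add_right, f.smul_left, f.smul_right, hw₂₂, map_mul]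
    rw [hsym z w₂]
    linear_combination (f.B x w₂ * bar hF (f.B z w₂)) * ha
  obtain ⟨A, hA⟩ := exists_rho hF y (by rw [← hf]; exact hyi) hyd
  exact ⟨A, a, ha0, fun v => by rw [hA, hy]⟩

theorem cover (hF : Fintype.card K = q ^ 2) {a : ℕ} (ha : 1 ≤ a) (hq : q = 3 ^ a) : H46.Cov.Cov (Cfsg.PSU 3 K q) := by
  classical
  haveI : Fact (Nat.Prime 3) := ⟨Nat.prime_three⟩
  haveI : CharP K 3 := by
    obtain ⟨p, hp⟩ := CharP.exists K
    have hpp : p.Prime := CharP.char_is_prime K p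
    haveI : Fact p.Prime := ⟨hpp⟩
    obtain ⟨n, -, hn⟩ := FiniteField.card K p
    have h1 : p ∣ 3 := by
      have h2 : p ∣ Fintype.card K := by rw [hn]; exact dvd_pow_self p n.ne_zero
      rw [hF, hq, ← pow_mul] at h2
      exact hpp.dvd_of_dvd_pow h2
    have h3 : p = 3 := (Nat.prime_dvd_prime_iff_eq hpp Nat.prime_three).mp h1
    rw [← h3]; exact hp
  obtain ⟨E, _, _, _, hE, -⟩ := H46.ExtElt.exists_field_ext K 3 (by norm_num)
  haveI : Module.Finite K E := Module.Finite.of_finite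
  haveI : CharP E 3 := charP_of_injective_algebraMap (algebraMap K E).injective 3
  have h3 : finrank K (Fin 3 → K) = 3 := Module.finrank_fin_fun K
  haveI : Nontrivial (Fin 3 → K) := Module.nontrivial_of_finrank_pos (R := K) (by omega)
  obtain ⟨f, hf⟩ : ∃ f, f = hForm hF 3 := ⟨_, rfl⟩
  have hnd : f.ND := hf ▸ hForm_nd hF 3
  have hsym : f.Sym 1 := hf ▸ hForm_sym hF 3
  have hndr : f.NDR := hsym.ndr hnd
  obtain ⟨θ, hθ⟩ := exists_isometry hF hE (trForm 3 a hF hq E) (trForm_nd 3 a hF hq E hE) (trForm_sym 3 a hF hq E hE)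
  rw [← hf] at hθ
  let φ₀ : E →ₐ[K] Module.End K (Fin 3 → K) := ((θ.conjAlgEquiv K : Module.End K E ≃ₐ[K] Module.End K (Fin 3 → K)) : Module.End K E →ₐ[K] Module.End K (Fin 3 → K)).comp (Algebra.lmul K E)
  have hφ₀ : ∀ x v, φ₀ x (θ v) = θ (x * v) := by
    intro x v
    change θ (x * θ.symm (θ v)) = _
    rw [θ.symm_apply_apply]
  have h01 : (0 : Fin 3) ≠ 1 := by decide
  have hB : f.B (Pi.single 0 1) (Pi.single 0 1) = 1 := by
    rw [hf]
    change Cfsg.hermForm 3 K q _ _ = 1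
    rw [H16.Herm.hermForm_single_left]
    simp
  have e0 : (Pi.single 0 1 : Fin 3 → K) ≠ 0 := by
    intro h
    have := congrFun h 0
    simp at this
  have hKtop : NE (rho 3 K q) φ₀ ≠ ⊤ := by
    obtain ⟨ζ, hζ⟩ := exists_norm hF (c := -1) (by simp)
    obtain ⟨u, hu⟩ : ∃ u : Fin 3 → K, u = ![1, ζ, 0] := ⟨_, rfl⟩
    have huu : (hForm hF 3).B u u = 0 := by
      change ∑ i, u i * (u i) ^ q = 0
      rw [Fin.sum_univ_three, hu]
      change 1 * 1 ^ q + ζ * ζ ^ q + 0 * 0 ^ q = 0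
      rw [bar_apply] at hζ
      rw [hζ, one_pow]; ring
    obtain ⟨A, c, hc, hA⟩ := exists_transvection hF huu
    have hu0 : u ≠ 0 := by
      rw [hu]; intro h
      have := congrFun h 0
      simp at this
    intro htop
    let ψ : Module.Dual K (Fin 3 → K) :=
      { toFun := fun v => c * (hForm hF 3).B v u
        map_add' := fun x y => by rw [SForm.add_left, mul_add]
        map_smul' := fun d x => by rw [SForm.smul_left, smul_eq_mul, RingHom.id_apply]; ring }
    refine NE_no_transvection (rho 3 K q) φ₀ hE ?_ (g := A) (ψ := ψ) hu0 ?_ hA (by rw [htop]; exact Subgroup.mem_top _)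
    · refine ⟨Pi.single 0 1, Pi.single 1 1, ?_⟩
      rw [LinearIndependent.pair_iff]
      intro s t hst
      have h1 := congrFun hst 0
      have h2 := congrFun hst 1
      simp at h1 h2
      exact ⟨h1, h2⟩
    · intro h0
      apply hu0
      apply (hForm_sym hF 3).ndr (hForm_nd hF 3)
      intro v
      have h1 := congrArg (fun g : Module.Dual K (Fin 3 → K) => g v) h0
      change c * (hForm hF 3).B v u = 0 at h1
      exact (mul_eq_zero.mp h1).resolve_left hc
  have hcK : Subgroup.center (Cfsg.SU 3 K q) ≤ NE (rho 3 K q) φ₀ := by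
    intro z hz x
    refine ⟨x, ?_⟩
    obtain ⟨c, hc⟩ := H7.UnitSU.center_scalar hF (by norm_num) hz
    have h1 : rho 3 K q z = algebraMap K _ c := by
      apply LinearMap.ext
      intro v
      rw [rho_apply, hc, Module.algebraMap_end_apply]
      ext i
      rw [Matrix.mulVec_diagonal]; rfl
    rw [h1]
    exact Algebra.commutes c (φ₀ x)
  apply H46.Cov.quot (line_ne_top hF (0 : Fin 3) 1 h01) hKtop (center_le hF (by norm_num) _) hcK
  intro g
  obtain ⟨u, hu, hug⟩ := exists_unit hF g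
  rw [← hf] at hu
  -- nonisotropic eigenvectors
  have caseH : ∀ (c : K) (v : Fin 3 → K), f.B v v ≠ 0 → (u : Module.End K (Fin 3 → K)) v = c • v →
      ∃ x : Cfsg.SU 3 K q, x * g * x⁻¹ ∈ St (rho 3 K q) (Submodule.span K {(Pi.single 0 1 : Fin 3 → K)}) := by
    intro c v hv hcv
    obtain ⟨y, hy, hd, b, hb0, hb⟩ := trans_line hF hnd hsym hv hB
    obtain ⟨A, hA⟩ := exists_rho hF y (by rw [← hf]; exact hy) hd
    have hv0 : v ≠ 0 := by rintro rfl; exact hv (f.zero_left _)
    refine ⟨A, conj_mem (rho 3 K q) (X := Submodule.span K {v}) ?_ ?_ ?_⟩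
    · intro w hw
      obtain ⟨a, rfl⟩ := Submodule.mem_span_singleton.mp hw
      rw [map_smul, ← hug, hcv]
      exact Submodule.smul_mem _ _ (Submodule.smul_mem _ _ (Submodule.mem_span_singleton_self _))
    · intro w hw
      obtain ⟨a, rfl⟩ := Submodule.mem_span_singleton.mp hw
      rw [map_smul, hA, hb]
      exact Submodule.smul_mem _ _ (Submodule.smul_mem _ _ (Submodule.mem_span_singleton_self _))
    · rw [finrank_span_singleton hv0, finrank_span_singleton e0]
  -- elements similar to an element of the normalizer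
  have caseK : ∀ (T : E ≃ₗ[K] E), (∀ x y, (trForm 3 a hF hq E).B (T x) (T y) = (trForm 3 a hF hq E).B x y) → LinearMap.det (T : E →ₗ[K] E) = 1 →
      (∀ x : E, ∃ z : E, ∀ v, T (x * v) = z * T v) → ∀ e : (Fin 3 → K) ≃ₗ[K] E, (∀ v, e (rho 3 K q g v) = T (e v)) →
      ∃ x : Cfsg.SU 3 K q, x * g * x⁻¹ ∈ NE (rho 3 K q) φ₀ := by
    intro T hT hTd hTn e he
    let y : (Fin 3 → K) ≃ₗ[K] (Fin 3 → K) := (θ.symm.trans T).trans θ
    have hy : ∀ v, y (θ v) = θ (T v) := by
      intro v
      change θ (T (θ.symm (θ v))) = _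
      rw [θ.symm_apply_apply]
    obtain ⟨B, hB⟩ := exists_rho hF y (by
      intro v w
      obtain ⟨v, rfl⟩ := θ.surjective v
      obtain ⟨w, rfl⟩ := θ.surjective w
      rw [← hf, hy, hy, hθ, hθ, hT]) (by
      rw [← hTd]
      exact LinearMap.det_conj (T : E →ₗ[K] E) θ)
    obtain ⟨x, hx⟩ := conj_SU hF ha hq g B (e.trans θ) (by
      intro v
      rw [LinearEquiv.trans_apply, LinearEquiv.trans_apply, he, hB, hy])
    refine ⟨x, ?_⟩
    rw [hx]
    intro t
    obtain ⟨z, hz⟩ := hTn t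
    refine ⟨z, ?_⟩
    apply LinearMap.ext
    intro v
    obtain ⟨v, rfl⟩ := θ.surjective v
    change rho 3 K q B (φ₀ t (θ v)) = φ₀ z (rho 3 K q B (θ v))
    rw [hφ₀, hB, hB, hy, hy, hφ₀, hz]
  have hudet : LinearMap.det (u : Module.End K (Fin 3 → K)) = 1 := by
    rw [hug]
    change LinearMap.det (Matrix.toLin' (g.1 : Matrix (Fin 3) (Fin 3) K)) = 1
    rw [LinearMap.det_toLin', g.1.2]
  rcases tri hF 3 hnd hsym u hu with ⟨W₁, W₂, hW, hW₁, hW₂, horth, h₁, h₂⟩ | ⟨c, hc, hN⟩ | ⟨k, hirr, ho, h1, hd⟩ | ⟨W₁, W₂, hW, hW₁, hW₂, h₁, h₂⟩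
  · have horth' : ∀ v ∈ W₂, ∀ w ∈ W₁, f.B v w = 0 := by
      intro v hv w hw
      rw [hsym w v, horth w hw v hv, map_zero, mul_zero]
    have hfs := Submodule.finrank_add_eq_of_isCompl hW
    have hp1 : 0 < finrank K W₁ := by
      rw [Nat.pos_iff_ne_zero, Ne, Submodule.finrank_eq_zero]; exact hW₁
    have hp2 : 0 < finrank K W₂ := by
      rw [Nat.pos_iff_ne_zero, Ne, Submodule.finrank_eq_zero]; exact hW₂
    have h12 : finrank K W₁ = 1 ∨ finrank K W₂ = 1 := by omega
    rcases h12 with d1 | d2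
    · obtain ⟨c, v, hvW, hv0, hv⟩ := eig_sub (u : Module.End K (Fin 3 → K)) W₁ h₁ d1
      obtain ⟨x, hx⟩ := caseH c v (ne_zero_of_line hnd hW horth d1 hvW hv0) hv
      exact ⟨x, Or.inl hx⟩
    · obtain ⟨c, v, hvW, hv0, hv⟩ := eig_sub (u : Module.End K (Fin 3 → K)) W₂ h₂ d2
      obtain ⟨x, hx⟩ := caseH c v (ne_zero_of_line hnd hW.symm horth' d2 hvW hv0) hv
      exact ⟨x, Or.inl hx⟩
  · have hc1 : c = 1 := by
      obtain ⟨M, hM⟩ := hN
      haveI : CharP (Module.End K (Fin 3 → K)) 3 := charP_of_injective_algebraMap (FaithfulSMul.algebraMap_injective K (Module.End K (Fin 3 → K))) 3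
      have h5 : ((u : Module.End K (Fin 3 → K)) - algebraMap K _ c) ^ 3 ^ M = 0 := pow_eq_zero_of_le (Nat.lt_pow_self (by norm_num)).le hM
      rw [sub_pow_char_pow_of_commute 3 M (Algebra.commutes c (u : Module.End K (Fin 3 → K))).symm, sub_eq_zero, ← map_pow] at h5
      have h6 := congrArg LinearMap.det h5
      rw [map_pow, hudet, one_pow, Algebra.algebraMap_eq_smul_one] at h6
      have h7 : LinearMap.det (c ^ 3 ^ M • (1 : Module.End K (Fin 3 → K))) = (c ^ 3 ^ M) ^ 3 := by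
        rw [LinearMap.det_smul, h3]
        have : LinearMap.det (1 : Module.End K (Fin 3 → K)) = 1 := LinearMap.det_id
        rw [this, mul_one]
      rw [h7, ← pow_mul, ← pow_succ] at h6
      have h8 : (c - 1) ^ 3 ^ (M + 1) = 0 := by
        rw [sub_pow_char_pow, ← h6, one_pow, sub_self]
      exact sub_eq_zero.mp (pow_eq_zero_iff (pow_pos (by norm_num) _).ne' |>.mp h8)
    rw [hc1, map_one] at hN
    obtain ⟨N, hNd⟩ : ∃ N : Module.End K (Fin 3 → K), N = (u : Module.End K (Fin 3 → K)) - 1 := ⟨_, rfl⟩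
    rw [← hNd] at hN
    have hker : ∀ v, v ∈ LinearMap.ker N ↔ (u : Module.End K (Fin 3 → K)) v = (1 : K) • v := by
      intro v
      rw [LinearMap.mem_ker, hNd, LinearMap.sub_apply, sub_eq_zero, one_smul]; rfl
    by_cases hns : ∃ v ∈ LinearMap.ker N, f.B v v ≠ 0
    · obtain ⟨v, hv, hvv⟩ := hns
      obtain ⟨x, hx⟩ := caseH 1 v hvv ((hker v).mp hv)
      exact ⟨x, Or.inl hx⟩
    push Not at hns
    have hti := ti_of_iso hF hsym (LinearMap.ker N) hns
    have hle := ti_finrank hndr _ hti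
    have hN3 : N ^ 3 = 0 := by
      have h1 : LinearMap.charpoly N = X ^ finrank K (Fin 3 → K) := (LinearMap.isNilpotent_iff_charpoly N).mp hN
      have h2 := LinearMap.aeval_self_charpoly N
      rw [h1, h3] at h2
      simpa using h2
    have hN2 : N ^ 2 ≠ 0 := by
      intro h0
      have hr := LinearMap.finrank_range_add_finrank_ker N
      have h5 : LinearMap.range N ≤ LinearMap.ker N := by
        rintro _ ⟨x, rfl⟩
        rw [LinearMap.mem_ker]
        rw [pow_two] at h0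
        exact congrArg (fun h : Module.End K (Fin 3 → K) => h x) h0
      have h6 := Submodule.finrank_mono h5
      omega
    obtain ⟨v, hv⟩ : ∃ v, (N ^ 2) v ≠ 0 := by
      by_contra hcon
      push Not at hcon
      exact hN2 (LinearMap.ext hcon)
    obtain ⟨v', hv'⟩ := exists_trace_eq K E 1
    obtain ⟨e, -, he⟩ := exists_equiv (n := 3) h3 hE (by norm_num) hN3 (psi_sub_cube K E hE) (v := v) (v' := v') hv (by
      change ((psiL K E - 1) ^ 2 : Module.End K E) v' ≠ 0
      rw [psi_sub_sq K E hE, hv', map_one]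
      exact one_ne_zero)
    have he' : ∀ v, e (rho 3 K q g v) = (psi K E).toLinearEquiv (e v) := by
      intro v
      have h5 := he v
      rw [hNd, LinearMap.sub_apply, LinearMap.sub_apply, map_sub, ← hug] at *
      have h6 : e ((u : Module.End K (Fin 3 → K)) v) - e v = psiL K E (e v) - e v := h5
      exact sub_left_inj.mp h6
    obtain ⟨x, hx⟩ := caseK (psi K E).toLinearEquiv (by
      intro x y
      rw [trForm_apply, trForm_apply]
      have h5 : tau 3 a E ((psi K E).toLinearEquiv y) = psi K E (tau 3 a E y) := by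
        change tau 3 a E (psi K E y) = _
        rw [psi_apply, psi_apply, map_pow]
      rw [h5]
      change Algebra.trace K E (psi K E x * psi K E (tau 3 a E y)) = _
      rw [← map_mul, psi_trace]) (by
      have h5 : LinearMap.det (psiL K E) ^ 3 = 1 := by
        rw [← map_pow, psi_cube K E hE]; exact LinearMap.det_id
      have h6 : (LinearMap.det (psiL K E) - 1) ^ 3 = 0 := by
        rw [sub_pow_char, h5, one_pow, sub_self]
      exact sub_eq_zero.mp (pow_eq_zero_iff (by norm_num) |>.mp h6)) (by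
      intro x
      exact ⟨psi K E x, fun v => map_mul (psi K E) x v⟩) e he'
    exact ⟨x, Or.inr hx⟩
  · have hdeg : (minpoly K ((u ^ 3 ^ k : (Module.End K (Fin 3 → K))ˣ) : Module.End K (Fin 3 → K))).natDegree = 3 := by
      rw [h3] at hd
      rcases (Nat.dvd_prime Nat.prime_three).mp hd with h | h
      · exact absurd h h1
      · exact h
    obtain ⟨φ, hφ⟩ := H46.CovSL.exists_phi hirr E (by rw [hE, hdeg])
    have hcu : ∀ x, Commute (u : Module.End K (Fin 3 → K)) (φ x) := by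
      intro x
      apply hφ
      rw [Units.val_pow_eq_pow_val]
      exact Commute.self_pow _ _
    obtain ⟨e₁, he₁⟩ := H46.CovSL.model φ (k := 1) (by rw [hE, h3])
    let e : (Fin 3 → K) ≃ₗ[K] E := e₁.trans (LinearEquiv.funUnique (Fin 1) K E)
    have he : ∀ x v, e (φ x v) = x * e v := by
      intro x v
      change (e₁ (φ x v)) default = x * (e₁ v) default
      rw [he₁]; rfl
    obtain ⟨w, hw⟩ : ∃ w, w = e.symm 1 := ⟨_, rfl⟩
    obtain ⟨t, ht⟩ : ∃ t, t = e ((u : Module.End K (Fin 3 → K)) w) := ⟨_, rfl⟩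
    have hev : ∀ v, e ((u : Module.End K (Fin 3 → K)) v) = t * e v := by
      intro v
      have h5 : v = φ (e v) w := by
        apply e.injective
        rw [he, hw, e.apply_symm_apply, mul_one]
      have h6 : (u : Module.End K (Fin 3 → K)) (φ (e v) w) = φ (e v) ((u : Module.End K (Fin 3 → K)) w) :=
        congrArg (fun h : Module.End K (Fin 3 → K) => h w) (hcu (e v)).eq
      conv_lhs => rw [h5]
      rw [h6, he, ← ht, mul_comm]
    have hevp : ∀ (m : ℕ) v, e (((u : Module.End K (Fin 3 → K)) ^ m) v) = t ^ m * e v := by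
      intro m
      induction m with
      | zero => intro v; rw [pow_zero, pow_zero, one_mul]; rfl
      | succ m ih =>
        intro v
        rw [pow_succ, pow_succ]
        change e (((u : Module.End K (Fin 3 → K)) ^ m) ((u : Module.End K (Fin 3 → K)) v)) = _
        rw [ih, hev, mul_assoc]
    obtain ⟨r, hr, hsr, -, -⟩ := irred_data (bar_bar hF) hndr (u ^ 3 ^ k) (hu.pow _) _ rfl hirr (Or.inl (exists_bar_ne hF))
    have hcardA : Nat.card (AdjoinRoot (minpoly K ((u ^ 3 ^ k : (Module.End K (Fin 3 → K))ˣ) : Module.End K (Fin 3 → K)))) = q ^ (2 * 3) := by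
      haveI hfact : Fact (Irreducible (minpoly K ((u ^ 3 ^ k : (Module.End K (Fin 3 → K))ˣ) : Module.End K (Fin 3 → K)))) := ⟨hirr⟩
      haveI hfin0 : Module.Finite K (AdjoinRoot (minpoly K ((u ^ 3 ^ k : (Module.End K (Fin 3 → K))ˣ) : Module.End K (Fin 3 → K)))) := (AdjoinRoot.powerBasis hirr.ne_zero).finite
      rw [Module.natCard_eq_pow_finrank (K := K), (AdjoinRoot.powerBasis hirr.ne_zero).finrank, AdjoinRoot.powerBasis_dim, hdeg, Nat.card_eq_fintype_card, hF, ← pow_mul]
    have hrq : r = q ^ 3 := by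
      rw [hcardA, mul_comm, pow_mul] at hr
      exact Nat.pow_left_injective (by norm_num : 2 ≠ 0) hr
    have htn : t ^ (q ^ 3 + 1) = 1 := by
      have h5 := hevp (3 ^ k * (r + 1)) w
      have h6 : (u : Module.End K (Fin 3 → K)) ^ (3 ^ k * (r + 1)) = 1 := by
        rw [← Units.val_pow_eq_pow_val, pow_mul, hsr]; rfl
      rw [h6, Module.End.one_apply, hw, e.apply_symm_apply, mul_one, hrq] at h5
      have h7 : (t ^ (q ^ 3 + 1) - 1) ^ 3 ^ k = 0 := by
        rw [sub_pow_char_pow, one_pow, ← pow_mul, mul_comm, ← h5, sub_self]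
      exact sub_eq_zero.mp (pow_eq_zero_iff (pow_pos (by norm_num) _).ne' |>.mp h7)
    have ht0 : t ≠ 0 := by
      rintro rfl
      rw [zero_pow (by omega)] at htn
      exact zero_ne_one htn
    have htt : t * tau 3 a E t = 1 := by
      rw [tau_apply, ← pow_succ']
      have h5 : 3 ^ (3 * a) = q ^ 3 := by rw [hq, ← pow_mul]; ring
      rw [h5, htn]
    let T : E ≃ₗ[K] E :=
      { toFun := fun x => t * x
        map_add' := fun x y => mul_add _ _ _
        map_smul' := fun c x => by rw [mul_smul_comm]; rfl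
        invFun := fun x => t⁻¹ * x
        left_inv := fun x => by change t⁻¹ * (t * x) = x; rw [← mul_assoc, inv_mul_cancel₀ ht0, one_mul]
        right_inv := fun x => by change t * (t⁻¹ * x) = x; rw [← mul_assoc, mul_inv_cancel₀ ht0, one_mul] }
    have hT : ∀ x, T x = t * x := fun x => rfl
    obtain ⟨x, hx⟩ := caseK T (by
      intro x y
      rw [trForm_apply, trForm_apply, hT, hT, map_mul (tau 3 a E)]
      have h5 : t * x * (tau 3 a E t * tau 3 a E y) = x * tau 3 a E y := by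
        linear_combination (x * tau 3 a E y) * htt
      rw [h5]) (by
      rw [← hudet, ← LinearMap.det_conj (u : Module.End K (Fin 3 → K)) e]
      congr 1
      apply LinearMap.ext
      intro v
      obtain ⟨v, rfl⟩ := e.surjective v
      change T (e v) = e ((u : Module.End K (Fin 3 → K)) (e.symm (e v)))
      rw [e.symm_apply_apply, hev, hT]) (by
      intro x
      exact ⟨x, fun v => by rw [hT, hT]; ring⟩) e (by
      intro v
      rw [← hug, hev, hT])
    exact ⟨x, Or.inr hx⟩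
  · exfalso
    have hfs := Submodule.finrank_add_eq_of_isCompl hW.compl
    have := hW.finrank_eq hndr
    omega

end H46.CovPSU3
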