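import Mathlib
import Cfsg.Agent.Lib.H46.Cov
import Cfsg.Agent.Lib.H48.QuadStd
import Cfsg.Agent.Lib.H6.SympPerfect

/-! Symplectic groups in characteristic two are covered by orthogonal groups. -/

set_option autoImplicit false

namespace H46.CovSp

open Matrix QuadraticMap H6.Symp H48.QuadStd

variable {F : Type*} [Field F] [Finite F] (h2 : (2 : F) = 0) (m : ℕ)

/-- quadratic forms with the given polarization -/
def Qf (φ : (Fin m ⊕ Fin m → F) →ₗ[F] F) : QuadraticForm F (Fin m ⊕ Fin m → F) := qPlus m F + (QuadraticMap.sq (R := F)).comp φ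

theorem Qf_apply (φ : (Fin m ⊕ Fin m → F) →ₗ[F] F) (v : Fin m ⊕ Fin m → F) : Qf m φ v = qPlus m F v + φ v * φ v := rfl

include h2 in
theorem polar_Qf (φ : (Fin m ⊕ Fin m → F) →ₗ[F] F) (u v : Fin m ⊕ Fin m → F) : polar (⇑(Qf m φ)) u v = bf u v := by
  have h1 : polar (⇑(Qf m φ)) u v = polar (⇑(qPlus m F)) u v + (φ (u + v) * φ (u + v) - φ u * φ u - φ v * φ v) := by
    unfold polar
    rw [Qf_apply, Qf_apply, Qf_apply]; ring
  rw [h1, polar_qPlus, bf_eq_sum, map_add]
  have h3 : (φ u + φ v) * (φ u + φ v) - φ u * φ u - φ v * φ v = 0 := by linear_combination φ u * φ v * h2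
  rw [h3, add_zero]
  refine Finset.sum_congr rfl fun i _ => ?_
  linear_combination u (.inl i) * v (.inr i) * h2

/-- the isometry group of a form -/
def St (φ : (Fin m ⊕ Fin m → F) →ₗ[F] F) : Subgroup (symplecticGroup (Fin m) F) where
  carrier := {g | ∀ v, Qf m φ (g.1 *ᵥ v) = Qf m φ v}
  one_mem' := by intro v; change Qf m φ ((1 : Matrix _ _ F) *ᵥ v) = _; rw [one_mulVec]
  mul_mem' := by
    intro g h hg hh v
    change Qf m φ ((g.1 * h.1) *ᵥ v) = _
    rw [← mulVec_mulVec, hg, hh]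
  inv_mem' := by
    intro g hg v
    rw [← hg, mulVec_mulVec, ← Submonoid.coe_mul, mul_inv_cancel]
    change Qf m φ ((1 : Matrix _ _ F) *ᵥ v) = _
    rw [one_mulVec]

include h2 in
/-- every element preserves a form -/
theorem exists_form (g : symplecticGroup (Fin m) F) : ∃ φ, g ∈ St m φ := by
  haveI : CharP F 2 := by
    have : Fact (Nat.Prime 2) := ⟨Nat.prime_two⟩
    exact CharTwo.of_one_ne_zero_of_two_eq_zero one_ne_zero h2
  haveI : PerfectRing F 2 := inferInstance
  have hpol : ∀ u v, qPlus m F (u + v) = qPlus m F u + qPlus m F v + bf u v := by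
    intro u v
    have h1 := polar_Qf h2 m 0 u v
    unfold polar at h1
    simp only [Qf_apply, LinearMap.zero_apply, mul_zero, add_zero] at h1
    rw [← h1]; ring
  let D : (Fin m ⊕ Fin m → F) → F := fun v => qPlus m F (g.1 *ᵥ v) + qPlus m F v
  have hD : ∀ v, D v = qPlus m F (g.1 *ᵥ v) + qPlus m F v := fun v => rfl
  have hDadd : ∀ u v, D (u + v) = D u + D v := by
    intro u v
    rw [hD, hD, hD, mulVec_add, hpol, hpol, (mem_iff_bf.mp g.2)]
    linear_combination bf u v * h2
  have hDsmul : ∀ (c : F) v, D (c • v) = c ^ 2 * D v := by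
    intro c v
    rw [hD, hD, mulVec_smul, QuadraticMap.map_smul, QuadraticMap.map_smul]
    simp only [smul_eq_mul]
    ring
  let δ : (Fin m ⊕ Fin m → F) →ₗ[F] F :=
    { toFun := fun v => (frobeniusEquiv F 2).symm (D v)
      map_add' := fun u v => by rw [hDadd, map_add]
      map_smul' := fun c v => by
        rw [hDsmul, map_mul, RingHom.id_apply, smul_eq_mul]
        congr 1
        rw [RingEquiv.symm_apply_eq, frobeniusEquiv_apply, frobenius_def] }
  have hδ : ∀ v, δ v ^ 2 = D v := by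
    intro v
    have := (frobeniusEquiv F 2).apply_symm_apply (D v)
    rw [frobeniusEquiv_apply, frobenius_def] at this
    exact this
  let f : (Fin m ⊕ Fin m → F) →ₗ[F] (Fin m ⊕ Fin m → F) := Matrix.mulVecLin g.1 - LinearMap.id
  have hf : ∀ v, f v = g.1 *ᵥ v - v := fun v => rfl
  have hmem : δ ∈ (LinearMap.ker f).dualAnnihilator := by
    rw [Submodule.mem_dualAnnihilator]
    intro w hw
    have h1 : g.1 *ᵥ w = w := by
      rw [LinearMap.mem_ker, hf, sub_eq_zero] at hw
      exact hw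
    have h3 : δ w ^ 2 = 0 := by
      rw [hδ, hD, h1]
      linear_combination qPlus m F w * h2
    exact pow_eq_zero_iff two_ne_zero |>.mp h3
  rw [← LinearMap.range_dualMap_eq_dualAnnihilator_ker] at hmem
  obtain ⟨φ, hφ⟩ := hmem
  refine ⟨φ, ?_⟩
  intro v
  have h1 : φ (g.1 *ᵥ v) = φ v + δ v := by
    have h3 := congrArg (fun ψ : Module.Dual F (Fin m ⊕ Fin m → F) => ψ v) hφ
    simp only [LinearMap.dualMap_apply] at h3
    rw [hf, map_sub] at h3
    rw [← h3]; ring
  rw [Qf_apply, Qf_apply, h1]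
  have h4 := hδ v
  rw [hD] at h4
  linear_combination φ v * δ v * h2 + h4 + qPlus m F (g.1 *ᵥ v) * h2


include h2 in
/-- equivalent forms are conjugate -/
theorem conj_of_equiv {φ ψ : (Fin m ⊕ Fin m → F) →ₗ[F] F} (h : (Qf m φ).Equivalent (Qf m ψ)) :
    ∃ x : symplecticGroup (Fin m) F, ∀ g ∈ St m φ, x * g * x⁻¹ ∈ St m ψ := by
  obtain ⟨e⟩ := h
  have he : ∀ v, Qf m ψ (e v) = Qf m φ v := e.map_app
  let M : Matrix (Fin m ⊕ Fin m) (Fin m ⊕ Fin m) F := LinearMap.toMatrix' (e.toLinearEquiv : (Fin m ⊕ Fin m → F) →ₗ[F] (Fin m ⊕ Fin m → F))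
  have hM : ∀ v, M *ᵥ v = e v := fun v => LinearMap.toMatrix'_mulVec _ v
  have hMs : M ∈ symplecticGroup (Fin m) F := by
    rw [mem_iff_bf]
    intro u v
    rw [hM, hM, ← polar_Qf h2 m ψ, ← polar_Qf h2 m φ]
    unfold polar
    have h1 : e u + e v = e (u + v) := (map_add e.toLinearEquiv u v).symm
    rw [h1, he, he, he]
  refine ⟨⟨M, hMs⟩, ?_⟩
  intro g hg v
  obtain ⟨w, hw⟩ : ∃ w, w = (⟨M, hMs⟩ : symplecticGroup (Fin m) F)⁻¹.1 *ᵥ v := ⟨_, rfl⟩
  have hv : v = e w := by
    rw [← hM, hw, mulVec_mulVec]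
    have h1 : M * ((⟨M, hMs⟩ : symplecticGroup (Fin m) F)⁻¹).1 = 1 := congrArg Subtype.val (mul_inv_cancel (⟨M, hMs⟩ : symplecticGroup (Fin m) F))
    rw [h1, one_mulVec]
  have h3 : ((⟨M, hMs⟩ : symplecticGroup (Fin m) F) * g * (⟨M, hMs⟩ : symplecticGroup (Fin m) F)⁻¹).1 *ᵥ v = e (g.1 *ᵥ w) := by
    change (M * g.1 * ((⟨M, hMs⟩ : symplecticGroup (Fin m) F)⁻¹).1) *ᵥ v = _
    rw [← mulVec_mulVec, ← mulVec_mulVec, ← hw, hM]
  rw [h3, he, hv, he]
  exact hg w

include h2 in
theorem St_ne_top (hm : 2 ≤ m) (φ : (Fin m ⊕ Fin m → F) →ₗ[F] F) : St m φ ≠ ⊤ := by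
  intro h
  -- a singular vector
  obtain ⟨u, hu0, hu⟩ : ∃ u : Fin m ⊕ Fin m → F, u ≠ 0 ∧ Qf m φ u = 0 := by
    let i0 : Fin m := ⟨0, by omega⟩
    let i1 : Fin m := ⟨1, by omega⟩
    have hne : i0 ≠ i1 := by
      intro h
      have := congrArg Fin.val h
      simp [i0, i1] at this
    have hq : ∀ a b : F, qPlus m F (a • e i0 + b • e i1) = 0 := by
      intro a b
      rw [qPlus_apply]
      apply Finset.sum_eq_zero
      intro i _
      simp [e]
    by_cases h0 : φ (e i0) = 0
    · refine ⟨e i0, ?_, ?_⟩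
      · intro h
        have := congrFun h (.inl i0)
        simp [e] at this
      · have := hq 1 0
        rw [one_smul, zero_smul, add_zero] at this
        rw [Qf_apply, this, h0]; ring
    · refine ⟨φ (e i1) • e i0 + (-φ (e i0)) • e i1, ?_, ?_⟩
      · intro h
        have := congrFun h (.inl i1)
        simp [e, hne, Ne.symm hne] at this
        exact h0 this
      · rw [Qf_apply, hq, map_add, map_smul, map_smul, smul_eq_mul, smul_eq_mul]; ring
  obtain ⟨x, hx⟩ := exists_bf_ne_zero hu0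
  have h1 : tv 1 u ∈ St m φ := by rw [h]; exact Subgroup.mem_top _
  have h3 := h1 x
  rw [tv_mulVec, one_mul] at h3
  have h4 : Qf m φ (x + bf u x • u) = Qf m φ x + bf u x ^ 2 * Qf m φ u + bf u x * bf x u := by
    have h5 := polar_Qf h2 m φ x (bf u x • u)
    rw [bf_smul_right] at h5
    unfold polar at h5
    rw [QuadraticMap.map_smul, smul_eq_mul] at h5
    linear_combination h5
  have h6 : bf x u = - bf u x := bf_swap x u
  rw [h3, hu, h6] at h4
  have h7 : bf u x ^ 2 = 0 := by linear_combination h4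
  exact hx (pow_eq_zero_iff two_ne_zero |>.mp h7)

include h2 in
theorem center_le (hm : 2 ≤ m) (φ : (Fin m ⊕ Fin m → F) →ₗ[F] F) : Subgroup.center (symplecticGroup (Fin m) F) ≤ St m φ := by
  haveI : Nonempty (Fin m) := ⟨⟨0, by omega⟩⟩
  intro g hg
  obtain ⟨c, hc, h⟩ := H6.SympPerfect.mem_center_iff.mp hg
  have h1 : c = 1 := by
    have h3 : (c - 1) ^ 2 = 0 := by linear_combination hc + (1 - c) * h2
    exact sub_eq_zero.mp (pow_eq_zero_iff two_ne_zero |>.mp h3)
  intro v
  rw [h, h1, one_smul]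

include h2 in
/-- minus type forms are equivalent -/
theorem minus_equiv {n : ℕ} {z z' : F} (hz : ∀ t : F, t ^ 2 + t + z ≠ 0) (hz' : ∀ t : F, t ^ 2 + t + z' ≠ 0) :
    (qMinus n F 1 z).Equivalent (qMinus n F 1 z') := by
  let P : F →+ F :=
    { toFun := fun d => d ^ 2 + d
      map_zero' := by ring
      map_add' := fun a b => by
        have : (a + b) ^ 2 = a ^ 2 + b ^ 2 := by linear_combination a * b * h2
        rw [this]; ring }
  have hP : ∀ d, P d = d ^ 2 + d := fun d => rfl
  have hidx : P.range.index = 2 := by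
    have h1 : Nat.card P.ker = 2 := by
      have h3 : (P.ker : Set F) = {0, 1} := by
        ext d
        rw [SetLike.mem_coe, AddMonoidHom.mem_ker, hP, Set.mem_insert_iff, Set.mem_singleton_iff]
        constructor
        · intro h
          have h4 : d * (d + 1) = 0 := by linear_combination h
          rcases mul_eq_zero.mp h4 with h5 | h5
          · exact Or.inl h5
          · right; linear_combination h5 - h2
        · rintro (rfl | rfl)
          · ring
          · linear_combination h2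
      rw [← SetLike.coe_sort_coe, h3, Nat.card_coe_set_eq, Set.ncard_pair zero_ne_one]
    have h3 : Nat.card P.range * 2 = Nat.card F := by
      have h4 := AddSubgroup.card_mul_index P.ker
      rw [AddSubgroup.index_ker, h1] at h4
      rw [mul_comm]; exact h4
    have h4 := AddSubgroup.card_mul_index P.range
    have h5 : 0 < Nat.card P.range := Nat.card_pos
    exact Nat.eq_of_mul_eq_mul_left h5 (by rw [h4, h3])
  have hn : ∀ {w : F}, (∀ t : F, t ^ 2 + t + w ≠ 0) → w ∉ P.range := by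
    rintro w hw ⟨d, hd⟩
    rw [hP] at hd
    apply hw d
    rw [hd]; linear_combination w * h2
  have hzz : z + z' ∈ P.range := by
    rw [AddSubgroup.add_mem_iff_of_index_two hidx]
    exact ⟨fun h => absurd h (hn hz), fun h => absurd h (hn hz')⟩
  obtain ⟨s, hs⟩ := hzz
  rw [hP] at hs
  -- the substitution
  let E : ((Fin n ⊕ Fin n) ⊕ Fin 2 → F) ≃ₗ[F] ((Fin n ⊕ Fin n) ⊕ Fin 2 → F) :=
    { toFun := fun v i => match i with
        | .inl i => v (.inl i)
        | .inr i => if i = 0 then v (.inr 0) + s * v (.inr 1) else v (.inr 1)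
      map_add' := fun u v => by
        funext i
        rcases i with i | i
        · rfl
        · fin_cases i <;> simp; ring
      map_smul' := fun c v => by
        funext i
        rcases i with i | i
        · rfl
        · fin_cases i <;> simp; ring
      invFun := fun v i => match i with
        | .inl i => v (.inl i)
        | .inr i => if i = 0 then v (.inr 0) - s * v (.inr 1) else v (.inr 1)
      left_inv := fun v => by
        funext i
        rcases i with i | i
        · rfl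
        · fin_cases i <;> simp
      right_inv := fun v => by
        funext i
        rcases i with i | i
        · rfl
        · fin_cases i <;> simp }
  refine ⟨⟨E, fun v => ?_⟩⟩
  have e0 : E v (.inr 0) = v (.inr 0) + s * v (.inr 1) := rfl
  have e1 : E v (.inr 1) = v (.inr 1) := rfl
  have e2 : ∀ i, E v (.inl i) = v (.inl i) := fun i => rfl
  change qMinus n F 1 z' (E v) = qMinus n F 1 z v
  rw [qMinus_apply, qMinus_apply]
  simp only [e2]
  rw [e0, e1]
  have h5 : (v (.inr 0) + s * v (.inr 1)) ^ 2 = v (.inr 0) ^ 2 + s ^ 2 * v (.inr 1) ^ 2 := by linear_combination v (.inr 0) * s * v (.inr 1) * h2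
  rw [h5]
  linear_combination v (.inr 1) ^ 2 * hs + z' * v (.inr 1) ^ 2 * h2

include h2 in
/-- the covering -/
theorem cover (hm : 2 ≤ m) : H46.Cov.Cov (Cfsg.PSp m F) := by
  classical
  have hnd : ∀ φ : (Fin m ⊕ Fin m → F) →ₗ[F] F, H48.QuadSplit.ND (Qf m φ) := by
    intro φ x hx
    apply nd_qPlus m x
    intro y
    have h1 := hx y
    rw [polar_Qf h2, ← polar_Qf h2 m 0] at h1
    have h3 : Qf m (0 : (Fin m ⊕ Fin m → F) →ₗ[F] F) = qPlus m F := by
      ext v
      rw [Qf_apply]; simp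
    rwa [h3] at h1
  have hdim : Module.finrank F (Fin m ⊕ Fin m → F) = 2 * m := by
    rw [Module.finrank_fintype_fun_eq_card, Fintype.card_sum, Fintype.card_fin]; omega
  have h0 : Qf m (0 : (Fin m ⊕ Fin m → F) →ₗ[F] F) = qPlus m F := by
    ext v
    rw [Qf_apply]; simp
  by_cases hex : ∃ ψ : (Fin m ⊕ Fin m → F) →ₗ[F] F, ∃ z : F, (∀ t : F, t ^ 2 + t + z ≠ 0) ∧ (Qf m ψ).Equivalent (qMinus (m - 1) F 1 z)
  · obtain ⟨ψ, z, hz, hψ⟩ := hex
    apply H46.Cov.quot (St_ne_top h2 m hm 0) (St_ne_top h2 m hm ψ) (center_le h2 m hm 0) (center_le h2 m hm ψ)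
    intro g
    obtain ⟨φ, hφ⟩ := exists_form h2 m g
    rcases classify_even m _ (Qf m φ) (hnd φ) hdim with h | ⟨-, z', hz', h⟩
    · rw [← h0] at h
      obtain ⟨x, hx⟩ := conj_of_equiv h2 m h
      exact ⟨x, Or.inl (hx g hφ)⟩
    · obtain ⟨x, hx⟩ := conj_of_equiv h2 m ((h.trans (minus_equiv h2 hz' hz)).trans hψ.symm)
      exact ⟨x, Or.inr (hx g hφ)⟩
  · apply H46.Cov.quot (St_ne_top h2 m hm 0) (St_ne_top h2 m hm 0) (center_le h2 m hm 0) (center_le h2 m hm 0)
    intro g
    obtain ⟨φ, hφ⟩ := exists_form h2 m g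
    rcases classify_even m _ (Qf m φ) (hnd φ) hdim with h | ⟨-, z', hz', h⟩
    · rw [← h0] at h
      obtain ⟨x, hx⟩ := conj_of_equiv h2 m h
      exact ⟨x, Or.inl (hx g hφ)⟩
    · exact absurd ⟨φ, z', hz', h⟩ hex

end H46.CovSp
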