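import Mathlib
import Cfsg.Agent.Lib.H46.CovNE
import Cfsg.Agent.Lib.H46.Cov
import Cfsg.Agent.Lib.H46.OrdPSp

/-! Symplectic groups: self-adjoint cubic field structures. -/

set_option autoImplicit false

namespace H46.CovSp6

open Module H46.SForm H46.SForm.SForm H46.CovSt H46.OrdPSp

variable {F : Type*} [Field F]

/-- self-adjoint field structures normalized by an operator -/
def GoodPhi (E : Type*) [Field E] [Algebra F E] {V : Type*} [AddCommGroup V] [Module F V] (f : SForm F V (RingHom.id F)) (g : Module.End F V) : Prop :=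
  ∃ φ : E →ₐ[F] Module.End F V, (∀ x, f.Adj (φ x) (φ x)) ∧ ∀ x, ∃ z, g * φ x = φ z * g

/-- invariant hyperbolic planes -/
def GoodPlane {V : Type*} [AddCommGroup V] [Module F V] (f : SForm F V (RingHom.id F)) (g : Module.End F V) : Prop :=
  ∃ v w : V, f.B v w ≠ 0 ∧ g v ∈ Submodule.span F {v, w} ∧ g w ∈ Submodule.span F {v, w}

section rep
variable {E : Type*} [Field E] [Algebra F E] [Module.Finite F E] [Algebra.IsSeparable F E]

theorem exists_rep (ℓ : E →ₗ[F] F) : ∃ b : E, ∀ x, ℓ x = Algebra.trace F E (x * b) := by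
  refine ⟨((Algebra.traceForm F E).toDual (traceForm_nondegenerate F E)).symm ℓ, ?_⟩
  intro x
  have h1 := LinearMap.BilinForm.apply_toDual_symm_apply (hB := traceForm_nondegenerate F E) (f := ℓ) (v := x)
  rw [Algebra.traceForm_apply, mul_comm] at h1
  exact h1.symm

theorem rep_unique {a b : E} (h : ∀ x, Algebra.trace F E (x * a) = Algebra.trace F E (x * b)) : a = b := by
  apply sub_eq_zero.mp
  apply (traceForm_nondegenerate F E).1
  intro x
  rw [Algebra.traceForm_apply, sub_mul, map_sub, mul_comm a, mul_comm b, h, sub_self]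

end rep

/-- the model form -/
noncomputable def f₀ (E : Type*) [Field E] [Algebra F E] : SForm F (E × E) (RingHom.id F) where
  B := fun v w => Algebra.trace F E (v.1 * w.2 - v.2 * w.1)
  add_left := fun u v w => by
    rw [← map_add]; congr 1; simp only [Prod.fst_add, Prod.snd_add]; ring
  add_right := fun u v w => by
    rw [← map_add]; congr 1; simp only [Prod.fst_add, Prod.snd_add]; ring
  smul_left := fun c v w => by
    rw [Prod.smul_fst, Prod.smul_snd, smul_mul_assoc, smul_mul_assoc, ← smul_sub, map_smul, smul_eq_mul]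
  smul_right := fun c v w => by
    rw [Prod.smul_fst, Prod.smul_snd, mul_smul_comm, mul_smul_comm, ← smul_sub, map_smul, smul_eq_mul]; rfl

theorem f₀_apply (E : Type*) [Field E] [Algebra F E] (v w : E × E) : (f₀ (F := F) E).B v w = Algebra.trace F E (v.1 * w.2 - v.2 * w.1) := rfl

/-- self-adjoint cubic structures are unique -/
theorem sa_model {E : Type*} [Field E] [Algebra F E] [Module.Finite F E] [Algebra.IsSeparable F E] (hE : finrank F E = 3) (h2 : (2 : F) ≠ 0)
    {V : Type*} [AddCommGroup V] [Module F V] [Module.Finite F V] (hV : finrank F V = 6) {f : SForm F V (RingHom.id F)} (halt : f.Alt) (hnd : f.ND)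
    (φ : E →ₐ[F] Module.End F V) (hφ : ∀ x, f.Adj (φ x) (φ x)) :
    ∃ e : V ≃ₗ[F] E × E, (∀ x v, e (φ x v) = x • e v) ∧ ∀ v w, (f₀ E).B (e v) (e w) = f.B v w := by
  haveI : Nontrivial V := Module.nontrivial_of_finrank_pos (R := F) (by omega)
  have hsym := halt.sym
  have hrep : ∀ v w : V, ∃ b : E, ∀ x, f.B (φ x v) w = Algebra.trace F E (x * b) := by
    intro v w
    exact exists_rep
      { toFun := fun x => f.B (φ x v) w
        map_add' := fun x y => by rw [map_add, LinearMap.add_apply, f.add_left]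
        map_smul' := fun c x => by rw [map_smul, LinearMap.smul_apply, f.smul_left]; rfl }
  choose β hβ using hrep
  have hβe : ∀ {v w : V} {b : E}, (∀ x, f.B (φ x v) w = Algebra.trace F E (x * b)) → β v w = b := by
    intro v w b h
    apply rep_unique (F := F)
    intro x
    rw [← hβ, h]
  have hself : ∀ v, β v v = 0 := by
    intro v
    apply hβe
    intro x
    rw [mul_zero, map_zero]
    have h1 := hφ x v v
    have h3 := hsym v (φ x v)
    rw [RingHom.id_apply] at h3
    have h4 : 2 * f.B (φ x v) v = 0 := by linear_combination h1 + h3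
    exact (mul_eq_zero.mp h4).resolve_left h2
  have haddl : ∀ u v w, β (u + v) w = β u w + β v w := by
    intro u v w
    apply hβe
    intro x
    rw [map_add, f.add_left, hβ, hβ, mul_add, map_add]
  have haddr : ∀ u v w, β u (v + w) = β u v + β u w := by
    intro u v w
    apply hβe
    intro x
    rw [f.add_right, hβ, hβ, mul_add, map_add]
  have hsl : ∀ y v w, β (φ y v) w = y * β v w := by
    intro y v w
    apply hβe
    intro x
    have h1 : φ x (φ y v) = φ (x * y) v := by rw [map_mul]; rfl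
    rw [h1, hβ, mul_assoc]
  have hsr : ∀ y v w, β v (φ y w) = y * β v w := by
    intro y v w
    apply hβe
    intro x
    rw [← hφ y]
    have h1 : φ y (φ x v) = φ (x * y) v := by rw [mul_comm x y, map_mul]; rfl
    rw [h1, hβ, mul_assoc]
  have hswap : ∀ v w, β w v = - β v w := by
    intro v w
    have h1 := hself (v + w)
    rw [haddl, haddr, haddr, hself, hself, zero_add, add_zero] at h1
    exact eq_neg_of_add_eq_zero_right h1
  have hf : ∀ v w, f.B v w = Algebra.trace F E (β v w) := by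
    intro v w
    have h1 := hβ v w 1
    rw [map_one, one_mul] at h1
    exact h1
  obtain ⟨v₀, w₀, h0⟩ := exists_ne_zero_of_nd hnd
  have hb0 : β v₀ w₀ ≠ 0 := by
    intro h
    rw [hf, h, map_zero] at h0
    exact h0 rfl
  obtain ⟨w₁, hw₁⟩ : ∃ w₁, β v₀ w₁ = 1 := ⟨φ (β v₀ w₀)⁻¹ w₀, by rw [hsr, inv_mul_cancel₀ hb0]⟩
  have hw₁' : β w₁ v₀ = -1 := by rw [hswap, hw₁]
  let Φ : E × E →ₗ[F] V :=
    { toFun := fun x => φ x.1 v₀ + φ x.2 w₁
      map_add' := fun x y => by
        simp only [Prod.fst_add, Prod.snd_add, map_add, LinearMap.add_apply]; abel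
      map_smul' := fun c x => by
        simp only [Prod.smul_fst, Prod.smul_snd, map_smul, LinearMap.smul_apply, smul_add, RingHom.id_apply] }
  have hΦ : ∀ x, Φ x = φ x.1 v₀ + φ x.2 w₁ := fun x => rfl
  have hββ : ∀ x y, β (Φ x) (Φ y) = x.1 * y.2 - x.2 * y.1 := by
    intro x y
    rw [hΦ, hΦ, haddl, haddr, haddr, hsl, hsl, hsl, hsl, hsr, hsr, hsr, hsr, hself, hself, hw₁, hw₁']
    ring
  have hinj : Function.Injective Φ := by
    rw [injective_iff_map_eq_zero]
    intro x hx
    have h1 := hββ x (0, 1)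
    have h3 := hββ x (1, 0)
    have hz : ∀ w, β 0 w = 0 := by
      intro w
      apply hβe
      intro x
      rw [map_zero, f.zero_left, mul_zero, map_zero]
    rw [hx, hz] at h1 h3
    apply Prod.ext
    · simpa using h1.symm
    · simpa using h3.symm
  have hfr : finrank F (E × E) = finrank F V := by rw [finrank_prod, hE, hV]
  let e₁ : (E × E) ≃ₗ[F] V := LinearMap.linearEquivOfInjective Φ hinj hfr
  have he₁ : ∀ x, e₁ x = Φ x := fun x => rfl
  refine ⟨e₁.symm, ?_, ?_⟩
  · intro x v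
    obtain ⟨v, rfl⟩ := e₁.surjective v
    rw [e₁.symm_apply_apply, LinearEquiv.symm_apply_eq, he₁, he₁, hΦ, hΦ, map_add]
    change φ x (φ v.1 v₀) + φ x (φ v.2 w₁) = φ (x * v.1) v₀ + φ (x * v.2) w₁
    rw [map_mul, map_mul]; rfl
  · intro v w
    obtain ⟨v, rfl⟩ := e₁.surjective v
    obtain ⟨w, rfl⟩ := e₁.surjective w
    rw [e₁.symm_apply_apply, e₁.symm_apply_apply, hf, he₁, he₁, hββ, f₀_apply]

/-- structures from coordinates -/
theorem good_of_e {E : Type*} [Field E] [Algebra F E] {V : Type*} [AddCommGroup V] [Module F V] {f : SForm F V (RingHom.id F)} {g : Module.End F V}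
    (e : V ≃ₗ[F] E × E) (he : ∀ v w, (f₀ E).B (e v) (e w) = f.B v w) (α : E → E) (hα : ∀ x v w, e v = x • e w → e (g v) = α x • e (g w)) : GoodPhi E f g := by
  let ψ : E →ₐ[F] Module.End F (E × E) := Algebra.lsmul F F (E × E)
  have hψ : ∀ x v, ψ x v = x • v := fun x v => rfl
  let φ : E →ₐ[F] Module.End F V := ((e.symm.conjAlgEquiv F : Module.End F (E × E) ≃ₐ[F] Module.End F V) : Module.End F (E × E) →ₐ[F] Module.End F V).comp ψ
  have hφ : ∀ x v, e (φ x v) = x • e v := by
    intro x v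
    change e (e.symm (ψ x (e.symm.symm v))) = _
    rw [e.apply_symm_apply]; rfl
  refine ⟨φ, ?_, ?_⟩
  · intro x v w
    rw [← he, ← he, hφ, hφ, f₀_apply, f₀_apply]
    congr 1
    simp only [Prod.smul_fst, Prod.smul_snd, smul_eq_mul]
    ring
  · intro x
    refine ⟨α x, ?_⟩
    apply LinearMap.ext
    intro v
    apply e.injective
    change e (g (φ x v)) = e (φ (α x) (g v))
    rw [hφ]
    exact hα x _ _ (hφ x v)

/-- alternating spaces of the same dimension are isometric -/
theorem alt_isometry {V V' : Type*} [AddCommGroup V] [Module F V] [Module.Finite F V] [AddCommGroup V'] [Module F V'] [Module.Finite F V']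
    (hVV' : finrank F V = finrank F V') {f : SForm F V (RingHom.id F)} (halt : f.Alt) (hnd : f.ND) {f' : SForm F V' (RingHom.id F)} (halt' : f'.Alt) (hnd' : f'.ND) :
    ∃ θ : V ≃ₗ[F] V', ∀ v w, f'.B (θ v) (θ w) = f.B v w := by
  obtain ⟨ι, _, _, b, h1, h2, h3⟩ := H99.Alt.exists_symp_basis V (toBilin f) (fun v => halt v) (fun v hv => hnd v hv)
  obtain ⟨ι', _, _, b', h1', h2', h3'⟩ := H99.Alt.exists_symp_basis V' (toBilin f') (fun v => halt' v) (fun v hv => hnd' v hv)
  have hc : Fintype.card ι = Fintype.card ι' := by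
    have e1 := Module.finrank_eq_card_basis b
    have e2 := Module.finrank_eq_card_basis b'
    rw [Fintype.card_prod, Fintype.card_fin] at e1 e2
    omega
  let r : ι ≃ ι' := Fintype.equivOfCardEq hc
  let θ : V ≃ₗ[F] V' := b.equiv b' (Equiv.prodCongr (Equiv.refl (Fin 2)) r)
  have hθ : ∀ i j, θ (b (i, j)) = b' (i, r j) := by
    intro i j
    change b.equiv b' (Equiv.prodCongr (Equiv.refl (Fin 2)) r) (b (i, j)) = _
    rw [Basis.equiv_apply]; rfl
  have hsw : ∀ v w, toBilin f v w = - toBilin f w v := by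
    intro v w
    have := halt.sym w v
    rw [RingHom.id_apply, neg_one_mul] at this
    exact this
  have hsw' : ∀ v w, toBilin f' v w = - toBilin f' w v := by
    intro v w
    have := halt'.sym w v
    rw [RingHom.id_apply, neg_one_mul] at this
    exact this
  refine ⟨θ, ?_⟩
  have key : (toBilin f').compl₁₂ (θ : V →ₗ[F] V') (θ : V →ₗ[F] V') = toBilin f := by
    apply LinearMap.BilinForm.ext_basis b
    rintro ⟨i, j⟩ ⟨i', j'⟩
    change toBilin f' (θ (b (i, j))) (θ (b (i', j'))) = _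
    rw [hθ, hθ]
    have hr : (r j = r j') = (j = j') := by rw [r.injective.eq_iff]
    have hr' : (r j' = r j) = (j' = j) := by rw [r.injective.eq_iff]
    have hi : i = 0 ∨ i = 1 := by omega
    have hi' : i' = 0 ∨ i' = 1 := by omega
    rcases hi with rfl | rfl <;> rcases hi' with rfl | rfl
    · rw [h1, h1']
    · rw [h3, h3']; simp only [hr]
    · rw [hsw, h3, hsw', h3']; simp only [hr']
    · rw [h2, h2']
  intro v w
  have := congrArg (fun B : LinearMap.BilinForm F V => B v w) key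
  exact this

theorem f₀_alt (E : Type*) [Field E] [Algebra F E] : (f₀ (F := F) E).Alt := by
  intro v
  rw [f₀_apply, mul_comm, sub_self, map_zero]

theorem f₀_nd (E : Type*) [Field E] [Algebra F E] [Module.Finite F E] [Algebra.IsSeparable F E] : (f₀ (F := F) E).ND := by
  intro v hv
  apply Prod.ext
  · apply (traceForm_nondegenerate F E).1
    intro y
    have h1 := hv (0, y)
    rw [f₀_apply] at h1
    rw [Algebra.traceForm_apply]
    simpa using h1
  · apply (traceForm_nondegenerate F E).1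
    intro y
    have h1 := hv (-y, 0)
    rw [f₀_apply] at h1
    rw [Algebra.traceForm_apply]
    simpa using h1

section group

variable {m : ℕ}

/-- the natural representation -/
def rho (m : ℕ) (F : Type*) [Field F] : Matrix.symplecticGroup (Fin m) F →* Module.End F (Fin m ⊕ Fin m → F) where
  toFun A := Matrix.toLin' A.1
  map_one' := Matrix.toLin'_one
  map_mul' A B := Matrix.toLin'_mul _ _

theorem rho_apply (A : Matrix.symplecticGroup (Fin m) F) (v : Fin m ⊕ Fin m → F) : rho m F A v = A.1.mulVec v := rfl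

theorem exists_rho (y : (Fin m ⊕ Fin m → F) ≃ₗ[F] (Fin m ⊕ Fin m → F)) (hy : ∀ u v, (stdForm m F).B (y u) (y v) = (stdForm m F).B u v) :
    ∃ A : Matrix.symplecticGroup (Fin m) F, ∀ v, rho m F A v = y v := by
  have hM : ∀ v, (LinearMap.toMatrix' (y : (Fin m ⊕ Fin m → F) →ₗ[F] (Fin m ⊕ Fin m → F))).mulVec v = y v := fun v => LinearMap.toMatrix'_mulVec _ v
  have ha : LinearMap.toMatrix' (y : (Fin m ⊕ Fin m → F) →ₗ[F] (Fin m ⊕ Fin m → F)) ∈ Matrix.symplecticGroup (Fin m) F := by
    rw [H6.Symp.mem_iff_bf]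
    intro u v
    rw [hM, hM]
    exact hy u v
  exact ⟨⟨_, ha⟩, fun v => hM v⟩

theorem exists_unit (A : Matrix.symplecticGroup (Fin m) F) : ∃ u : (Module.End F (Fin m ⊕ Fin m → F))ˣ, (stdForm m F).Isom u ∧ (u : Module.End F (Fin m ⊕ Fin m → F)) = rho m F A := by
  refine ⟨⟨rho m F A, rho m F A⁻¹, ?_, ?_⟩, ?_, rfl⟩
  · rw [← map_mul, mul_inv_cancel, map_one]
  · rw [← map_mul, inv_mul_cancel, map_one]
  · intro v w
    exact H6.Symp.bf_smul A v w

/-- the covering, from the classification of isometries -/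
theorem cover_of [Finite F] {E : Type*} [Field E] [Finite E] [Algebra F E] (hE : finrank F E = 3) (h2 : (2 : F) ≠ 0)
    (hmain : ∀ u : (Module.End F (Fin 3 ⊕ Fin 3 → F))ˣ, (stdForm 3 F).Isom u → GoodPlane (stdForm 3 F) (u : Module.End F (Fin 3 ⊕ Fin 3 → F)) ∨ GoodPhi E (stdForm 3 F) (u : Module.End F (Fin 3 ⊕ Fin 3 → F))) :
    H46.Cov.Cov (Cfsg.PSp 3 F) := by
  classical
  haveI : Module.Finite F E := Module.Finite.of_finite
  have h6 : finrank F (Fin 3 ⊕ Fin 3 → F) = 6 := by simp
  haveI : Nontrivial (Fin 3 ⊕ Fin 3 → F) := Module.nontrivial_of_finrank_pos (R := F) (by omega)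
  let X₀ : Submodule F (Fin 3 ⊕ Fin 3 → F) := Submodule.span F {H6.Symp.e 0, H6.Symp.f 0}
  have hind : ∀ {v w : Fin 3 ⊕ Fin 3 → F}, H6.Symp.bf v w ≠ 0 → finrank F (Submodule.span F {v, w}) = 2 := by
    intro v w hvw
    have hl : LinearIndependent F ![v, w] := by
      rw [LinearIndependent.pair_iff]
      intro a b hab
      constructor
      · have h1 : H6.Symp.bf (a • v + b • w) w = 0 := by rw [hab, H6.Symp.bf_zero_left]
        rw [H6.Symp.bf_add_left, H6.Symp.bf_smul_left, H6.Symp.bf_smul_left, H6.Symp.bf_self, mul_zero, add_zero] at h1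
        exact (mul_eq_zero.mp h1).resolve_right hvw
      · have h1 : H6.Symp.bf v (a • v + b • w) = 0 := by rw [hab, H6.Symp.bf_zero_right]
        rw [H6.Symp.bf_add_right, H6.Symp.bf_smul_right, H6.Symp.bf_smul_right, H6.Symp.bf_self, mul_zero, zero_add] at h1
        exact (mul_eq_zero.mp h1).resolve_right hvw
    have := finrank_span_eq_card hl
    rw [Fintype.card_fin] at this
    have hr : Set.range ![v, w] = {v, w} := by
      simp only [Matrix.range_cons, Matrix.range_empty, Set.union_empty]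
      rfl
    rw [hr] at this
    exact this
  have hef : H6.Symp.bf (H6.Symp.e 0) (H6.Symp.f 0 : Fin 3 ⊕ Fin 3 → F) = -1 := by
    rw [H6.Symp.bf_f_right]
    simp [H6.Symp.e]
  have hH : St (rho 3 F) X₀ ≠ ⊤ := by
    intro htop
    have h1 : H6.Symp.tv 1 (H6.Symp.e 1 + H6.Symp.f 0) ∈ St (rho 3 F) X₀ := by rw [htop]; exact Subgroup.mem_top _
    rw [mem_St] at h1
    have h3 : rho 3 F (H6.Symp.tv 1 (H6.Symp.e 1 + H6.Symp.f 0)) (H6.Symp.e 0) ∈ X₀ := by
      rw [← h1]
      exact ⟨_, Submodule.subset_span (by simp), rfl⟩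
    have h5 : H6.Symp.bf (H6.Symp.e 1 + H6.Symp.f 0) (H6.Symp.e 0 : Fin 3 ⊕ Fin 3 → F) = 1 := by
      rw [H6.Symp.bf_e_right]
      simp [H6.Symp.e, H6.Symp.f]
    rw [rho_apply, H6.Symp.tv_mulVec, h5] at h3
    obtain ⟨a, b, hab⟩ := Submodule.mem_span_pair.mp h3
    have h4 := congrFun hab (Sum.inl 1)
    simp [H6.Symp.e, H6.Symp.f] at h4
  obtain ⟨θ, hθ⟩ := alt_isometry (f := stdForm 3 F) (f' := f₀ E) (by rw [h6, finrank_prod, hE]) (stdForm_alt 3) (stdForm_nd 3) (f₀_alt E) (f₀_nd E)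
  obtain ⟨φ₀, hφ₀, -⟩ : GoodPhi E (stdForm 3 F) 1 := by
    apply good_of_e θ hθ id
    intro x v w h
    exact h
  have hK : NE (rho 3 F) φ₀ ≠ ⊤ := by
    intro htop
    have he0 : (H6.Symp.e 0 : Fin 3 ⊕ Fin 3 → F) ≠ 0 := by
      intro h
      have := congrFun h (Sum.inl 0)
      simp [H6.Symp.e] at this
    let ψ : Module.Dual F (Fin 3 ⊕ Fin 3 → F) :=
      { toFun := fun v => H6.Symp.bf (H6.Symp.e 0) v
        map_add' := fun x y => H6.Symp.bf_add_right _ _ _
        map_smul' := fun c x => H6.Symp.bf_smul_right _ _ _ }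
    refine NE_no_transvection (rho 3 F) φ₀ hE ⟨H6.Symp.e 0, H6.Symp.f 0, ?_⟩ (g := H6.Symp.tv 1 (H6.Symp.e 0)) (ψ := ψ) he0 ?_ ?_ (by rw [htop]; exact Subgroup.mem_top _)
    · rw [LinearIndependent.pair_iff]
      intro s t hst
      have h1 := congrFun hst (Sum.inl 0)
      have h2 := congrFun hst (Sum.inr 0)
      simp [H6.Symp.e, H6.Symp.f] at h1 h2
      exact ⟨h1, h2⟩
    · intro h0
      obtain ⟨v, hv⟩ := H6.Symp.exists_bf_ne_zero he0
      exact hv (congrArg (fun g : Module.Dual F (Fin 3 ⊕ Fin 3 → F) => g v) h0)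
    · intro v
      rw [rho_apply, H6.Symp.tv_mulVec, one_mul]; rfl
  have hscal : ∀ z ∈ Subgroup.center (Matrix.symplecticGroup (Fin 3) F), ∃ c : F, ∀ v, rho 3 F z v = c • v := by
    intro z hz
    obtain ⟨c, -, hc⟩ := H6.SympPerfect.mem_center_iff.mp hz
    exact ⟨c, hc⟩
  apply H46.Cov.quot hH hK
  · intro z hz
    obtain ⟨c, hc⟩ := hscal z hz
    exact scalar_mem (rho 3 F) X₀ hc
  · intro z hz x
    obtain ⟨c, hc⟩ := hscal z hz
    refine ⟨x, ?_⟩
    have h1 : rho 3 F z = algebraMap F _ c := by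
      apply LinearMap.ext
      intro v
      rw [hc, Module.algebraMap_end_apply]
    rw [h1]
    exact Algebra.commutes c (φ₀ x)
  intro g
  obtain ⟨u, hu, hug⟩ := exists_unit g
  rcases hmain u hu with ⟨v, w, hvw, hv, hw⟩ | ⟨φ, hφ, hn⟩
  · obtain ⟨t, -, ht1, ht2⟩ := H6.Symp.exists_tvGroup_move_pair (v := v) (w := w) (v' := (-(H6.Symp.bf v w)) • H6.Symp.e 0) (w' := H6.Symp.f 0) (by
      rw [H6.Symp.bf_smul_left, hef]; ring) hvw
    refine ⟨t, Or.inl (conj_mem (rho 3 F) (X := Submodule.span F {v, w}) ?_ ?_ ?_)⟩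
    · intro x hx
      obtain ⟨a, b, rfl⟩ := Submodule.mem_span_pair.mp hx
      rw [map_add, map_smul, map_smul, ← hug]
      exact Submodule.add_mem _ (Submodule.smul_mem _ _ hv) (Submodule.smul_mem _ _ hw)
    · intro x hx
      obtain ⟨a, b, rfl⟩ := Submodule.mem_span_pair.mp hx
      rw [map_add, map_smul, map_smul, rho_apply, rho_apply, ht1, ht2]
      refine Submodule.add_mem _ (Submodule.smul_mem _ _ (Submodule.smul_mem _ _ (Submodule.subset_span (by simp)))) (Submodule.smul_mem _ _ (Submodule.subset_span (by simp)))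
    · rw [hind hvw, hind (by rw [hef]; exact neg_ne_zero.mpr one_ne_zero)]
  · obtain ⟨e, he1, he2⟩ := sa_model hE h2 h6 (stdForm_alt 3) (stdForm_nd 3) φ hφ
    obtain ⟨e₀, he₀1, he₀2⟩ := sa_model hE h2 h6 (stdForm_alt 3) (stdForm_nd 3) φ₀ hφ₀
    let y : (Fin 3 ⊕ Fin 3 → F) ≃ₗ[F] (Fin 3 ⊕ Fin 3 → F) := e.trans e₀.symm
    have hy : ∀ v, y v = e₀.symm (e v) := fun v => rfl
    have hyφ : ∀ x v, y (φ x v) = φ₀ x (y v) := by
      intro x v
      apply e₀.injective
      rw [hy, hy, e₀.apply_symm_apply, he1, he₀1, e₀.apply_symm_apply]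
    obtain ⟨X, hX⟩ := exists_rho y (by
      intro v w
      rw [hy, hy, ← he₀2, e₀.apply_symm_apply, e₀.apply_symm_apply, he2])
    refine ⟨X, Or.inr ?_⟩
    intro x
    obtain ⟨z, hz⟩ := hn x
    refine ⟨z, ?_⟩
    apply LinearMap.ext
    intro v
    obtain ⟨v, rfl⟩ := y.surjective v
    have h1 : ∀ v, rho 3 F (X * g * X⁻¹) (y v) = y ((u : Module.End F (Fin 3 ⊕ Fin 3 → F)) v) := by
      intro v
      rw [← hX, hug]
      have h3 : rho 3 F (X * g * X⁻¹ * X) = rho 3 F (X * g * X⁻¹) * rho 3 F X := map_mul _ _ _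
      rw [inv_mul_cancel_right, map_mul] at h3
      have h4 := congrArg (fun h : Module.End F (Fin 3 ⊕ Fin 3 → F) => h v) h3
      change rho 3 F X (rho 3 F g v) = rho 3 F (X * g * X⁻¹) (rho 3 F X v) at h4
      rw [← h4, hX]
    change rho 3 F (X * g * X⁻¹) (φ₀ x (y v)) = φ₀ z (rho 3 F (X * g * X⁻¹) (y v))
    rw [← hyφ, h1, h1, ← hyφ]
    congr 1
    exact congrArg (fun h : Module.End F (Fin 3 ⊕ Fin 3 → F) => h v) hz

end group

end H46.CovSp6
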