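import Mathlib
import Cfsg.Agent.Lib.H46.CovSp6a
import Cfsg.Agent.Lib.H46.CovReg
import Cfsg.Agent.Lib.H46.CovSL
import Cfsg.Agent.Lib.H46.SpDich

/-! Symplectic groups: dual pairs of totally isotropic subspaces. -/

set_option autoImplicit false

namespace H46.CovSp6

open Module Polynomial H46.SForm H46.SForm.SForm H46.CovSt H46.OrdPSp H46.CovReg H46.OrthDec H46.FieldInv

variable {F : Type*} [Field F]

/-- dual pairs on which the operator is semilinear for a cubic structure -/
theorem pair_good [Finite F] {E : Type*} [Field E] [Finite E] [Algebra F E] (hE : finrank F E = 3)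
    {V : Type*} [AddCommGroup V] [Module F V] [Module.Finite F V] (hV : finrank F V = 6) {f : SForm F V (RingHom.id F)} (halt : f.Alt) (hnd : f.ND)
    {W₁ W₂ : Submodule F V} (hP : Pair f W₁ W₂) (g : (Module.End F V)ˣ) (hg : f.Isom g)
    (h₁ : ∀ v ∈ W₁, (g : Module.End F V) v ∈ W₁) (h₂ : ∀ v ∈ W₂, (g : Module.End F V) v ∈ W₂)
    (e₁ : W₁ ≃ₗ[F] E) (α : E ≃ₐ[F] E) (c : E) (hc : c ≠ 0) (he₁ : ∀ (w w' : W₁), (w' : V) = (g : Module.End F V) w → e₁ w' = c * α (e₁ w)) :
    GoodPhi E f (g : Module.End F V) := by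
  haveI : Module.Finite F E := Module.Finite.of_finite
  have hsym := halt.sym
  have hndr : f.NDR := hsym.ndr hnd
  have hrep : ∀ w : W₂, ∃ b : E, ∀ x, f.B (e₁.symm x : V) w = Algebra.trace F E (x * b) := by
    intro w
    exact exists_rep
      { toFun := fun x => f.B (e₁.symm x : V) w
        map_add' := fun x y => by rw [map_add, Submodule.coe_add, f.add_left]
        map_smul' := fun c x => by rw [map_smul, Submodule.coe_smul, f.smul_left]; rfl }
  choose β hβ using hrep
  have hβ' : ∀ (w₁ : W₁) (w₂ : W₂), f.B (w₁ : V) w₂ = Algebra.trace F E (e₁ w₁ * β w₂) := by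
    intro w₁ w₂
    rw [← hβ, e₁.symm_apply_apply]
  let e₂' : W₂ →ₗ[F] E :=
    { toFun := β
      map_add' := fun x y => by
        apply rep_unique (F := F)
        intro z
        rw [← hβ, Submodule.coe_add, f.add_right, hβ, hβ, mul_add, map_add]
      map_smul' := fun c x => by
        apply rep_unique (F := F)
        intro z
        rw [← hβ, Submodule.coe_smul, f.smul_right, hβ, RingHom.id_apply, mul_smul_comm, map_smul, smul_eq_mul] }
  have hinj : Function.Injective e₂' := by
    rw [injective_iff_map_eq_zero]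
    intro w hw
    have hw' : β w = 0 := hw
    apply Subtype.ext
    apply hndr
    intro v
    obtain ⟨a, ha, b, hb, rfl⟩ := mem_sup_of_compl hP.compl v
    rw [f.add_left, hP.iso₂ b hb _ w.2, add_zero]
    have := hβ' ⟨a, ha⟩ w
    rw [hw', mul_zero, map_zero] at this
    exact this
  have hfr : finrank F W₂ = finrank F E := by
    have h3 := hP.finrank_eq hndr
    have h4 := Submodule.finrank_add_eq_of_isCompl hP.compl
    omega
  let e₂ : W₂ ≃ₗ[F] E := LinearMap.linearEquivOfInjective e₂' hinj hfr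
  have he₂ : ∀ w, e₂ w = β w := fun w => rfl
  let e : V ≃ₗ[F] E × E := (Submodule.prodEquivOfIsCompl W₁ W₂ hP.compl).symm.trans (LinearEquiv.prodCongr e₁ e₂)
  have he : ∀ (w₁ : W₁) (w₂ : W₂), e ((w₁ : V) + (w₂ : V)) = (e₁ w₁, e₂ w₂) := by
    intro w₁ w₂
    have h3 : (w₁ : V) + (w₂ : V) = Submodule.prodEquivOfIsCompl W₁ W₂ hP.compl (w₁, w₂) := rfl
    change (LinearEquiv.prodCongr e₁ e₂) ((Submodule.prodEquivOfIsCompl W₁ W₂ hP.compl).symm ((w₁ : V) + (w₂ : V))) = _
    rw [h3, LinearEquiv.symm_apply_apply]; rfl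
  have hiso : ∀ v w, (f₀ E).B (e v) (e w) = f.B v w := by
    intro v w
    obtain ⟨a, ha, b, hb, rfl⟩ := mem_sup_of_compl hP.compl v
    obtain ⟨a', ha', b', hb', rfl⟩ := mem_sup_of_compl hP.compl w
    have e1 := he ⟨a, ha⟩ ⟨b, hb⟩
    have e2 := he ⟨a', ha'⟩ ⟨b', hb'⟩
    change e (a + b) = _ at e1
    change e (a' + b') = _ at e2
    rw [e1, e2, f₀_apply, map_sub]
    change Algebra.trace F E (e₁ ⟨a, ha⟩ * β ⟨b', hb'⟩) - Algebra.trace F E (β ⟨b, hb⟩ * e₁ ⟨a', ha'⟩) = _
    rw [mul_comm (β ⟨b, hb⟩), ← hβ', ← hβ', f.add_left, f.add_right, f.add_right, hP.iso₁ a ha a' ha', hP.iso₂ b hb b' hb']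
    have h3 := hsym a' b
    rw [RingHom.id_apply] at h3
    rw [h3]
    ring
  have hg₂ : ∀ (w w' : W₂), (w' : V) = (g : Module.End F V) w → e₂ w' = c⁻¹ * α (e₂ w) := by
    intro w w' hw
    have h3 : c * β w' = α (β w) := by
      apply rep_unique (F := F)
      intro x
      obtain ⟨y, hy⟩ := α.surjective x
      obtain ⟨w₁, hw₁⟩ := e₁.surjective y
      have h4 := hβ' ⟨(g : Module.End F V) w₁, h₁ _ w₁.2⟩ w'
      rw [he₁ w₁ _ rfl, hw] at h4
      change f.B ((g : Module.End F V) w₁) ((g : Module.End F V) w) = _ at h4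
      rw [hg, hβ', hw₁, hy] at h4
      have h5 : x * (c * β w') = c * x * β w' := by ring
      rw [h5, ← h4, ← hy, ← map_mul, Algebra.trace_eq_of_algEquiv]
    rw [he₂, he₂, ← h3, ← mul_assoc, inv_mul_cancel₀ hc, one_mul]
  have heg : ∀ v, e ((g : Module.End F V) v) = (c * α (e v).1, c⁻¹ * α (e v).2) := by
    intro v
    obtain ⟨a, ha, b, hb, rfl⟩ := mem_sup_of_compl hP.compl v
    have e1 := he ⟨a, ha⟩ ⟨b, hb⟩
    change e (a + b) = _ at e1
    have e2 := he ⟨(g : Module.End F V) a, h₁ a ha⟩ ⟨(g : Module.End F V) b, h₂ b hb⟩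
    change e ((g : Module.End F V) a + (g : Module.End F V) b) = _ at e2
    rw [map_add, e2, e1, he₁ ⟨a, ha⟩ _ rfl, hg₂ ⟨b, hb⟩ _ rfl]
  apply good_of_e e hiso α
  intro x v w hvw
  rw [heg, heg, hvw]
  apply Prod.ext
  · change c * α (x * (e w).1) = α x * (c * α (e w).1)
    rw [map_mul]; ring
  · change c⁻¹ * α (x * (e w).2) = α x * (c⁻¹ * α (e w).2)
    rw [map_mul]; ring

/-- dual pairs on which the operator is regular -/
theorem pair_reg [Finite F] [CharP F 3] {E : Type*} [Field E] [Finite E] [Algebra F E] (hE : finrank F E = 3)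
    {V : Type*} [AddCommGroup V] [Module F V] [Module.Finite F V] (hV : finrank F V = 6) {f : SForm F V (RingHom.id F)} (halt : f.Alt) (hnd : f.ND)
    {W₁ W₂ : Submodule F V} (hP : Pair f W₁ W₂) (g : (Module.End F V)ˣ) (hg : f.Isom g)
    (h₁ : ∀ v ∈ W₁, (g : Module.End F V) v ∈ W₁) (h₂ : ∀ v ∈ W₂, (g : Module.End F V) v ∈ W₂)
    (N : Module.End F W₁) (c : F) (hc : c ≠ 0) (hN : ∀ w : W₁, (g : Module.End F V) w = ((c • (N w + w) : W₁) : V)) (hN3 : N ^ 3 = 0) {v : W₁} (hv : (N ^ 2) v ≠ 0) :
    GoodPhi E f (g : Module.End F V) := by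
  haveI : Module.Finite F E := Module.Finite.of_finite
  have hndr : f.NDR := halt.sym.ndr hnd
  have h3 : finrank F W₁ = 3 := by
    have h3 := hP.finrank_eq hndr
    have h4 := Submodule.finrank_add_eq_of_isCompl hP.compl
    omega
  obtain ⟨v', hv'⟩ := exists_trace_eq F E 1
  obtain ⟨e, -, he⟩ := exists_equiv (n := 3) h3 hE (by norm_num) hN3 (psi_sub_cube F E hE) (v := v) (v' := v') hv (by
    change ((psiL F E - 1) ^ 2 : Module.End F E) v' ≠ 0
    rw [psi_sub_sq F E hE, hv', map_one]
    exact one_ne_zero)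
  refine pair_good hE hV halt hnd hP g hg h₁ h₂ e (psi F E) (algebraMap F E c) (by rw [Ne, map_eq_zero]; exact hc) ?_
  intro w w' hw
  have h5 : w' = c • (N w + w) := Subtype.ext (by rw [hw, hN])
  rw [h5, map_smul, map_add, he, Algebra.smul_def]
  congr 1
  rw [LinearMap.sub_apply]
  change psiL F E (e w) - e w + e w = psi F E (e w)
  rw [sub_add_cancel]; rfl

/-- the dual pair case -/
theorem pair_case [Finite F] [CharP F 3] {E : Type*} [Field E] [Finite E] [Algebra F E] (hE : finrank F E = 3)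
    {V : Type*} [AddCommGroup V] [Module F V] [Module.Finite F V] (hV : finrank F V = 6) {f : SForm F V (RingHom.id F)} (halt : f.Alt) (hnd : f.ND)
    {W₁ W₂ : Submodule F V} (hP : Pair f W₁ W₂) (g : (Module.End F V)ˣ) (hg : f.Isom g)
    (h₁ : ∀ v ∈ W₁, (g : Module.End F V) v ∈ W₁) (h₂ : ∀ v ∈ W₂, (g : Module.End F V) v ∈ W₂)
    (k : ℕ) (h : F[X]) (hirr : Irreducible h) (hker : ∀ v ∈ W₁, aeval ((g ^ 3 ^ k : (Module.End F V)ˣ) : Module.End F V) h v = 0) :
    GoodPlane f (g : Module.End F V) ∨ GoodPhi E f (g : Module.End F V) := by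
  haveI : Fact (Nat.Prime 3) := ⟨Nat.prime_three⟩
  haveI : Module.Finite F E := Module.Finite.of_finite
  have hndr : f.NDR := halt.sym.ndr hnd
  have hfe := hP.finrank_eq hndr
  have h3 : finrank F W₁ = 3 := by
    have h4 := Submodule.finrank_add_eq_of_isCompl hP.compl
    omega
  haveI : Nontrivial W₁ := Module.nontrivial_of_finrank_pos (R := F) (by omega)
  obtain ⟨g₁, -, hg₁⟩ := exists_res g W₁ h₁
  obtain ⟨s₁, hs₁⟩ : ∃ s₁ : Module.End F W₁, s₁ = (g₁ : Module.End F W₁) ^ 3 ^ k := ⟨_, rfl⟩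
  have hs₁v : ∀ w : W₁, ((s₁ w : W₁) : V) = ((g ^ 3 ^ k : (Module.End F V)ˣ) : Module.End F V) w := by
    intro w
    rw [hs₁, res_pow hg₁, Units.val_pow_eq_pow_val]
  have hirr₁ : Irreducible (minpoly F s₁) := by
    apply H46.SpDich.irreducible_minpoly_restrict _ h hirr
    intro w
    apply Subtype.ext
    rw [res_aeval hs₁v, hker w w.2]; rfl
  have hd : finrank F (AdjoinRoot (minpoly F s₁)) = (minpoly F s₁).natDegree := by
    rw [(AdjoinRoot.powerBasis hirr₁.ne_zero).finrank, AdjoinRoot.powerBasis_dim]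
  obtain ⟨l, hl0, hldim, -⟩ := field_data s₁ _ rfl hirr₁
  rw [hd, h3] at hldim
  have hcg : Commute (g₁ : Module.End F W₁) s₁ := by rw [hs₁]; exact Commute.self_pow _ _
  rcases (Nat.dvd_prime Nat.prime_three).mp ⟨l, hldim.symm⟩ with hdeg | hdeg
  · -- scalar
    have hint : IsIntegral F s₁ := Algebra.IsIntegral.isIntegral _
    obtain ⟨c, hc⟩ : ∃ c : F, s₁ = algebraMap F _ c := by
      have h3 : minpoly F s₁ = X + C ((minpoly F s₁).coeff 0) := (minpoly.monic hint).eq_X_add_C hdeg
      have h5 := minpoly.aeval F s₁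
      rw [h3, map_add, aeval_X, aeval_C, add_eq_zero_iff_eq_neg, ← map_neg] at h5
      exact ⟨_, h5⟩
    haveI : CharP (Module.End F W₁) 3 := charP_of_injective_algebraMap (FaithfulSMul.algebraMap_injective F (Module.End F W₁)) 3
    haveI : PerfectRing F 3 := inferInstance
    obtain ⟨b, hb⟩ : ∃ b : F, b ^ 3 ^ k = c := by
      refine ⟨(iterateFrobeniusEquiv F 3 k).symm c, ?_⟩
      have := (iterateFrobeniusEquiv F 3 k).apply_symm_apply c
      rwa [iterateFrobeniusEquiv_apply, iterateFrobenius_def] at this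
    have hnil : ((g₁ : Module.End F W₁) - algebraMap F _ b) ^ 3 ^ k = 0 := by
      rw [sub_pow_char_pow_of_commute 3 k (Algebra.commutes b (g₁ : Module.End F W₁)).symm, ← map_pow, hb, ← hc, hs₁, sub_self]
    have hb0 : b ≠ 0 := by
      rintro rfl
      obtain ⟨v, hv0, hv⟩ := H46.CovSL.exists_eig hnil
      rw [zero_smul] at hv
      apply hv0
      rw [← unit_apply_inv g₁ v, hv, map_zero]
    obtain ⟨N, hNd⟩ : ∃ N : Module.End F W₁, N = b⁻¹ • ((g₁ : Module.End F W₁) - algebraMap F _ b) := ⟨_, rfl⟩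
    have huN : ∀ v, (g₁ : Module.End F W₁) v = b • (N v + v) := by
      intro v
      rw [hNd, LinearMap.smul_apply, LinearMap.sub_apply, Module.algebraMap_end_apply, smul_add, smul_smul, mul_inv_cancel₀ hb0, one_smul, sub_add_cancel]
    have hNn : IsNilpotent N := ⟨3 ^ k, by rw [hNd, _root_.smul_pow, hnil, smul_zero]⟩
    have hN3 : N ^ 3 = 0 := by
      have h1 : LinearMap.charpoly N = X ^ finrank F W₁ := (LinearMap.isNilpotent_iff_charpoly N).mp hNn
      have h2 := LinearMap.aeval_self_charpoly N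
      rw [h1, h3] at h2
      simpa using h2
    by_cases hN2 : N ^ 2 = 0
    · left
      have hr := LinearMap.finrank_range_add_finrank_ker N
      have h5 : LinearMap.range N ≤ LinearMap.ker N := by
        rintro _ ⟨x, rfl⟩
        rw [LinearMap.mem_ker]
        rw [pow_two] at hN2
        exact congrArg (fun h : Module.End F W₁ => h x) hN2
      have h6 := Submodule.finrank_mono h5
      obtain ⟨a, ha, har⟩ : ∃ a ∈ LinearMap.ker N, a ∉ LinearMap.range N := by
        by_contra hcon
        push Not at hcon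
        have h7 := Submodule.finrank_mono hcon
        omega
      obtain ⟨ℓ, hℓa, hℓ⟩ := Submodule.exists_dual_map_eq_bot_of_notMem har inferInstance
      have hℓN : ∀ w, ℓ (N w) = 0 := by
        intro w
        have : ℓ (N w) ∈ (LinearMap.range N).map ℓ := ⟨_, ⟨w, rfl⟩, rfl⟩
        rw [hℓ] at this
        exact this
      -- represent the functional
      let Φ : W₂ →ₗ[F] Module.Dual F W₁ :=
        { toFun := fun w =>
            { toFun := fun v => f.B (v : V) (w : V)
              map_add' := fun x y => by rw [Submodule.coe_add, f.add_left]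
              map_smul' := fun c x => by rw [Submodule.coe_smul, f.smul_left]; rfl }
          map_add' := fun x y => by
            apply LinearMap.ext
            intro v
            change f.B (v : V) ((x + y : W₂) : V) = f.B (v : V) x + f.B (v : V) y
            rw [Submodule.coe_add, f.add_right]
          map_smul' := fun c x => by
            apply LinearMap.ext
            intro v
            change f.B (v : V) ((c • x : W₂) : V) = c • f.B (v : V) x
            rw [Submodule.coe_smul, f.smul_right]; rfl }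
      have hΦinj : Function.Injective Φ := by
        rw [injective_iff_map_eq_zero]
        intro w hw
        apply Subtype.ext
        apply hndr
        intro v
        obtain ⟨a, ha, b, hb, rfl⟩ := mem_sup_of_compl hP.compl v
        rw [f.add_left, hP.iso₂ b hb _ w.2, add_zero]
        exact congrArg (fun h : Module.Dual F W₁ => h ⟨a, ha⟩) hw
      have hΦsurj : Function.Surjective Φ := (LinearMap.injective_iff_surjective_of_finrank_eq_finrank (by
        rw [Subspace.dual_finrank_eq, hfe])).mp hΦinj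
      obtain ⟨w, hw⟩ := hΦsurj ℓ
      have hw' : ∀ v : W₁, f.B (v : V) (w : V) = ℓ v := fun v => congrArg (fun h : Module.Dual F W₁ => h v) hw
      have hgw : (g : Module.End F V) w = b⁻¹ • (w : V) := by
        apply sub_eq_zero.mp
        apply hndr
        intro v
        obtain ⟨x, hx, y, hy, rfl⟩ := mem_sup_of_compl hP.compl v
        rw [f.add_left, hP.iso₂ y hy _ (Submodule.sub_mem _ (h₂ _ w.2) (Submodule.smul_mem _ _ w.2)), add_zero]
        obtain ⟨x', hx'⟩ : ∃ x' : W₁, (g₁ : Module.End F W₁) x' = ⟨x, hx⟩ := ⟨((g₁⁻¹ : (Module.End F W₁)ˣ) : Module.End F W₁) ⟨x, hx⟩, unit_inv_apply g₁ _⟩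
        have hx'' : x = (g : Module.End F V) x' := by rw [← hg₁, hx']
        rw [f.sub_right, f.smul_right]
        have h7 : f.B x (w : V) = b * ℓ x' := by
          have h8 := hw' ⟨x, hx⟩
          rw [← hx', huN, map_smul, map_add, hℓN, zero_add, smul_eq_mul] at h8
          rw [← h8, ← huN, hx']
        have h9 : f.B x ((g : Module.End F V) w) = ℓ x' := by
          rw [hx'', hg, hw']
        rw [h9, h7, RingHom.id_apply, ← mul_assoc, inv_mul_cancel₀ hb0, one_mul, sub_self]
      have hga : (g : Module.End F V) a = b • (a : V) := by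
        rw [← hg₁, huN, LinearMap.mem_ker.mp ha, zero_add]; rfl
      refine ⟨a, w, ?_, ?_, ?_⟩
      · rw [hw']; exact hℓa
      · rw [hga]
        exact Submodule.smul_mem _ _ (Submodule.subset_span (by simp))
      · rw [hgw]
        exact Submodule.smul_mem _ _ (Submodule.subset_span (by simp))
    · right
      obtain ⟨v, hv⟩ : ∃ v, (N ^ 2) v ≠ 0 := by
        by_contra hcon
        push Not at hcon
        exact hN2 (LinearMap.ext hcon)
      exact pair_reg hE hV halt hnd hP g hg h₁ h₂ N b hb0 (fun w => by rw [← hg₁, huN]) hN3 hv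
  · -- irreducible
    right
    obtain ⟨φ, hφ⟩ := H46.CovSL.exists_phi hirr₁ E (by rw [hE, hdeg])
    have hcu : ∀ x, Commute (g₁ : Module.End F W₁) (φ x) := hφ _ hcg
    obtain ⟨e₁, he₁⟩ := H46.CovSL.model φ (k := 1) (by rw [hE, h3])
    let e : W₁ ≃ₗ[F] E := e₁.trans (LinearEquiv.funUnique (Fin 1) F E)
    have he : ∀ x v, e (φ x v) = x * e v := by
      intro x v
      change (e₁ (φ x v)) default = x * (e₁ v) default
      rw [he₁]; rfl
    obtain ⟨w, hw⟩ : ∃ w, w = e.symm 1 := ⟨_, rfl⟩
    obtain ⟨t, ht⟩ : ∃ t, t = e ((g₁ : Module.End F W₁) w) := ⟨_, rfl⟩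
    have hev : ∀ v, e ((g₁ : Module.End F W₁) v) = t * e v := by
      intro v
      have h5 : v = φ (e v) w := by
        apply e.injective
        rw [he, hw, e.apply_symm_apply, mul_one]
      have h6 : (g₁ : Module.End F W₁) (φ (e v) w) = φ (e v) ((g₁ : Module.End F W₁) w) :=
        congrArg (fun h : Module.End F W₁ => h w) (hcu (e v)).eq
      conv_lhs => rw [h5]
      rw [h6, he, ← ht, mul_comm]
    have ht0 : t ≠ 0 := by
      rintro rfl
      obtain ⟨v, hv⟩ := exists_ne (0 : W₁)
      apply hv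
      have h5 := hev v
      rw [zero_mul] at h5
      have h6 : (g₁ : Module.End F W₁) v = 0 := e.injective (by rw [h5, map_zero])
      rw [← unit_apply_inv g₁ v, h6, map_zero]
    refine pair_good hE hV halt hnd hP g hg h₁ h₂ e AlgEquiv.refl t ht0 ?_
    intro w w' hw
    have h5 : w' = (g₁ : Module.End F W₁) w := Subtype.ext (by rw [hw, hg₁])
    rw [h5, hev]; rfl

end H46.CovSp6
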