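import Mathlib
import Cfsg.Agent.Lib.H46.CovPSU3b

/-! Isometries of three dimensional hermitian spaces in characteristic three. -/

set_option autoImplicit false

namespace H46.CovPSU3

open Module Polynomial H46.SForm H46.SForm.SForm H46.OrdPSU H46.CovSt H46.CovU H46.CovPSU4 H46.CovReg H46.FieldInv

variable {K : Type*} [Field K] [Fintype K] {q : ℕ}

/-- an isometry in coordinates -/
theorem exists_GU (hF : Fintype.card K = q ^ 2) {n : ℕ} (y : (Fin n → K) ≃ₗ[K] (Fin n → K)) (hy : ∀ u v, (hForm hF n).B (y u) (y v) = (hForm hF n).B u v) :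
    ∃ A : ↥(Cfsg.GU n K q), ∀ v, ((A : GL (Fin n) K) : Matrix (Fin n) (Fin n) K).mulVec v = y v := by
  have hM : ∀ v, (LinearMap.toMatrix' (y : (Fin n → K) →ₗ[K] (Fin n → K))).mulVec v = y v := fun v => LinearMap.toMatrix'_mulVec _ v
  have hu : IsUnit (LinearMap.toMatrix' (y : (Fin n → K) →ₗ[K] (Fin n → K))).det := by
    rw [LinearMap.det_toMatrix']
    exact LinearEquiv.isUnit_det' y
  refine ⟨⟨Matrix.nonsingInvUnit _ hu, ?_⟩, fun v => hM v⟩
  intro v w
  change (hForm hF n).B ((LinearMap.toMatrix' (y : (Fin n → K) →ₗ[K] (Fin n → K))).mulVec v) ((LinearMap.toMatrix' (y : (Fin n → K) →ₗ[K] (Fin n → K))).mulVec w) = (hForm hF n).B v w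
  rw [hM, hM, hy]

/-- similar isometries of hermitian spaces are isometric -/
theorem conj_U (hF : Fintype.card K = q ^ 2) {V V' : Type*} [AddCommGroup V] [Module K V] [AddCommGroup V'] [Module K V'] [Module.Finite K V] [Module.Finite K V']
    {n : ℕ} (hn : finrank K V = n) (hn' : finrank K V' = n) {f : SForm K V (bar hF)} (hnd : f.ND) (hsym : f.Sym 1)
    {f' : SForm K V' (bar hF)} (hnd' : f'.ND) (hsym' : f'.Sym 1) (g : V ≃ₗ[K] V) (hg : ∀ v w, f.B (g v) (g w) = f.B v w)
    (g' : V' ≃ₗ[K] V') (hg' : ∀ v w, f'.B (g' v) (g' w) = f'.B v w) (e₀ : V ≃ₗ[K] V') (he₀ : ∀ v, e₀ (g v) = g' (e₀ v)) :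
    ∃ e : V ≃ₗ[K] V', (∀ v w, f'.B (e v) (e w) = f.B v w) ∧ ∀ v, e (g v) = g' (e v) := by
  obtain ⟨θ, hθ⟩ := exists_isometry hF hn f hnd hsym
  obtain ⟨θ', hθ'⟩ := exists_isometry hF hn' f' hnd' hsym'
  let y : (Fin n → K) ≃ₗ[K] (Fin n → K) := (θ.symm.trans g).trans θ
  let y' : (Fin n → K) ≃ₗ[K] (Fin n → K) := (θ'.symm.trans g').trans θ'
  have hy : ∀ v, y (θ v) = θ (g v) := by
    intro v
    change θ (g (θ.symm (θ v))) = _
    rw [θ.symm_apply_apply]
  have hy' : ∀ v, y' (θ' v) = θ' (g' v) := by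
    intro v
    change θ' (g' (θ'.symm (θ' v))) = _
    rw [θ'.symm_apply_apply]
  obtain ⟨A, hA⟩ := exists_GU hF y (by
    intro v w
    obtain ⟨v, rfl⟩ := θ.surjective v
    obtain ⟨w, rfl⟩ := θ.surjective w
    rw [hy, hy, hθ, hθ, hg])
  obtain ⟨B, hB⟩ := exists_GU hF y' (by
    intro v w
    obtain ⟨v, rfl⟩ := θ'.surjective v
    obtain ⟨w, rfl⟩ := θ'.surjective w
    rw [hy', hy', hθ', hθ', hg'])
  let e₁ : (Fin n → K) ≃ₗ[K] (Fin n → K) := (θ.symm.trans e₀).trans θ'
  have he₁ : ∀ v, e₁ (θ v) = θ' (e₀ v) := by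
    intro v
    change θ' (e₀ (θ.symm (θ v))) = _
    rw [θ.symm_apply_apply]
  let M : Matrix (Fin n) (Fin n) K := LinearMap.toMatrix' (e₁ : (Fin n → K) →ₗ[K] (Fin n → K))
  have hMv : ∀ v, M.mulVec v = e₁ v := fun v => LinearMap.toMatrix'_mulVec _ v
  have hMd : IsUnit M.det := by
    rw [LinearMap.det_toMatrix']
    exact LinearEquiv.isUnit_det' e₁
  have hMA : M * ((A : GL (Fin n) K) : Matrix (Fin n) (Fin n) K) = ((B : GL (Fin n) K) : Matrix (Fin n) (Fin n) K) * M := by
    apply Matrix.toLin'.injective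
    apply LinearMap.ext
    intro v
    rw [Matrix.toLin'_apply, Matrix.toLin'_apply, ← Matrix.mulVec_mulVec, ← Matrix.mulVec_mulVec, hA, hMv, hMv, hB]
    obtain ⟨v, rfl⟩ := θ.surjective v
    rw [hy, he₁, he₁, hy', he₀]
  have hconj : IsConj ((A : GL (Fin n) K) : Matrix (Fin n) (Fin n) K) ((B : GL (Fin n) K) : Matrix (Fin n) (Fin n) K) :=
    ⟨Matrix.nonsingInvUnit M hMd, hMA⟩
  obtain ⟨Y, hY⟩ := isConj_iff.mp (H49.SUClasses.isConj_GU hF hconj)
  have hY' : Y * A = B * Y := by rw [← hY]; group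
  have hYA : ∀ v, ((Y : GL (Fin n) K) : Matrix (Fin n) (Fin n) K).mulVec (y v) = y' (((Y : GL (Fin n) K) : Matrix (Fin n) (Fin n) K).mulVec v) := by
    intro v
    rw [← hA, ← hB, Matrix.mulVec_mulVec, Matrix.mulVec_mulVec]
    have h1 : ((Y : GL (Fin n) K) : Matrix (Fin n) (Fin n) K) * ((A : GL (Fin n) K) : Matrix (Fin n) (Fin n) K) =
        ((B : GL (Fin n) K) : Matrix (Fin n) (Fin n) K) * ((Y : GL (Fin n) K) : Matrix (Fin n) (Fin n) K) :=
      congrArg (fun z : ↥(Cfsg.GU n K q) => ((z : GL (Fin n) K) : Matrix (Fin n) (Fin n) K)) hY'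
    rw [h1]
  let e₂ : (Fin n → K) ≃ₗ[K] (Fin n → K) := LinearEquiv.ofIsUnitDet (f := Matrix.toLin' ((Y : GL (Fin n) K) : Matrix (Fin n) (Fin n) K))
    (v := Pi.basisFun K (Fin n)) (v' := Pi.basisFun K (Fin n)) (by
    rw [LinearMap.det_toMatrix, LinearMap.det_toLin']
    exact (Matrix.isUnit_iff_isUnit_det _).mp (Y : GL (Fin n) K).isUnit)
  have he₂ : ∀ v, e₂ v = ((Y : GL (Fin n) K) : Matrix (Fin n) (Fin n) K).mulVec v := fun v => rfl
  refine ⟨(θ.trans e₂).trans θ'.symm, ?_, ?_⟩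
  · intro v w
    change f'.B (θ'.symm (e₂ (θ v))) (θ'.symm (e₂ (θ w))) = _
    rw [← hθ', θ'.apply_symm_apply, θ'.apply_symm_apply, he₂, he₂, ← hθ]
    exact Y.2 _ _
  · intro v
    change θ'.symm (e₂ (θ (g v))) = g' (θ'.symm (e₂ (θ v)))
    apply θ'.injective
    rw [θ'.apply_symm_apply, ← hy, he₂, hYA, ← he₂, ← hy', θ'.apply_symm_apply]

/-- three dimensional isometries: nonisotropic eigenvectors, or a compatible cubic field structure -/
theorem main3 (hF : Fintype.card K = q ^ 2) {a : ℕ} (hq : q = 3 ^ a) [CharP K 3] (E : Type*) [Field E] [Finite E] [Algebra K E] [CharP E 3] (hE : finrank K E = 3)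
    {V : Type*} [AddCommGroup V] [Module K V] [Module.Finite K V] (h3 : finrank K V = 3) {f : SForm K V (bar hF)} (hnd : f.ND) (hsym : f.Sym 1)
    (u : (Module.End K V)ˣ) (hu : f.Isom u) :
    (∃ (c : K) (v : V), f.B v v ≠ 0 ∧ (u : Module.End K V) v = c • v) ∨
    (haveI : Fact (Nat.Prime 3) := ⟨Nat.prime_three⟩
     ∃ e : V ≃ₗ[K] E, (∀ v w, (trForm 3 a hF hq E).B (e v) (e w) = f.B v w) ∧ ∃ (c : E) (i : ℕ), ∀ v, e ((u : Module.End K V) v) = c * (e v) ^ (Nat.card K ^ i)) := by
  haveI : Fact (Nat.Prime 3) := ⟨Nat.prime_three⟩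
  haveI : Module.Finite K E := Module.Finite.of_finite
  haveI : Nontrivial V := Module.nontrivial_of_finrank_pos (R := K) (by omega)
  have hndr : f.NDR := hsym.ndr hnd
  let g : V ≃ₗ[K] V := LinearEquiv.ofBijective (u : Module.End K V) ((Module.End.isUnit_iff _).mp u.isUnit)
  have hgu : ∀ v, g v = (u : Module.End K V) v := fun v => rfl
  have hgi : ∀ v w, f.B (g v) (g w) = f.B v w := fun v w => hu v w
  rcases tri hF 3 hnd hsym u hu with ⟨W₁, W₂, hW, hW₁, hW₂, horth, h₁, h₂⟩ | ⟨c, hc, hN⟩ | ⟨k, hirr, ho, h1, hd⟩ | ⟨W₁, W₂, hW, hW₁, hW₂, h₁, h₂⟩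
  · left
    have horth' : ∀ v ∈ W₂, ∀ w ∈ W₁, f.B v w = 0 := by
      intro v hv w hw
      rw [hsym w v, horth w hw v hv, map_zero, mul_zero]
    have hfs := Submodule.finrank_add_eq_of_isCompl hW
    have hp1 : 0 < finrank K W₁ := by
      rw [Nat.pos_iff_ne_zero, Ne, Submodule.finrank_eq_zero]; exact hW₁
    have hp2 : 0 < finrank K W₂ := by
      rw [Nat.pos_iff_ne_zero, Ne, Submodule.finrank_eq_zero]; exact hW₂
    have h12 : finrank K W₁ = 1 ∨ finrank K W₂ = 1 := by omega
    rcases h12 with d1 | d2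
    · obtain ⟨c, v, hvW, hv0, hv⟩ := eig_sub (u : Module.End K V) W₁ h₁ d1
      exact ⟨c, v, ne_zero_of_line hnd hW horth d1 hvW hv0, hv⟩
    · obtain ⟨c, v, hvW, hv0, hv⟩ := eig_sub (u : Module.End K V) W₂ h₂ d2
      exact ⟨c, v, ne_zero_of_line hnd hW.symm horth' d2 hvW hv0, hv⟩
  · have hc0 : c ≠ 0 := left_ne_zero_of_mul_eq_one hc
    obtain ⟨N, hNd⟩ : ∃ N : Module.End K V, N = c⁻¹ • ((u : Module.End K V) - algebraMap K _ c) := ⟨_, rfl⟩
    have huN : ∀ v, (u : Module.End K V) v = c • (N v + v) := by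
      intro v
      rw [hNd, LinearMap.smul_apply, LinearMap.sub_apply, Module.algebraMap_end_apply, smul_add, smul_smul, mul_inv_cancel₀ hc0, one_smul, sub_add_cancel]
    have hNn : IsNilpotent N := by
      obtain ⟨m, hm⟩ := hN
      refine ⟨m, ?_⟩
      rw [hNd, _root_.smul_pow, hm, smul_zero]
    have hker : ∀ v, v ∈ LinearMap.ker N ↔ (u : Module.End K V) v = c • v := by
      intro v
      rw [LinearMap.mem_ker, huN]
      constructor
      · intro h; rw [h, zero_add]
      · intro h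
        have h5 : c • (N v + v) - c • v = 0 := by rw [h, sub_self]
        rw [← smul_sub, add_sub_cancel_right] at h5
        exact (smul_eq_zero.mp h5).resolve_left hc0
    by_cases hns : ∃ v ∈ LinearMap.ker N, f.B v v ≠ 0
    · obtain ⟨v, hv, hvv⟩ := hns
      left
      exact ⟨c, v, hvv, (hker v).mp hv⟩
    right
    push Not at hns
    have hti := ti_of_iso hF hsym (LinearMap.ker N) hns
    have hle := ti_finrank hndr _ hti
    have hN3 : N ^ 3 = 0 := by
      have h1 : LinearMap.charpoly N = X ^ finrank K V := (LinearMap.isNilpotent_iff_charpoly N).mp hNn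
      have h2 := LinearMap.aeval_self_charpoly N
      rw [h1, h3] at h2
      simpa using h2
    have hN2 : N ^ 2 ≠ 0 := by
      intro h0
      have hr := LinearMap.finrank_range_add_finrank_ker N
      have h5 : LinearMap.range N ≤ LinearMap.ker N := by
        rintro _ ⟨x, rfl⟩
        rw [LinearMap.mem_ker]
        rw [pow_two] at h0
        exact congrArg (fun h : Module.End K V => h x) h0
      have h6 := Submodule.finrank_mono h5
      omega
    obtain ⟨v, hv⟩ : ∃ v, (N ^ 2) v ≠ 0 := by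
      by_contra hcon
      push Not at hcon
      exact hN2 (LinearMap.ext hcon)
    obtain ⟨v', hv'⟩ := exists_trace_eq K E 1
    obtain ⟨e₀, -, he₀⟩ := exists_equiv (n := 3) h3 hE (by norm_num) hN3 (psi_sub_cube K E hE) (v := v) (v' := v') hv (by
      change ((psiL K E - 1) ^ 2 : Module.End K E) v' ≠ 0
      rw [psi_sub_sq K E hE, hv', map_one]
      exact one_ne_zero)
    let T : E ≃ₗ[K] E := (psi K E).toLinearEquiv.trans (LinearEquiv.smulOfUnit (Units.mk0 c hc0))
    have hT : ∀ x, T x = c • psi K E x := fun x => rfl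
    obtain ⟨e, he1, he2⟩ := conj_U hF h3 hE hnd hsym (trForm_nd 3 a hF hq E hE) (trForm_sym 3 a hF hq E hE) g hgi T (by
      intro x y
      rw [hT, hT, SForm.smul_left, SForm.smul_right, ← mul_assoc, hc, one_mul, trForm_apply, trForm_apply]
      have h5 : tau 3 a E (psi K E y) = psi K E (tau 3 a E y) := by
        rw [psi_apply, psi_apply, map_pow]
      rw [h5, ← map_mul, psi_trace]) e₀ (by
      intro v
      rw [hgu, huN, map_smul, map_add, he₀, hT]
      congr 1
      rw [LinearMap.sub_apply]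
      change psiL K E (e₀ v) - e₀ v + e₀ v = psi K E (e₀ v)
      rw [sub_add_cancel]; rfl)
    refine ⟨e, he1, algebraMap K E c, 1, ?_⟩
    intro v
    rw [← hgu, he2, hT, psi_apply, pow_one, Algebra.smul_def]
  · right
    have hdeg : (minpoly K ((u ^ 3 ^ k : (Module.End K V)ˣ) : Module.End K V)).natDegree = 3 := by
      rw [h3] at hd
      rcases (Nat.dvd_prime Nat.prime_three).mp hd with h | h
      · exact absurd h h1
      · exact h
    obtain ⟨φ, hφ⟩ := H46.CovSL.exists_phi hirr E (by rw [hE, hdeg])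
    have hcu : ∀ x, Commute (u : Module.End K V) (φ x) := by
      intro x
      apply hφ
      rw [Units.val_pow_eq_pow_val]
      exact Commute.self_pow _ _
    obtain ⟨e₁, he₁⟩ := H46.CovSL.model φ (k := 1) (by rw [hE, h3])
    let e : V ≃ₗ[K] E := e₁.trans (LinearEquiv.funUnique (Fin 1) K E)
    have he : ∀ x v, e (φ x v) = x * e v := by
      intro x v
      change (e₁ (φ x v)) default = x * (e₁ v) default
      rw [he₁]; rfl
    obtain ⟨w, hw⟩ : ∃ w, w = e.symm 1 := ⟨_, rfl⟩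
    obtain ⟨t, ht⟩ : ∃ t, t = e ((u : Module.End K V) w) := ⟨_, rfl⟩
    have hev : ∀ v, e ((u : Module.End K V) v) = t * e v := by
      intro v
      have h5 : v = φ (e v) w := by
        apply e.injective
        rw [he, hw, e.apply_symm_apply, mul_one]
      have h6 : (u : Module.End K V) (φ (e v) w) = φ (e v) ((u : Module.End K V) w) :=
        congrArg (fun h : Module.End K V => h w) (hcu (e v)).eq
      conv_lhs => rw [h5]
      rw [h6, he, ← ht, mul_comm]
    have hevp : ∀ (m : ℕ) v, e (((u : Module.End K V) ^ m) v) = t ^ m * e v := by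
      intro m
      induction m with
      | zero => intro v; rw [pow_zero, pow_zero, one_mul]; rfl
      | succ m ih =>
        intro v
        rw [pow_succ, pow_succ]
        change e (((u : Module.End K V) ^ m) ((u : Module.End K V) v)) = _
        rw [ih, hev, mul_assoc]
    obtain ⟨r, hr, hsr, -, -⟩ := irred_data (bar_bar hF) hndr (u ^ 3 ^ k) (hu.pow _) _ rfl hirr (Or.inl (exists_bar_ne hF))
    have hcardA : Nat.card (AdjoinRoot (minpoly K ((u ^ 3 ^ k : (Module.End K V)ˣ) : Module.End K V))) = q ^ (2 * 3) := by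
      haveI hfact : Fact (Irreducible (minpoly K ((u ^ 3 ^ k : (Module.End K V)ˣ) : Module.End K V))) := ⟨hirr⟩
      haveI hfin0 : Module.Finite K (AdjoinRoot (minpoly K ((u ^ 3 ^ k : (Module.End K V)ˣ) : Module.End K V))) := (AdjoinRoot.powerBasis hirr.ne_zero).finite
      rw [Module.natCard_eq_pow_finrank (K := K), (AdjoinRoot.powerBasis hirr.ne_zero).finrank, AdjoinRoot.powerBasis_dim, hdeg, Nat.card_eq_fintype_card, hF, ← pow_mul]
    have hrq : r = q ^ 3 := by
      rw [hcardA, mul_comm, pow_mul] at hr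
      exact Nat.pow_left_injective (by norm_num : 2 ≠ 0) hr
    have htn : t ^ (q ^ 3 + 1) = 1 := by
      have h5 := hevp (3 ^ k * (r + 1)) w
      have h6 : (u : Module.End K V) ^ (3 ^ k * (r + 1)) = 1 := by
        rw [← Units.val_pow_eq_pow_val, pow_mul, hsr]; rfl
      rw [h6, Module.End.one_apply, hw, e.apply_symm_apply, mul_one, hrq] at h5
      have h7 : (t ^ (q ^ 3 + 1) - 1) ^ 3 ^ k = 0 := by
        rw [sub_pow_char_pow, one_pow, ← pow_mul, mul_comm, ← h5, sub_self]
      exact sub_eq_zero.mp (pow_eq_zero_iff (pow_pos (by norm_num) _).ne' |>.mp h7)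
    have ht0 : t ≠ 0 := by
      rintro rfl
      rw [zero_pow (by omega)] at htn
      exact zero_ne_one htn
    have htt : t * tau 3 a E t = 1 := by
      rw [tau_apply, ← pow_succ']
      have h5 : 3 ^ (3 * a) = q ^ 3 := by rw [hq, ← pow_mul]; ring
      rw [h5, htn]
    let T : E ≃ₗ[K] E :=
      { toFun := fun x => t * x
        map_add' := fun x y => mul_add _ _ _
        map_smul' := fun c x => by rw [mul_smul_comm]; rfl
        invFun := fun x => t⁻¹ * x
        left_inv := fun x => by change t⁻¹ * (t * x) = x; rw [← mul_assoc, inv_mul_cancel₀ ht0, one_mul]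
        right_inv := fun x => by change t * (t⁻¹ * x) = x; rw [← mul_assoc, mul_inv_cancel₀ ht0, one_mul] }
    have hT : ∀ x, T x = t * x := fun x => rfl
    obtain ⟨e', he1, he2⟩ := conj_U hF h3 hE hnd hsym (trForm_nd 3 a hF hq E hE) (trForm_sym 3 a hF hq E hE) g hgi T (by
      intro x y
      rw [trForm_apply, trForm_apply, hT, hT, map_mul (tau 3 a E)]
      have h5 : t * x * (tau 3 a E t * tau 3 a E y) = x * tau 3 a E y := by
        linear_combination (x * tau 3 a E y) * htt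
      rw [h5]) e (by
      intro v
      rw [hgu, hev, hT])
    refine ⟨e', he1, t, 0, ?_⟩
    intro v
    rw [← hgu, he2, hT, pow_zero, pow_one]
  · exfalso
    have hfs := Submodule.finrank_add_eq_of_isCompl hW.compl
    have := hW.finrank_eq hndr
    omega

end H46.CovPSU3
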