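import Mathlib
import Cfsg.Agent.Lib.H46.CovSp6b
import Cfsg.Agent.Lib.H46.CovU3

/-! Symplectic groups: elements with irreducible semisimple part. -/

set_option autoImplicit false

namespace H46.CovSp6

open Module Polynomial H46.SForm H46.SForm.SForm H46.CovSt H46.OrdPSp H46.CovReg H46.OrthDec H46.FieldInv H46.OrdPSU H46.CovU

variable {F : Type*} [Field F]

/-- the quadratic subfield of the algebra generated by an isometry with irreducible minimal polynomial -/
theorem exists_herm_phi [Finite F] [CharP F 3] {V : Type*} [AddCommGroup V] [Module F V] [Module.Finite F V] (hV : finrank F V = 6)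
    {f : SForm F V (RingHom.id F)} (halt : f.Alt) (hnd : f.ND) (s : (Module.End F V)ˣ) (hs : f.Isom s) (hirr : Irreducible (minpoly F (s : Module.End F V)))
    (hs2 : s ^ 2 ≠ 1) (K : Type*) [Field K] [Finite K] [Algebra F K] (hK : finrank F K = 2) :
    ∃ φ : K →ₐ[F] Module.End F V, (∀ h, Commute h (s : Module.End F V) → ∀ x, Commute h (φ x)) ∧ ∀ x, f.Adj (φ x) (φ (x ^ Nat.card F)) := by
  haveI : Fact (Nat.Prime 3) := ⟨Nat.prime_three⟩
  haveI : Nontrivial V := Module.nontrivial_of_finrank_pos (R := F) (by omega)
  haveI : Module.Finite F K := Module.Finite.of_finite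
  have hndr : f.NDR := halt.sym.ndr hnd
  obtain ⟨φ, hφ, hinj⟩ := field_act (s : Module.End F V) _ rfl hirr
  obtain ⟨r, hr, -, hθ, hcr⟩ := irred_data (fun _ => rfl) hndr s hs _ rfl hirr (Or.inr hs2)
  haveI : Fact (Irreducible (minpoly F (s : Module.End F V))) := ⟨hirr⟩
  haveI : Module.Finite F (AdjoinRoot (minpoly F (s : Module.End F V))) := (AdjoinRoot.powerBasis hirr.ne_zero).finite
  haveI : Finite (AdjoinRoot (minpoly F (s : Module.End F V))) := Module.finite_of_finite F
  have hd : finrank F (AdjoinRoot (minpoly F (s : Module.End F V))) = (minpoly F (s : Module.End F V)).natDegree := by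
    rw [(AdjoinRoot.powerBasis hirr.ne_zero).finrank, AdjoinRoot.powerBasis_dim]
  have hcard : Nat.card (AdjoinRoot (minpoly F (s : Module.End F V))) = Nat.card F ^ (minpoly F (s : Module.End F V)).natDegree := by
    rw [Module.natCard_eq_pow_finrank (K := F), hd]
  obtain ⟨e, he⟩ := H46.SpDich.exists_pow_eq (F := F) 3 r _ (by rw [hr, hcard]) hcr
  have hcF : 1 < Nat.card F := Finite.one_lt_card
  have h2e : 2 * e = (minpoly F (s : Module.End F V)).natDegree := by
    rw [hcard, he, ← pow_mul, mul_comm] at hr
    exact Nat.pow_right_injective hcF hr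
  obtain ⟨l, hl0, hldim, -⟩ := field_data (s : Module.End F V) _ rfl hirr
  rw [hd, hV, ← h2e] at hldim
  have he13 : e = 1 ∨ e = 3 := by
    have h1 : e * l = 3 := by
      have : 2 * (e * l) = 2 * 3 := by rw [← mul_assoc, hldim]
      omega
    exact (Nat.dvd_prime Nat.prime_three).mp ⟨l, h1.symm⟩
  obtain ⟨ψ⟩ := FiniteField.nonempty_algHom_of_finrank_dvd (F := F) (K := K) (L := AdjoinRoot (minpoly F (s : Module.End F V))) (by
    rw [hd, hK, ← h2e]; exact Dvd.intro _ rfl)
  -- the adjoint involution
  haveI : CharP (AdjoinRoot (minpoly F (s : Module.End F V))) 3 := charP_of_injective_algebraMap (algebraMap F _).injective 3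
  obtain ⟨a, ha⟩ : ∃ a, Nat.card F = 3 ^ a := by
    letI := Fintype.ofFinite F
    obtain ⟨n, -, hn⟩ := FiniteField.card F 3
    exact ⟨n, by rw [Nat.card_eq_fintype_card, hn]⟩
  let τ : AdjoinRoot (minpoly F (s : Module.End F V)) →ₐ[F] AdjoinRoot (minpoly F (s : Module.End F V)) :=
    { toFun := fun x => x ^ r
      map_one' := one_pow _
      map_mul' := fun x y => mul_pow _ _ _
      map_zero' := by
        rw [he]
        exact zero_pow (pow_pos (by omega) _).ne'
      map_add' := fun x y => by
        rw [he, ha, ← pow_mul]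
        exact add_pow_char_pow x y 3 (a * e)
      commutes' := fun c => by
        change (algebraMap F _ c) ^ r = _
        rw [← map_pow, ← hcr]; rfl }
  have hτ : ∀ x, τ x = x ^ r := fun x => rfl
  have hadj : ∀ x, f.Adj (φ x) (φ (x ^ r)) := by
    intro x
    obtain ⟨P, rfl⟩ := AdjoinRoot.mk_surjective x
    have h1 : AdjoinRoot.mk (minpoly F (s : Module.End F V)) P = aeval (AdjoinRoot.root (minpoly F (s : Module.End F V))) P := (AdjoinRoot.aeval_eq P).symm
    have h2 := adj_aeval (f := f) (fun _ => rfl) hs.adj P
    have h3 : P.map (RingHom.id F) = P := Polynomial.map_id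
    rw [h3] at h2
    have h4 : φ (AdjoinRoot.mk (minpoly F (s : Module.End F V)) P) = aeval (s : Module.End F V) P := by
      rw [h1, ← aeval_algHom_apply, hφ]
    have h5 : φ ((AdjoinRoot.mk (minpoly F (s : Module.End F V)) P) ^ r) = aeval ((s⁻¹ : (Module.End F V)ˣ) : Module.End F V) P := by
      have h6 : (s : Module.End F V) ^ r * s = 1 := by
        rw [← pow_succ, ← hφ, ← map_pow, hθ, map_one]
      have h7 : (s : Module.End F V) ^ r = ((s⁻¹ : (Module.End F V)ˣ) : Module.End F V) := by
        calc (s : Module.End F V) ^ r = (s : Module.End F V) ^ r * (s * ((s⁻¹ : (Module.End F V)ˣ) : Module.End F V)) := by rw [Units.mul_inv, mul_one]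
          _ = ((s⁻¹ : (Module.End F V)ˣ) : Module.End F V) := by rw [← mul_assoc, h6, one_mul]
      rw [← hτ, h1, ← aeval_algHom_apply, ← aeval_algHom_apply, hτ, map_pow, hφ, h7]
    rw [h4, h5]
    exact h2
  refine ⟨φ.comp ψ, ?_, ?_⟩
  · intro h hc x
    rw [AlgHom.comp_apply]
    obtain ⟨p, hp⟩ := AdjoinRoot.mk_surjective (ψ x)
    have h1 : φ (AdjoinRoot.mk _ p) = aeval (s : Module.End F V) p := by
      have h3 : AdjoinRoot.mk (minpoly F (s : Module.End F V)) p = aeval (AdjoinRoot.root (minpoly F (s : Module.End F V))) p := (AdjoinRoot.aeval_eq p).symm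
      rw [h3, ← aeval_algHom_apply, hφ]
    rw [← hp, h1]
    exact H46.Decomp.commute_aeval hc p
  · intro x
    rw [AlgHom.comp_apply, AlgHom.comp_apply]
    have h1 : ψ (x ^ Nat.card F) = (ψ x) ^ r := by
      rw [← map_pow]
      congr 1
      rcases he13 with h | h
      · rw [he, h, pow_one]
      · letI := Fintype.ofFinite K
        have h3 : Nat.card F ^ 3 = Fintype.card K * Nat.card F := by
          rw [← Nat.card_eq_fintype_card, Module.natCard_eq_pow_finrank (K := F) (V := K), hK]; ring
        rw [he, h, h3, pow_mul, FiniteField.pow_card]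
    rw [h1]
    exact hadj _

/-- isometries commuting with a quadratic field structure compatible with the form -/
theorem herm_case [Finite F] [CharP F 3] {E : Type*} [Field E] [Finite E] [Algebra F E] (hE : finrank F E = 3)
    {V : Type*} [AddCommGroup V] [Module F V] [Module.Finite F V] (hV : finrank F V = 6)
    {f : SForm F V (RingHom.id F)} (halt : f.Alt) (hnd : f.ND) (g : (Module.End F V)ˣ) (hg : f.Isom g)
    (K : Type) [Field K] [Fintype K] [Algebra F K] (hK : finrank F K = 2)
    (φ : K →ₐ[F] Module.End F V) (hφg : ∀ x, Commute (g : Module.End F V) (φ x)) (hφ : ∀ x, f.Adj (φ x) (φ (x ^ Nat.card F))) :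
    GoodPlane f (g : Module.End F V) ∨ GoodPhi E f (g : Module.End F V) := by
  haveI : Fact (Nat.Prime 3) := ⟨Nat.prime_three⟩
  haveI : Module.Finite F K := Module.Finite.of_finite
  have hsym := halt.sym
  obtain ⟨a, ha⟩ : ∃ a, Nat.card F = 3 ^ a := by
    letI := Fintype.ofFinite F
    obtain ⟨n, -, hn⟩ := FiniteField.card F 3
    exact ⟨n, by rw [Nat.card_eq_fintype_card, hn]⟩
  obtain ⟨q, hq⟩ : ∃ q, q = Nat.card F := ⟨_, rfl⟩
  have hF : Fintype.card K = q ^ 2 := by
    rw [← Nat.card_eq_fintype_card, Module.natCard_eq_pow_finrank (K := F) (V := K), hK, hq]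
  have hqa : q = 3 ^ a := by rw [hq, ha]
  haveI : CharP K 3 := charP_of_injective_algebraMap (algebraMap F K).injective 3
  letI : Module K V := Module.compHom V φ.toRingHom
  have hsmul : ∀ (x : K) (v : V), x • v = φ x v := fun x v => rfl
  haveI : IsScalarTower F K V := by
    constructor
    intro c x v
    rw [hsmul, hsmul, map_smul, LinearMap.smul_apply]
  haveI : Module.Finite K V := Module.Finite.of_restrictScalars_finite F K V
  have h3 : finrank K V = 3 := by
    have h1 := Module.finrank_mul_finrank F K V
    rw [hK, hV] at h1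
    omega
  rw [← hq] at hφ
  have hbar : ∀ x : K, bar hF x = x ^ q := fun x => rfl
  have hf1 : ∀ (x : K) v w, f.B v (x • w) = f.B ((bar hF x) • v) w := by
    intro x v w
    have h1 := hφ (bar hF x) v w
    rw [hsmul, hsmul, h1]
    congr 2
    have h4 : (bar hF x) ^ q = x := bar_bar hF x
    rw [h4]
  have htrbar : ∀ z : K, Algebra.trace F K (bar hF z) = Algebra.trace F K z := by
    intro z
    have h1 := Algebra.trace_eq_of_algEquiv (psi F K) z
    rw [← h1, psi_apply, hbar, hq]
  -- the hermitian form
  have hrep : ∀ v w : V, ∃ b : K, ∀ x : K, f.B (x • v) w = Algebra.trace F K (x * b) := by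
    intro v w
    exact exists_rep
      { toFun := fun x => f.B (x • v) w
        map_add' := fun x y => by rw [add_smul, f.add_left]
        map_smul' := fun c x => by rw [smul_assoc, f.smul_left]; rfl }
  choose β hβ using hrep
  have hβe : ∀ {v w : V} {b : K}, (∀ x : K, f.B (x • v) w = Algebra.trace F K (x * b)) → β v w = b := by
    intro v w b h
    apply rep_unique (F := F)
    intro x
    rw [← hβ, h]
  have haddl : ∀ u v w, β (u + v) w = β u w + β v w := by
    intro u v w
    apply hβe
    intro x
    rw [smul_add, f.add_left, hβ, hβ, mul_add, map_add]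
  have haddr : ∀ u v w, β u (v + w) = β u v + β u w := by
    intro u v w
    apply hβe
    intro x
    rw [f.add_right, hβ, hβ, mul_add, map_add]
  have hsl : ∀ (y : K) v w, β (y • v) w = y * β v w := by
    intro y v w
    apply hβe
    intro x
    rw [smul_smul, hβ, mul_assoc]
  have hsr : ∀ (y : K) v w, β v (y • w) = bar hF y * β v w := by
    intro y v w
    apply hβe
    intro x
    rw [hf1, smul_smul, hβ]
    congr 1
    ring
  have hswap : ∀ v w, β w v = - bar hF (β v w) := by
    intro v w
    apply hβe
    intro x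
    have h1 := hsym v (x • w)
    rw [RingHom.id_apply, neg_one_mul, hf1] at h1
    have h4 := htrbar (bar hF x * β v w)
    rw [map_mul (bar hF), bar_bar] at h4
    rw [h1, hβ, ← h4, mul_neg, map_neg]
  have hfβ : ∀ v w, f.B v w = Algebra.trace F K (β v w) := by
    intro v w
    have h1 := hβ v w 1
    rw [one_smul, one_mul] at h1
    exact h1
  obtain ⟨δ, hδ0, hδ⟩ := hilbert hF (c := -1) (by simp)
  have hδ' : bar hF δ = -δ := by linear_combination hδ
  let h : SForm K V (bar hF) :=
    { B := fun v w => δ * β v w
      add_left := fun u v w => by rw [haddl, mul_add]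
      add_right := fun u v w => by rw [haddr, mul_add]
      smul_left := fun c v w => by rw [hsl]; ring
      smul_right := fun c v w => by rw [hsr]; ring }
  have hh : ∀ v w, h.B v w = δ * β v w := fun v w => rfl
  have hβh : ∀ v w, β v w = δ⁻¹ * h.B v w := by
    intro v w
    rw [hh, ← mul_assoc, inv_mul_cancel₀ hδ0, one_mul]
  have hhsym : h.Sym 1 := by
    intro v w
    rw [hh, hh, hswap v w, map_mul, hδ']
    ring
  have hhnd : h.ND := by
    intro v hv
    apply hnd
    intro w
    rw [hfβ, hβh, hv, mul_zero, map_zero]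
  -- the operator
  let gK : Module.End K V :=
    { toFun := fun v => (g : Module.End F V) v
      map_add' := fun x y => map_add _ _ _
      map_smul' := fun c x => congrArg (fun h : Module.End F V => h x) (hφg c).eq }
  have hgK : ∀ v, gK v = (g : Module.End F V) v := fun v => rfl
  obtain ⟨u, hu⟩ : ∃ u : (Module.End K V)ˣ, (u : Module.End K V) = gK := by
    have h2 : Function.Bijective (g : Module.End F V) := (Module.End.isUnit_iff _).mp g.isUnit
    have h1 : IsUnit gK := (Module.End.isUnit_iff gK).mpr h2
    obtain ⟨u, hu⟩ := h1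
    exact ⟨u, hu⟩
  have huv : ∀ v, (u : Module.End K V) v = (g : Module.End F V) v := fun v => by rw [hu]; exact hgK v
  have hui : h.Isom u := by
    intro v w
    rw [hh, hh, huv, huv]
    congr 1
    apply hβe
    intro x
    have h1 : x • ((g : Module.End F V) v) = (g : Module.End F V) (x • v) := (gK.map_smul x v).symm
    rw [h1, hg, hβ]
  obtain ⟨E₆, _, _, _, hE₆, -⟩ := H46.ExtElt.exists_field_ext K 3 (by norm_num)
  haveI : CharP E₆ 3 := charP_of_injective_algebraMap (algebraMap K E₆).injective 3
  rcases H46.CovPSU3.main3 hF hqa E₆ hE₆ h3 hhnd hhsym u hui with ⟨c, v, hv, hcv⟩ | ⟨e, he, c, i, hc⟩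
  · left
    rw [huv] at hcv
    have hv0 : v ≠ 0 := by rintro rfl; exact hv (h.zero_left _)
    obtain ⟨x, hx⟩ : ∃ x : K, f.B (x • v) v ≠ 0 := by
      by_contra hcon
      push Not at hcon
      apply hv
      rw [hh, hβe (b := 0) (fun x => by rw [hcon, mul_zero, map_zero]), mul_zero]
    let L : K →ₗ[F] V :=
      { toFun := fun y => y • v
        map_add' := fun y z => add_smul _ _ _
        map_smul' := fun c y => smul_assoc _ _ _ }
    have hLinj : Function.Injective L := by
      intro y z hyz
      exact smul_left_injective K hv0 hyz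
    have hr : finrank F (LinearMap.range L) = 2 := by
      rw [LinearMap.finrank_range_of_inj hLinj, hK]
    have hl : LinearIndependent F ![x • v, v] := by
      rw [LinearIndependent.pair_iff]
      intro s t hst
      constructor
      · have h1 : f.B (s • (x • v) + t • v) v = 0 := by rw [hst, f.zero_left]
        rw [f.add_left, f.smul_left, f.smul_left, halt, mul_zero, add_zero] at h1
        exact (mul_eq_zero.mp h1).resolve_right hx
      · have h1 : f.B (x • v) (s • (x • v) + t • v) = 0 := by rw [hst, f.zero_right]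
        rw [f.add_right, f.smul_right, f.smul_right, halt, mul_zero, zero_add] at h1
        exact (mul_eq_zero.mp h1).resolve_right hx
    have hsp : Submodule.span F {x • v, v} = LinearMap.range L := by
      apply Submodule.eq_of_le_of_finrank_eq
      · rw [Submodule.span_le]
        rintro y hy
        rcases hy with rfl | rfl
        · exact ⟨x, rfl⟩
        · exact ⟨1, one_smul _ _⟩
      · rw [hr]
        have := finrank_span_eq_card hl
        rw [Fintype.card_fin] at this
        have hr : Set.range ![x • v, v] = {x • v, v} := by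
          simp only [Matrix.range_cons, Matrix.range_empty, Set.union_empty]
          rfl
        rw [hr] at this
        exact this
    refine ⟨x • v, v, hx, ?_, ?_⟩
    · rw [hsp]
      refine ⟨x * c, ?_⟩
      change (x * c) • v = (g : Module.End F V) (x • v)
      have h1 : (g : Module.End F V) (x • v) = x • ((g : Module.End F V) v) := gK.map_smul x v
      rw [h1, hcv, smul_smul]
    · rw [hsp, hcv]
      exact ⟨c, rfl⟩
  · right
    letI : Algebra F E₆ := ((algebraMap K E₆).comp (algebraMap F K)).toAlgebra
    haveI : IsScalarTower F K E₆ := IsScalarTower.of_algebraMap_eq (fun x => rfl)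
    have hFE₆ : finrank F E₆ = 6 := by
      rw [← Module.finrank_mul_finrank F K E₆, hK, hE₆]
    haveI : Module.Finite F E := Module.Finite.of_finite
    obtain ⟨j⟩ := FiniteField.nonempty_algHom_of_finrank_dvd (F := F) (K := E) (L := E₆) (by rw [hE, hFE₆]; norm_num)
    let eF : V ≃ₗ[F] E₆ := e.restrictScalars F
    have heF : ∀ v, eF v = e v := fun v => rfl
    let φE : E →ₐ[F] Module.End F V := (((eF.symm.conjAlgEquiv F : Module.End F E₆ ≃ₐ[F] Module.End F V) : Module.End F E₆ →ₐ[F] Module.End F V).comp (Algebra.lmul F E₆)).comp j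
    have hφE : ∀ x v, e (φE x v) = j x * e v := by
      intro x v
      change eF (eF.symm (j x * eF.symm.symm v)) = _
      rw [eF.apply_symm_apply]; rfl
    have hcardE : Nat.card E = q ^ 3 := by
      rw [Module.natCard_eq_pow_finrank (K := F) (V := E), hE, hq]
    have hτj : ∀ x : E, H46.CovPSU3.tau 3 a E₆ (j x) = j x := by
      intro x
      letI := Fintype.ofFinite E
      rw [H46.CovPSU3.tau_apply, ← map_pow]
      congr 1
      have h1 : 3 ^ (3 * a) = Fintype.card E := by
        rw [← Nat.card_eq_fintype_card, hcardE, hqa]; ring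
      rw [h1, FiniteField.pow_card]
    refine ⟨φE, ?_, ?_⟩
    · intro x v w
      rw [hfβ, hfβ, hβh, hβh, ← he, ← he, hφE, hφE, H46.CovPSU3.trForm_apply, H46.CovPSU3.trForm_apply, map_mul (H46.CovPSU3.tau 3 a E₆), hτj]
      congr 3
      ring
    · intro x
      refine ⟨x ^ (Nat.card K ^ i), ?_⟩
      apply LinearMap.ext
      intro v
      apply e.injective
      change e ((g : Module.End F V) (φE x v)) = e (φE (x ^ (Nat.card K ^ i)) ((g : Module.End F V) v))
      rw [← huv, ← huv, hc, hφE, hφE, hc, map_pow]
      ring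

end H46.CovSp6
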