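import Mathlib
import Cfsg.Agent.Lib.H46.CovSp6c

/-! Symplectic groups: unipotent elements. -/

set_option autoImplicit false

namespace H46.CovSp6

open Module Polynomial H46.SForm H46.SForm.SForm H46.CovSt H46.OrdPSp H46.CovReg H46.OrthDec H46.FieldInv H46.CovU

variable {F : Type*} [Field F]

section chain

variable {V : Type*} [AddCommGroup V] [Module F V]

theorem chain {n : ℕ} {N : Module.End F V} (h1 : N ^ n = 0) {R : Submodule F V} (hR : ∀ x ∈ R, N x ∈ R) {v : V} (h2 : (N ^ (n - 1)) v ∉ R)
    (c : Fin n → F) (hc : ∑ i, c i • (N ^ (i : ℕ)) v ∈ R) : ∀ i, c i = 0 := by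
  have hRp : ∀ (m : ℕ) x, x ∈ R → (N ^ m) x ∈ R := by
    intro m
    induction m with
    | zero => intro x hx; exact hx
    | succ m ih =>
      intro x hx
      rw [pow_succ]
      exact ih _ (hR x hx)
  have hz : ∀ m, n ≤ m → (N ^ m) v = 0 := by
    intro m hm
    obtain ⟨k, rfl⟩ := Nat.exists_eq_add_of_le hm
    rw [pow_add, h1, zero_mul]; rfl
  have key : ∀ k : ℕ, k ≤ n → ∀ i : Fin n, (i : ℕ) < k → c i = 0 := by
    intro k
    induction k with
    | zero => intro _ i hi; omega
    | succ k ih =>
      intro hk i hi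
      rcases Nat.lt_succ_iff_lt_or_eq.mp hi with h | h
      · exact ih (by omega) i h
      · have h3 : ∀ j : Fin n, (N ^ (n - 1 - k)) (c j • (N ^ (j : ℕ)) v) = c j • (N ^ (n - 1 - k + j)) v := by
          intro j
          rw [map_smul, pow_add]; rfl
        have h4 := hRp (n - 1 - k) _ hc
        rw [map_sum] at h4
        simp only [h3] at h4
        rw [Finset.sum_eq_single i] at h4
        · have h5 : n - 1 - k + (i : ℕ) = n - 1 := by omega
          rw [h5] at h4
          by_contra hne
          apply h2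
          have := R.smul_mem (c i)⁻¹ h4
          rwa [smul_smul, inv_mul_cancel₀ hne, one_smul] at this
        · intro j _ hj
          rcases Nat.lt_trichotomy (j : ℕ) k with h6 | h6 | h6
          · rw [ih (by omega) j h6, zero_smul]
          · exact absurd (Fin.ext (h6.trans h.symm)) hj
          · rw [hz _ (by omega), smul_zero]
        · intro h6
          exact absurd (Finset.mem_univ i) h6
  intro i
  exact key n le_rfl i i.2

/-- the cyclic subspace -/
def Cy (n : ℕ) (N : Module.End F V) (v : V) : Submodule F V := Submodule.span F (Set.range fun i : Fin n => (N ^ (i : ℕ)) v)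

theorem mem_Cy {n : ℕ} {N : Module.End F V} {v x : V} : x ∈ Cy n N v ↔ ∃ c : Fin n → F, ∑ i, c i • (N ^ (i : ℕ)) v = x :=
  Submodule.mem_span_range_iff_exists_fun F

theorem pow_mem_Cy {n : ℕ} {N : Module.End F V} (h1 : N ^ n = 0) (v : V) (i : ℕ) : (N ^ i) v ∈ Cy n N v := by
  by_cases hi : i < n
  · exact Submodule.subset_span ⟨⟨i, hi⟩, rfl⟩
  · obtain ⟨k, rfl⟩ := Nat.exists_eq_add_of_le (not_lt.mp hi)
    rw [pow_add, h1, zero_mul]
    exact Submodule.zero_mem _

theorem Cy_inv {n : ℕ} {N : Module.End F V} (h1 : N ^ n = 0) (v : V) : ∀ x ∈ Cy n N v, N x ∈ Cy n N v := by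
  intro x hx
  obtain ⟨c, rfl⟩ := mem_Cy.mp hx
  rw [map_sum]
  apply Submodule.sum_mem
  intro i _
  rw [map_smul]
  apply Submodule.smul_mem
  have h6 : N ((N ^ (i : ℕ)) v) = (N ^ ((i : ℕ) + 1)) v := by rw [pow_succ']; rfl
  rw [h6]
  exact pow_mem_Cy h1 v _

theorem finrank_Cy {n : ℕ} {N : Module.End F V} (h1 : N ^ n = 0) {v : V} (h2 : (N ^ (n - 1)) v ≠ 0) : finrank F (Cy n N v) = n := by
  have hli : LinearIndependent F (fun i : Fin n => (N ^ (i : ℕ)) v) := by
    rw [Fintype.linearIndependent_iff]
    intro c hc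
    exact chain h1 (R := ⊥) (fun x hx => by rw [(Submodule.mem_bot F).mp hx, map_zero]; exact Submodule.zero_mem _) (by rw [Submodule.mem_bot]; exact h2) c (by rw [hc]; exact Submodule.zero_mem _)
  have := finrank_span_eq_card hli
  rwa [Fintype.card_fin] at this

theorem disjoint_Cy {n : ℕ} {N : Module.End F V} (h1 : N ^ n = 0) {R : Submodule F V} (hR : ∀ x ∈ R, N x ∈ R) {v : V} (h2 : (N ^ (n - 1)) v ∉ R) {x : V} (hx : x ∈ Cy n N v)
    (hxR : x ∈ R) : x = 0 := by
  obtain ⟨c, rfl⟩ := mem_Cy.mp hx
  have := chain h1 hR h2 c hxR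
  simp [this]

end chain

/-- planes from invariant nondegenerate subspaces of dimension two -/
theorem plane_of_dim2 {V : Type*} [AddCommGroup V] [Module F V] [Module.Finite F V] {f : SForm F V (RingHom.id F)} (halt : f.Alt) {g : Module.End F V}
    {W : Submodule F V} (hW : finrank F W = 2) (hg : ∀ v ∈ W, g v ∈ W) {v w : V} (hv : v ∈ W) (hw : w ∈ W) (hvw : f.B v w ≠ 0) : GoodPlane f g := by
  have hl : LinearIndependent F ![v, w] := by
    rw [LinearIndependent.pair_iff]
    intro s t hst
    constructor
    · have h1 : f.B (s • v + t • w) w = 0 := by rw [hst, f.zero_left]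
      rw [f.add_left, f.smul_left, f.smul_left, halt, mul_zero, add_zero] at h1
      exact (mul_eq_zero.mp h1).resolve_right hvw
    · have h1 : f.B v (s • v + t • w) = 0 := by rw [hst, f.zero_right]
      rw [f.add_right, f.smul_right, f.smul_right, halt, mul_zero, zero_add] at h1
      exact (mul_eq_zero.mp h1).resolve_right hvw
  have hsp : Submodule.span F {v, w} = W := by
    apply Submodule.eq_of_le_of_finrank_eq
    · rw [Submodule.span_le]
      rintro y hy
      rcases hy with rfl | rfl
      · exact hv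
      · exact hw
    · rw [hW]
      have := finrank_span_eq_card hl
      rw [Fintype.card_fin] at this
      have hr : Set.range ![v, w] = {v, w} := by
        simp only [Matrix.range_cons, Matrix.range_empty, Set.union_empty]
        rfl
      rw [hr] at this
      exact this
  exact ⟨v, w, hvw, by rw [hsp]; exact hg v hv, by rw [hsp]; exact hg w hw⟩

/-- the model of the regular unipotent elements -/
theorem exists_model [Finite F] [CharP F 3] {E : Type*} [Field E] [Finite E] [Algebra F E] (hE : finrank F E = 3) (κ : F) :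
    ∃ (u : Module.End F (E × E)) (v : E × E), (∀ x y, (f₀ E).B (u x) (u y) = (f₀ (F := F) E).B x y) ∧ (∀ (x : E) y, u (x • y) = psi F E x • u y) ∧
      (u - 1) ^ 6 = 0 ∧ (f₀ E).B v (((u - 1) ^ 5 : Module.End F (E × E)) v) = κ := by
  haveI : Module.Finite F E := Module.Finite.of_finite
  obtain ⟨b, hb⟩ := exists_trace_eq F E (-κ)
  obtain ⟨y₀, hy₀⟩ := exists_trace_eq F E 1
  let u : Module.End F (E × E) :=
    { toFun := fun x => (psi F E x.1 + b * psi F E x.2, psi F E x.2)
      map_add' := fun x y => by
        apply Prod.ext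
        · simp only [Prod.fst_add, Prod.snd_add, map_add]; ring
        · simp only [Prod.snd_add, map_add]
      map_smul' := fun c x => by
        apply Prod.ext
        · simp only [Prod.smul_fst, Prod.smul_snd, map_smul, RingHom.id_apply, smul_add, mul_smul_comm]
        · simp only [Prod.smul_snd, map_smul, RingHom.id_apply] }
  have hu : ∀ x, u x = (psi F E x.1 + b * psi F E x.2, psi F E x.2) := fun x => rfl
  have hN : ∀ x, (u - 1) x = (psi F E x.1 - x.1 + b * psi F E x.2, psi F E x.2 - x.2) := by
    intro x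
    rw [LinearMap.sub_apply, hu]
    apply Prod.ext
    · change psi F E x.1 + b * psi F E x.2 - x.1 = _
      ring
    · rfl
  have h3E : (3 : E) = 0 := by
    have h4 : ((3 : ℕ) : F) = 0 := CharP.cast_eq_zero F 3
    have h5 := congrArg (algebraMap F E) h4
    rw [map_zero, map_natCast] at h5
    exact_mod_cast h5
  have htr : ∀ x : E, psi F E (psi F E x) + psi F E x + x = algebraMap F E (Algebra.trace F E x) := by
    intro x
    have h1 := psi_sub_sq F E hE x
    rw [pow_two] at h1
    have h2 : ((psiL F E - 1) * (psiL F E - 1) : Module.End F E) x = psi F E (psi F E x - x) - (psi F E x - x) := rfl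
    rw [h2, map_sub] at h1
    rw [← h1]
    linear_combination (psi F E x) * h3E
  have hN2 : ∀ x, (((u - 1) ^ 2 : Module.End F (E × E)) x).2 = algebraMap F E (Algebra.trace F E x.2) := by
    intro x
    rw [pow_two]
    change ((u - 1) ((u - 1) x)).2 = _
    rw [hN, hN]
    change psi F E (psi F E x.2 - x.2) - (psi F E x.2 - x.2) = _
    rw [map_sub, ← htr]
    linear_combination (-(psi F E x.2)) * h3E
  have hψ3 : ∀ x : E, psi F E (psi F E (psi F E x)) = x := by
    intro x
    have h1 := psi_cube F E hE
    have h2 := congrArg (fun h : Module.End F E => h x) h1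
    exact h2
  have hN3 : ∀ x, ((u - 1) ^ 3 : Module.End F (E × E)) x = (algebraMap F E (-κ) * x.2, 0) := by
    intro x
    haveI : Fact (Nat.Prime 3) := ⟨Nat.prime_three⟩
    haveI : CharP (Module.End F (E × E)) 3 := charP_of_injective_algebraMap (FaithfulSMul.algebraMap_injective F (Module.End F (E × E))) 3
    rw [sub_pow_char_of_commute 3 (Commute.one_right _), one_pow, LinearMap.sub_apply]
    have h1 : ((u ^ 3 : Module.End F (E × E)) x) = u (u (u x)) := rfl
    rw [h1, hu, hu, hu]
    apply Prod.ext
    · change psi F E (psi F E (psi F E x.1 + b * psi F E x.2) + b * psi F E (psi F E x.2)) + b * psi F E (psi F E (psi F E x.2)) - x.1 = algebraMap F E (-κ) * x.2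
      simp only [map_add, map_mul, hψ3]
      rw [← hb, ← htr]
      ring
    · change psi F E (psi F E (psi F E x.2)) - x.2 = 0
      rw [hψ3, sub_self]
  have hN5 : ∀ x, ((u - 1) ^ 5 : Module.End F (E × E)) x = (algebraMap F E (-κ) * algebraMap F E (Algebra.trace F E x.2), 0) := by
    intro x
    have h1 : ((u - 1) ^ 5 : Module.End F (E × E)) = (u - 1) ^ 3 * (u - 1) ^ 2 := by rw [← pow_add]
    rw [h1]
    change ((u - 1) ^ 3 : Module.End F (E × E)) (((u - 1) ^ 2 : Module.End F (E × E)) x) = _
    rw [hN3, hN2]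
  refine ⟨u, (0, y₀), ?_, ?_, ?_, ?_⟩
  · intro x y
    rw [f₀_apply, f₀_apply, hu, hu, ← psi_trace F E (x.1 * y.2 - x.2 * y.1)]
    congr 1
    simp only [map_sub, map_mul]
    ring
  · intro x y
    rw [hu, hu]
    apply Prod.ext
    · change psi F E (x * y.1) + b * psi F E (x * y.2) = psi F E x * (psi F E y.1 + b * psi F E y.2)
      rw [map_mul, map_mul]; ring
    · change psi F E (x * y.2) = psi F E x * psi F E y.2
      rw [map_mul]
  · apply LinearMap.ext
    intro x
    have h1 : ((u - 1) ^ 6 : Module.End F (E × E)) = (u - 1) * (u - 1) ^ 5 := by rw [← pow_succ']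
    rw [h1]
    change (u - 1) (((u - 1) ^ 5 : Module.End F (E × E)) x) = 0
    rw [hN5, hN, ← map_mul]
    apply Prod.ext
    · change psi F E (algebraMap F E _) - algebraMap F E _ + b * psi F E 0 = 0
      rw [AlgEquiv.commutes, map_zero, mul_zero, add_zero, sub_self]
    · change psi F E 0 - 0 = 0
      rw [map_zero, sub_zero]
  · rw [hN5, f₀_apply, hy₀, map_one, mul_one]
    change Algebra.trace F E (0 * 0 - y₀ * algebraMap F E (-κ)) = κ
    rw [mul_zero, zero_sub, mul_comm, ← Algebra.smul_def, map_neg, map_smul, hy₀, smul_eq_mul]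
    ring

end H46.CovSp6
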