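import Mathlib
import Cfsg.Agent.Lib.H46.CovSp6d

/-! Symplectic groups: unipotent elements, continued. -/

set_option autoImplicit false

namespace H46.CovSp6

open Module Polynomial H46.SForm H46.SForm.SForm H46.CovSt H46.OrdPSp H46.CovReg H46.OrthDec H46.FieldInv H46.CovU

variable {F : Type*} [Field F]

/-- adjoints of powers -/
theorem adj_pow {V : Type*} [AddCommGroup V] [Module F V] {σ : F →+* F} {f : SForm F V σ} {a a' : Module.End F V} (h : f.Adj a a') (k : ℕ) : f.Adj (a ^ k) (a' ^ k) := by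
  induction k with
  | zero => rw [pow_zero, pow_zero]; exact Adj.one
  | succ k ih => rw [pow_succ, pow_succ']; exact ih.mul h

theorem ndB {V : Type*} [AddCommGroup V] [Module F V] {f : SForm F V (RingHom.id F)} (halt : f.Alt) (hnd : f.ND) : (toBilin f).Nondegenerate :=
  ⟨fun x hx => hnd x hx, fun y hy => halt.sym.ndr hnd y hy⟩

/-- the regular unipotent case -/
theorem regular_good [Finite F] [CharP F 3] {E : Type*} [Field E] [Finite E] [Algebra F E] (hE : finrank F E = 3)
    {V : Type*} [AddCommGroup V] [Module F V] [Module.Finite F V] (hV : finrank F V = 6) {f : SForm F V (RingHom.id F)} (halt : f.Alt) (hnd : f.ND)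
    (g : (Module.End F V)ˣ) (hg : f.Isom g) {N : Module.End F V} (hN : N = (g : Module.End F V) - 1) (hN6 : N ^ 6 = 0) {v : V} (hv : f.B v ((N ^ 5) v) ≠ 0) :
    GoodPhi E f (g : Module.End F V) := by
  haveI : Fact (Nat.Prime 3) := ⟨Nat.prime_three⟩
  haveI : Module.Finite F E := Module.Finite.of_finite
  haveI : Nontrivial V := Module.nontrivial_of_finrank_pos (R := F) (by omega)
  have hsym := halt.sym
  have hndr : f.NDR := hsym.ndr hnd
  obtain ⟨u, v₀, hu, huE, hu6, hu5⟩ := exists_model (F := F) hE (f.B v ((N ^ 5) v))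
  have h2 : (N ^ (6 - 1)) v ≠ 0 := by
    intro h
    change (N ^ 5) v = 0 at h
    rw [h, f.zero_right] at hv
    exact hv rfl
  have h2' : ((u - 1) ^ (6 - 1) : Module.End F (E × E)) v₀ ≠ 0 := by
    intro h
    change ((u - 1) ^ 5 : Module.End F (E × E)) v₀ = 0 at h
    rw [h, (f₀ E).zero_right] at hu5
    exact hv hu5.symm
  have hVV : finrank F (E × E) = 6 := by rw [finrank_prod, hE]
  obtain ⟨e₀, he₀v, he₀⟩ := exists_equiv (n := 6) hV hVV (by norm_num) hN6 hu6 h2 h2'
  obtain ⟨b, hb⟩ := exists_basis hV (by norm_num) hN6 h2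
  have he₀g : ∀ x, e₀ ((g : Module.End F V) x) = u (e₀ x) := by
    intro x
    have h1 := he₀ x
    rw [hN, LinearMap.sub_apply, LinearMap.sub_apply, map_sub] at h1
    exact sub_left_inj.mp h1
  have he₀N : ∀ (k : ℕ) x, e₀ ((N ^ k) x) = ((u - 1) ^ k : Module.End F (E × E)) (e₀ x) := by
    intro k
    induction k with
    | zero => intro x; rfl
    | succ k ih =>
      intro x
      rw [pow_succ, pow_succ]
      change e₀ ((N ^ k) (N x)) = ((u - 1) ^ k : Module.End F (E × E)) ((u - 1) (e₀ x))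
      rw [ih, he₀]
  -- the comparison operator
  let f₂ : V →ₗ[F] V →ₗ[F] F := (toBilin (f₀ (F := F) E)).compl₁₂ (e₀ : V →ₗ[F] E × E) (e₀ : V →ₗ[F] E × E)
  have hf₂ : ∀ x y, f₂ x y = (f₀ E).B (e₀ x) (e₀ y) := fun x y => rfl
  let c : Module.End F V := ((toBilin f).toDual (ndB halt hnd)).symm.toLinearMap ∘ₗ f₂
  have hc : ∀ x y, f.B (c x) y = (f₀ E).B (e₀ x) (e₀ y) := by
    intro x y
    rw [← hf₂]
    exact LinearMap.BilinForm.apply_toDual_symm_apply (hB := ndB halt hnd) (f := f₂ x) (v := y)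
  have hcg : Commute c (g : Module.End F V) := by
    apply LinearMap.ext
    intro x
    change c ((g : Module.End F V) x) = (g : Module.End F V) (c x)
    apply sub_eq_zero.mp
    apply hnd
    intro y
    obtain ⟨y, rfl⟩ : ∃ y', y = (g : Module.End F V) y' := ⟨((g⁻¹ : (Module.End F V)ˣ) : Module.End F V) y, (unit_inv_apply g y).symm⟩
    rw [f.sub_left, hc, hg, hc, he₀g, he₀g, hu, sub_self]
  have hcN : Commute c N := by
    rw [hN]
    exact hcg.sub_right (Commute.one_right _)
  have hcself : f.Adj c c := by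
    intro x y
    have h1 := hsym (c y) x
    rw [RingHom.id_apply, neg_one_mul] at h1
    have h3 := (f₀_alt (F := F) E).sym (e₀ y) (e₀ x)
    rw [RingHom.id_apply, neg_one_mul] at h3
    rw [h1, hc, hc, h3]
  -- pairing of powers
  have hNadj : f.Adj N (-((g⁻¹ : (Module.End F V)ˣ) : Module.End F V) * N) := by
    have h1 := hg.adj.sub (Adj.one (f := f))
    rw [← hN] at h1
    have h3 : ((g⁻¹ : (Module.End F V)ˣ) : Module.End F V) - 1 = -((g⁻¹ : (Module.End F V)ˣ) : Module.End F V) * N := by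
      rw [hN, neg_mul, mul_sub, Units.inv_mul, mul_one]; abel
    rwa [h3] at h1
  have hMN : Commute (-((g⁻¹ : (Module.End F V)ˣ) : Module.End F V)) N := by
    rw [hN]
    have h1 : Commute ((g⁻¹ : (Module.End F V)ˣ) : Module.End F V) (g : Module.End F V) := by
      change ((g⁻¹ : (Module.End F V)ˣ) : Module.End F V) * g = g * ((g⁻¹ : (Module.End F V)ˣ) : Module.End F V)
      rw [Units.inv_mul, Units.mul_inv]
    exact (h1.sub_right (Commute.one_right _)).neg_left
  have hpair : ∀ (i : ℕ) x, 1 ≤ i → f.B ((N ^ i) x) ((N ^ 5) v) = 0 := by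
    intro i x hi
    rw [adj_pow hNadj i, hMN.mul_pow]
    have h3 : ((-((g⁻¹ : (Module.End F V)ˣ) : Module.End F V)) ^ i * N ^ i) ((N ^ 5) v) = 0 := by
      change ((-((g⁻¹ : (Module.End F V)ˣ) : Module.End F V)) ^ i * N ^ i * N ^ 5) v = 0
      rw [mul_assoc, ← pow_add, pow_eq_zero_of_le (show 6 ≤ i + 5 by omega) hN6, mul_zero]; rfl
    rw [h3, f.zero_right]
  -- the difference is nilpotent
  obtain ⟨a, ha⟩ : ∃ a : Fin 6 → F, a = b.equivFun ((c - 1) v) := ⟨_, rfl⟩
  have hDv : (c - 1) v = ∑ i, a i • (N ^ (i : ℕ)) v := by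
    have h1 := b.sum_equivFun ((c - 1) v)
    rw [← h1, ← ha]
    apply Finset.sum_congr rfl
    intro i _
    rw [hb]
  have ha0 : a 0 = 0 := by
    have h1 : f.B ((c - 1) v) ((N ^ 5) v) = 0 := by
      rw [LinearMap.sub_apply, f.sub_left, hc, he₀N, he₀v, hu5]
      exact sub_self _
    rw [hDv, Fin.sum_univ_succ, f.add_left, f.smul_left] at h1
    have h3 : f.B (∑ i : Fin 5, a i.succ • (N ^ ((i.succ : Fin 6) : ℕ)) v) ((N ^ 5) v) = 0 := by
      have h4 : ∀ s : Finset (Fin 5), f.B (∑ i ∈ s, a i.succ • (N ^ ((i.succ : Fin 6) : ℕ)) v) ((N ^ 5) v) = 0 := by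
        classical
        intro s
        induction s using Finset.induction_on with
        | empty => simp [f.zero_left]
        | insert j s hj ih =>
          rw [Finset.sum_insert hj, f.add_left, ih, f.smul_left, hpair _ _ (by rw [Fin.val_succ]; omega), mul_zero, add_zero]
      exact h4 _
    rw [h3, add_zero] at h1
    have h5 : f.B ((N ^ ((0 : Fin 6) : ℕ)) v) ((N ^ 5) v) = f.B v ((N ^ 5) v) := rfl
    rw [h5] at h1
    exact (mul_eq_zero.mp h1).resolve_right hv
  let Q : Module.End F V := ∑ i : Fin 5, a i.succ • N ^ (i : ℕ)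
  have hQN : Commute N Q := by
    apply Commute.sum_right
    intro i _
    exact ((Commute.refl N).pow_right _).smul_right _
  have hDN : Commute (c - 1) N := hcN.sub_left (Commute.one_left _)
  have hD : c - 1 = N * Q := by
    apply b.ext
    intro i
    rw [hb]
    have h1 : (c - 1) ((N ^ (i : ℕ)) v) = (N ^ (i : ℕ)) ((c - 1) v) :=
      congrArg (fun h : Module.End F V => h v) (hDN.pow_right (i : ℕ)).eq
    have h3 : (N * Q) ((N ^ (i : ℕ)) v) = (N ^ (i : ℕ)) ((N * Q) v) := by
      have h4 : Commute (N * Q) (N ^ (i : ℕ)) := ((Commute.refl N).mul_left hQN.symm).pow_right _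
      exact congrArg (fun h : Module.End F V => h v) h4.eq
    rw [h1, h3]
    congr 1
    rw [hDv, Fin.sum_univ_succ, ha0, zero_smul, zero_add]
    change _ = N ((∑ i : Fin 5, a i.succ • N ^ (i : ℕ)) v)
    rw [LinearMap.sum_apply, map_sum]
    apply Finset.sum_congr rfl
    intro j _
    rw [LinearMap.smul_apply, map_smul, Fin.val_succ, pow_succ']; rfl
  have hc9 : c ^ 9 = 1 := by
    haveI : CharP (Module.End F V) 3 := charP_of_injective_algebraMap (FaithfulSMul.algebraMap_injective F (Module.End F V)) 3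
    have h1 : (c - 1) ^ 3 ^ 2 = 0 := by
      rw [hD, hQN.mul_pow, pow_eq_zero_of_le (show 6 ≤ 3 ^ 2 by norm_num) hN6, zero_mul]
    rw [sub_pow_char_pow_of_commute 3 2 (Commute.one_right _), one_pow, sub_eq_zero] at h1
    exact h1
  -- the isometry
  obtain ⟨c4, hc4⟩ : ∃ c4, c4 = c ^ 4 := ⟨_, rfl⟩
  obtain ⟨c5, hc5⟩ : ∃ c5, c5 = c ^ 5 := ⟨_, rfl⟩
  have hc45 : c5 * c4 = 1 := by rw [hc4, hc5, ← pow_add]; exact hc9
  have hc54 : c4 * c5 = 1 := by rw [hc4, hc5, ← pow_add]; exact hc9
  have hcc4 : c * c4 = c5 := by rw [hc4, hc5, ← pow_succ']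
  let z : V ≃ₗ[F] V := LinearEquiv.ofLinear c4 c5 hc54 hc45
  let e : V ≃ₗ[F] E × E := z.trans e₀
  have he : ∀ x, e x = e₀ (c4 x) := fun x => rfl
  have hiso : ∀ x y, (f₀ E).B (e x) (e y) = f.B x y := by
    intro x y
    rw [he, he, ← hc]
    have h1 : c (c4 x) = c5 x := congrArg (fun h : Module.End F V => h x) hcc4
    have h4 : f.Adj c5 c5 := by rw [hc5]; exact adj_pow hcself 5
    rw [h1, h4]
    have h3 : c5 (c4 y) = y := congrArg (fun h : Module.End F V => h y) hc45
    rw [h3]
  have heg : ∀ x, e ((g : Module.End F V) x) = u (e x) := by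
    intro x
    rw [he, he, ← he₀g]
    congr 1
    have h4 : Commute c4 (g : Module.End F V) := by rw [hc4]; exact hcg.pow_left 4
    exact congrArg (fun h : Module.End F V => h x) h4.eq
  apply good_of_e e hiso (psi F E)
  intro x y w hyw
  rw [heg, heg, hyw, huE]

end H46.CovSp6
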