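import Mathlib
import Cfsg.Agent.Lib.H46.CovSp6e

/-! Symplectic groups: unipotent elements and the classification of isometries. -/

set_option autoImplicit false

namespace H46.CovSp6

open Module Polynomial H46.SForm H46.SForm.SForm H46.CovSt H46.OrdPSp H46.CovReg H46.OrthDec H46.FieldInv H46.CovU

variable {F : Type*} [Field F]

section pairing

variable {V : Type*} [AddCommGroup V] [Module F V] {f : SForm F V (RingHom.id F)} {g : (Module.End F V)ˣ} {N : Module.End F V}

theorem N_adj (hg : f.Isom g) (hN : N = (g : Module.End F V) - 1) : f.Adj N (-((g⁻¹ : (Module.End F V)ˣ) : Module.End F V) * N) := by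
  have h1 := hg.adj.sub (Adj.one (f := f))
  rw [← hN] at h1
  have h3 : ((g⁻¹ : (Module.End F V)ˣ) : Module.End F V) - 1 = -((g⁻¹ : (Module.End F V)ˣ) : Module.End F V) * N := by
    rw [hN, neg_mul, mul_sub, Units.inv_mul, mul_one]; abel
  rwa [h3] at h1

theorem MN_comm (hN : N = (g : Module.End F V) - 1) : Commute (-((g⁻¹ : (Module.End F V)ˣ) : Module.End F V)) N := by
  rw [hN]
  have h1 : Commute ((g⁻¹ : (Module.End F V)ˣ) : Module.End F V) (g : Module.End F V) := by
    change ((g⁻¹ : (Module.End F V)ˣ) : Module.End F V) * g = g * ((g⁻¹ : (Module.End F V)ˣ) : Module.End F V)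
    rw [Units.inv_mul, Units.mul_inv]
  exact (h1.sub_right (Commute.one_right _)).neg_left

theorem pair_high (hg : f.Isom g) (hN : N = (g : Module.End F V) - 1) {n : ℕ} (hNn : N ^ n = 0) {i j : ℕ} (hij : n ≤ i + j) (x y : V) :
    f.B ((N ^ i) x) ((N ^ j) y) = 0 := by
  rw [adj_pow (N_adj hg hN) i, (MN_comm hN).mul_pow]
  have h3 : ((-((g⁻¹ : (Module.End F V)ˣ) : Module.End F V)) ^ i * N ^ i) ((N ^ j) y) = 0 := by
    change ((-((g⁻¹ : (Module.End F V)ˣ) : Module.End F V)) ^ i * N ^ i * N ^ j) y = 0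
    rw [mul_assoc, ← pow_add, pow_eq_zero_of_le hij hNn, mul_zero]; rfl
  rw [h3, f.zero_right]

theorem pair_top (hg : f.Isom g) (hN : N = (g : Module.End F V) - 1) {m : ℕ} (hNn : N ^ (m + 1) = 0) {i j : ℕ} (hij : i + j = m) (x y : V) :
    f.B ((N ^ i) x) ((N ^ j) y) = (-1) ^ i * f.B x ((N ^ m) y) := by
  rw [adj_pow (N_adj hg hN) i, (MN_comm hN).mul_pow]
  have h1 : (-((g⁻¹ : (Module.End F V)ˣ) : Module.End F V)) * N ^ m = - N ^ m := by
    have h3 : (g : Module.End F V) * N ^ m = N ^ m := by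
      have h4 : (g : Module.End F V) = N + 1 := by rw [hN]; abel
      rw [h4, add_mul, ← pow_succ', hNn, zero_add, one_mul]
    have h5 : ((g⁻¹ : (Module.End F V)ˣ) : Module.End F V) * N ^ m = N ^ m := by
      calc ((g⁻¹ : (Module.End F V)ˣ) : Module.End F V) * N ^ m = ((g⁻¹ : (Module.End F V)ˣ) : Module.End F V) * (g * N ^ m) := by rw [h3]
        _ = N ^ m := by rw [← mul_assoc, Units.inv_mul, one_mul]
    rw [neg_mul, h5]
  have h2 : ∀ i : ℕ, (-((g⁻¹ : (Module.End F V)ˣ) : Module.End F V)) ^ i * N ^ m = (-1 : F) ^ i • N ^ m := by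
    intro i
    induction i with
    | zero => rw [pow_zero, pow_zero, one_mul, one_smul]
    | succ i ih =>
      rw [pow_succ', mul_assoc, ih, mul_smul_comm, h1, pow_succ, mul_smul, neg_one_smul]
  have h3 : ((-((g⁻¹ : (Module.End F V)ˣ) : Module.End F V)) ^ i * N ^ i) ((N ^ j) y) = (-1 : F) ^ i • (N ^ m) y := by
    change ((-((g⁻¹ : (Module.End F V)ˣ) : Module.End F V)) ^ i * N ^ i * N ^ j) y = _
    rw [mul_assoc, ← pow_add, hij, h2, LinearMap.smul_apply]
  rw [h3, f.smul_right, RingHom.id_apply]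

theorem pair_swap (halt : f.Alt) (hg : f.Isom g) (hN : N = (g : Module.End F V) - 1) {m : ℕ} (hNn : N ^ (m + 1) = 0) (x y : V) :
    f.B y ((N ^ m) x) = -((-1) ^ m * f.B x ((N ^ m) y)) := by
  have h1 := halt.sym ((N ^ m) x) y
  rw [RingHom.id_apply, neg_one_mul] at h1
  rw [h1]
  congr 1
  exact pair_top hg hN hNn (i := m) (j := 0) (by omega) x y

end pairing

/-- the unipotent case -/
theorem unip_case [Finite F] [CharP F 3] {E : Type*} [Field E] [Finite E] [Algebra F E] (hE : finrank F E = 3)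
    {V : Type*} [AddCommGroup V] [Module F V] [Module.Finite F V] (hV : finrank F V = 6) {f : SForm F V (RingHom.id F)} (halt : f.Alt) (hnd : f.ND)
    (g : (Module.End F V)ˣ) (hg : f.Isom g) {N : Module.End F V} (hN : N = (g : Module.End F V) - 1) (hN6 : N ^ 6 = 0) :
    GoodPlane f (g : Module.End F V) ∨ GoodPhi E f (g : Module.End F V) := by
  classical
  haveI : Nontrivial V := Module.nontrivial_of_finrank_pos (R := F) (by omega)
  have hsym := halt.sym
  have hndr : f.NDR := hsym.ndr hnd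
  have h2F : (2 : F) ≠ 0 := by
    intro h
    have h1 : ((3 : ℕ) : F) = 0 := CharP.cast_eq_zero F 3
    have h3 : (1 : F) = 0 := by
      have : ((3 : ℕ) : F) = 2 + 1 := by norm_num
      rw [this, h, zero_add] at h1
      exact h1
    exact one_ne_zero h3
  have hgN : ∀ x, (g : Module.End F V) x = N x + x := by
    intro x
    rw [hN, LinearMap.sub_apply, Module.End.one_apply, sub_add_cancel]
  have hginv : ∀ (W : Submodule F V), (∀ x ∈ W, N x ∈ W) → ∀ x ∈ W, (g : Module.End F V) x ∈ W := by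
    intro W hW x hx
    rw [hgN]
    exact W.add_mem (hW x hx) hx
  -- the index of nilpotency
  have hex : ∃ n, N ^ n = 0 := ⟨6, hN6⟩
  obtain ⟨n, hn⟩ : ∃ n, n = Nat.find hex := ⟨_, rfl⟩
  have hn0 : N ^ n = 0 := by rw [hn]; exact Nat.find_spec hex
  have hn6 : n ≤ 6 := by rw [hn]; exact Nat.find_min' hex hN6
  have hnpos : n ≠ 0 := by
    rintro rfl
    rw [pow_zero] at hn0
    exact one_ne_zero hn0
  obtain ⟨m, hm⟩ : ∃ m, n = m + 1 := ⟨n - 1, by omega⟩
  have hNm : N ^ m ≠ 0 := by
    intro h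
    have := Nat.find_min' hex h
    omega
  rw [hm] at hn0
  have hβne : ∃ x y, f.B x ((N ^ m) y) ≠ 0 := by
    by_contra hcon
    push Not at hcon
    apply hNm
    apply LinearMap.ext
    intro y
    exact hndr _ (fun x => hcon x y)
  have hodd : Odd m → ∃ v, f.B v ((N ^ m) v) ≠ 0 := by
    intro ho
    by_contra hcon
    push Not at hcon
    obtain ⟨x, y, hxy⟩ := hβne
    have h1 := hcon (x + y)
    rw [map_add, f.add_left, f.add_right, f.add_right, hcon, hcon, pair_swap halt hg hN hn0 x y, ho.neg_one_pow] at h1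
    have h3 : 2 * f.B x ((N ^ m) y) = 0 := by linear_combination h1
    exact hxy ((mul_eq_zero.mp h3).resolve_left h2F)
  have heven : Even m → ∀ v, f.B v ((N ^ m) v) = 0 := by
    intro he v
    have h1 := pair_swap halt hg hN hn0 v v
    rw [he.neg_one_pow, one_mul] at h1
    have h3 : 2 * f.B v ((N ^ m) v) = 0 := by linear_combination h1
    exact (mul_eq_zero.mp h3).resolve_left h2F
  have hm5 : m ≤ 5 := by omega
  interval_cases m
  · -- trivial element
    left
    obtain ⟨x, y, hxy⟩ := hβne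
    rw [zero_add, pow_one] at hn0
    refine ⟨x, y, hxy, ?_, ?_⟩
    · rw [hgN, hn0, LinearMap.zero_apply, zero_add]
      exact Submodule.subset_span (by simp)
    · rw [hgN, hn0, LinearMap.zero_apply, zero_add]
      exact Submodule.subset_span (by simp)
  · left
    obtain ⟨v, hv⟩ := hodd (by decide)
    rw [pow_one] at hv
    refine ⟨v, N v, hv, ?_, ?_⟩
    · rw [hgN]
      exact Submodule.add_mem _ (Submodule.subset_span (by simp)) (Submodule.subset_span (by simp))
    · have h1 : N (N v) = 0 := by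
        have : (N ^ (1 + 1)) v = 0 := by rw [hn0]; rfl
        exact this
      rw [hgN, h1, zero_add]
      exact Submodule.subset_span (by simp)
  · -- blocks of size three
    right
    have hev := heven (by decide)
    obtain ⟨v, w, hvw⟩ := hβne
    have adj : ∀ x y, f.B x ((N ^ 2) y) ≠ 0 → ∃ x', f.B x' (N x') = 0 ∧ f.B x' ((N ^ 2) y) ≠ 0 := by
      intro x y hxy
      obtain ⟨s, hs⟩ : ∃ s, s = f.B x ((N ^ 2) y) := ⟨_, rfl⟩
      rw [← hs] at hxy
      have h1 : f.B (N y) (N x) = s := by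
        have h3 := pair_top hg hN hn0 (i := 1) (j := 1) (by norm_num) y x
        rw [pow_one, pow_one, pair_swap halt hg hN hn0 x y, ← hs] at h3
        rw [h3]; ring
      have h4 : f.B (N y) ((N ^ 2) y) = 0 := pair_high hg hN hn0 (i := 1) (j := 2) (by norm_num) y y
      have h5 : N (N y) = (N ^ 2) y := by rw [pow_two]; rfl
      refine ⟨x + (-(f.B x (N x)) * (2 * s)⁻¹) • N y, ?_, ?_⟩
      · rw [map_add, map_smul, h5, f.add_left, f.add_right, f.add_right, f.smul_left, f.smul_left, f.smul_right, f.smul_right, h1, h4, ← hs, RingHom.id_apply]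
        field_simp
        ring
      · rw [f.add_left, f.smul_left, h4, mul_zero, add_zero, ← hs]
        exact hxy
    obtain ⟨v', hv'1, hv'2⟩ := adj v w hvw
    have hwv' : f.B w ((N ^ 2) v') ≠ 0 := by
      rw [pair_swap halt hg hN hn0 v' w]
      simpa using hv'2
    obtain ⟨w', hw'1, hw'2⟩ := adj w v' hwv'
    have hti : ∀ v, f.B v (N v) = 0 → ∀ x ∈ Cy 3 N v, ∀ y ∈ Cy 3 N v, f.B x y = 0 := by
      intro v hv
      have h00 : f.B v v = 0 := halt v
      have h10 : f.B (N v) v = 0 := by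
        have := hsym v (N v)
        rw [this, hv, map_zero, mul_zero]
      have h02 : f.B v ((N ^ 2) v) = 0 := hev v
      have h20 : f.B ((N ^ 2) v) v = 0 := by
        have := hsym v ((N ^ 2) v)
        rw [this, h02, map_zero, mul_zero]
      have h11 : f.B (N v) (N v) = 0 := halt _
      have h22 : f.B ((N ^ 2) v) ((N ^ 2) v) = 0 := halt _
      have h12 : f.B (N v) ((N ^ 2) v) = 0 := pair_high hg hN hn0 (i := 1) (j := 2) (by norm_num) v v
      have h21 : f.B ((N ^ 2) v) (N v) = 0 := pair_high hg hN hn0 (i := 2) (j := 1) (by norm_num) v v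
      intro x hx y hy
      obtain ⟨a, rfl⟩ := mem_Cy.mp hx
      obtain ⟨b, rfl⟩ := mem_Cy.mp hy
      rw [Fin.sum_univ_three, Fin.sum_univ_three]
      change f.B (a 0 • v + a 1 • N v + a 2 • (N ^ 2) v) (b 0 • v + b 1 • N v + b 2 • (N ^ 2) v) = 0
      simp only [f.add_left, f.add_right, f.smul_left, f.smul_right, h00, h10, h02, h20, h11, h22, h12, h21, hv, mul_zero, add_zero]
    have ti₁ := hti v' hv'1
    have ti₂ := hti w' hw'1
    have hN2v : (N ^ 2) v' ≠ 0 := by
      intro h
      rw [h, f.zero_right] at hw'2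
      exact hw'2 rfl
    have hN2w : (N ^ 2) w' ≠ 0 := by
      intro h
      have h1 := pair_swap halt hg hN hn0 v' w'
      rw [h, f.zero_right, mul_zero, neg_zero] at h1
      exact hw'2 h1
    have hmem0 : ∀ v, v ∈ Cy 3 N v := fun v => pow_mem_Cy hn0 v 0
    have hnotin : (N ^ (3 - 1)) v' ∉ Cy 3 N w' := by
      intro h
      exact hw'2 (ti₂ w' (hmem0 w') _ h)
    have hdisj : Disjoint (Cy 3 N v') (Cy 3 N w') := by
      rw [Submodule.disjoint_def]
      intro x hx hx'
      exact disjoint_Cy hn0 (Cy_inv hn0 w') hnotin hx hx'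
    have hf₁ : finrank F (Cy 3 N v') = 3 := finrank_Cy hn0 hN2v
    have hf₂ : finrank F (Cy 3 N w') = 3 := finrank_Cy hn0 hN2w
    have hcompl : IsCompl (Cy 3 N v') (Cy 3 N w') := by
      refine ⟨hdisj, ?_⟩
      rw [codisjoint_iff]
      apply Submodule.eq_top_of_finrank_eq
      have h1 := Submodule.finrank_sup_add_finrank_inf_eq (Cy 3 N v') (Cy 3 N w')
      rw [hdisj.eq_bot, finrank_bot, hf₁, hf₂] at h1
      omega
    have hP : Pair f (Cy 3 N v') (Cy 3 N w') := ⟨hcompl, ti₁, ti₂⟩
    let N₁ : Module.End F (Cy 3 N v') := N.restrict (Cy_inv hn0 v')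
    have hN₁ : ∀ (k : ℕ) (x : Cy 3 N v'), (((N₁ ^ k) x : Cy 3 N v') : V) = (N ^ k) x := fun k x => res_pow (g := N) (w := N₁) (fun _ => rfl) k x
    refine pair_reg hE hV halt hnd hP g hg (hginv _ (Cy_inv hn0 v')) (hginv _ (Cy_inv hn0 w')) N₁ 1 one_ne_zero ?_ ?_ (v := ⟨v', hmem0 v'⟩) ?_
    · intro x
      rw [one_smul, hgN]; rfl
    · apply LinearMap.ext
      intro x
      apply Subtype.ext
      rw [hN₁, hn0]; rfl
    · intro h
      have h1 := congrArg Subtype.val h
      rw [hN₁] at h1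
      exact hN2v h1
  · -- a block of size four
    left
    obtain ⟨v, hv⟩ := hodd (by decide)
    have hv0 : (N ^ 3) v ≠ 0 := by
      intro h
      rw [h, f.zero_right] at hv
      exact hv rfl
    obtain ⟨Y, hY⟩ : ∃ Y, Y = Cy 4 N v := ⟨_, rfl⟩
    have hYf : finrank F Y = 4 := by rw [hY]; exact finrank_Cy hn0 hv0
    have hYN : ∀ x ∈ Y, N x ∈ Y := by rw [hY]; exact Cy_inv hn0 v
    have hYg := hginv Y hYN
    have hvY : v ∈ Y := by rw [hY]; exact pow_mem_Cy hn0 v 0
    obtain ⟨gY, -, hgY⟩ := exists_res g Y hYg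
    let Yp : Submodule F V := (toBilin f).orthogonal Y
    have hYp : ∀ x, x ∈ Yp ↔ ∀ y ∈ Y, f.B y x = 0 := fun x => Iff.rfl
    have hYpg : ∀ x ∈ Yp, (g : Module.End F V) x ∈ Yp := by
      intro x hx
      rw [hYp] at hx ⊢
      intro y hy
      have h1 : y = (g : Module.End F V) (((gY⁻¹ : (Module.End F Y)ˣ) : Module.End F Y) ⟨y, hy⟩ : Y) := by
        rw [← hgY, unit_inv_apply]
      rw [h1, hg]
      exact hx _ (Submodule.coe_mem _)
    have hYpN : ∀ x ∈ Yp, N x ∈ Yp := by
      intro x hx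
      rw [hN, LinearMap.sub_apply]
      exact Yp.sub_mem (hYpg x hx) hx
    have hdisj : ∀ x ∈ Y, x ∈ Yp → x = 0 := by
      intro x hx hx'
      rw [hY] at hx
      refine disjoint_Cy hn0 hYpN ?_ hx hx'
      intro h
      exact hv ((hYp _).mp h v hvY)
    have hYpf : finrank F Yp = 2 := by
      have h1 := LinearMap.BilinForm.finrank_orthogonal (ndB halt hnd) Y
      change finrank F Yp = _ at h1
      omega
    have hcompl : Y ⊔ Yp = ⊤ := by
      apply Submodule.eq_top_of_finrank_eq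
      have h1 := Submodule.finrank_sup_add_finrank_inf_eq Y Yp
      have h3 : Y ⊓ Yp = ⊥ := by
        rw [eq_bot_iff]
        rintro x ⟨hx, hx'⟩
        rw [Submodule.mem_bot]
        exact hdisj x hx hx'
      rw [h3, finrank_bot] at h1
      omega
    obtain ⟨x, hx, hx0⟩ : ∃ x ∈ Yp, x ≠ 0 := by
      apply Submodule.exists_mem_ne_zero_of_ne_bot
      rintro h
      rw [h, finrank_bot] at hYpf
      omega
    obtain ⟨y, hy, hxy⟩ : ∃ y ∈ Yp, f.B y x ≠ 0 := by
      by_contra hcon
      push Not at hcon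
      apply hx0
      apply hndr
      intro z
      have hz : z ∈ Y ⊔ Yp := by rw [hcompl]; trivial
      obtain ⟨a, ha, b, hb, rfl⟩ := Submodule.mem_sup.mp hz
      rw [f.add_left, (hYp x).mp hx a ha, hcon b hb, add_zero]
    exact plane_of_dim2 halt hYpf hYpg hy hx hxy
  · -- blocks of size five are impossible
    exfalso
    have hev := heven (by decide)
    obtain ⟨v, w, hvw⟩ := hβne
    have hwv : f.B w ((N ^ 4) v) ≠ 0 := by
      rw [pair_swap halt hg hN hn0 v w]
      simpa using hvw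
    have hN4v : (N ^ 4) v ≠ 0 := by
      intro h
      rw [h, f.zero_right] at hwv
      exact hwv rfl
    have hN4w : (N ^ 4) w ≠ 0 := by
      intro h
      rw [h, f.zero_right] at hvw
      exact hvw rfl
    have hR : ∀ x ∈ Submodule.span F {(N ^ 4) v}, N x ∈ Submodule.span F {(N ^ 4) v} := by
      intro x hx
      obtain ⟨c, rfl⟩ := Submodule.mem_span_singleton.mp hx
      have h1 : N ((N ^ 4) v) = 0 := by
        have : (N ^ (4 + 1)) v = 0 := by rw [hn0]; rfl
        rw [pow_succ'] at this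
        exact this
      rw [map_smul, h1, smul_zero]
      exact Submodule.zero_mem _
    have hnot : (N ^ (5 - 1)) w ∉ Submodule.span F {(N ^ 4) v} := by
      intro h
      obtain ⟨c, hc⟩ := Submodule.mem_span_singleton.mp h
      change c • (N ^ 4) v = (N ^ 4) w at hc
      rw [← hc, f.smul_right, hev, mul_zero] at hvw
      exact hvw rfl
    have hnot2 : (N ^ (5 - 1)) v ∉ Cy 5 N w := by
      intro h
      exact hN4v (disjoint_Cy hn0 hR hnot h (Submodule.mem_span_singleton_self _))
    have hdisj : Cy 5 N v ⊓ Cy 5 N w = ⊥ := by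
      rw [eq_bot_iff]
      rintro x ⟨hx, hx'⟩
      rw [Submodule.mem_bot]
      exact disjoint_Cy hn0 (Cy_inv hn0 w) hnot2 hx hx'
    have h1 := Submodule.finrank_sup_add_finrank_inf_eq (Cy 5 N v) (Cy 5 N w)
    have hf₁ : finrank F (Cy 5 N v) = 5 := finrank_Cy hn0 hN4v
    have hf₂ : finrank F (Cy 5 N w) = 5 := finrank_Cy hn0 hN4w
    rw [hdisj, finrank_bot, hf₁, hf₂] at h1
    have h3 := Submodule.finrank_le (Cy 5 N v ⊔ Cy 5 N w)
    omega
  · right
    obtain ⟨v, hv⟩ := hodd (by decide)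
    exact regular_good hE hV halt hnd g hg hN hN6 hv

end H46.CovSp6
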