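import Mathlib
import Cfsg.Agent.Lib.H46.CovSp6f

/-! The six dimensional symplectic groups in characteristic three are covered by two subgroups. -/

set_option autoImplicit false

namespace H46.CovSp6

open Module Polynomial H46.SForm H46.SForm.SForm H46.CovSt H46.OrdPSp H46.CovReg H46.OrthDec H46.FieldInv H46.CovU

variable {F : Type*} [Field F]

theorem even_of_alt {V : Type*} [AddCommGroup V] [Module F V] [Module.Finite F V] {f : SForm F V (RingHom.id F)} (halt : f.Alt) (hnd : f.ND) : Even (finrank F V) := by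
  obtain ⟨ι, _, _, b, -⟩ := H99.Alt.exists_symp_basis V (toBilin f) (fun v => halt v) (fun v hv => hnd v hv)
  rw [Module.finrank_eq_card_basis b, Fintype.card_prod, Fintype.card_fin]
  exact even_two_mul _

/-- scalars do not matter -/
theorem plane_smul {V : Type*} [AddCommGroup V] [Module F V] {f : SForm F V (RingHom.id F)} {g : Module.End F V} (c : F) (h : GoodPlane f g) : GoodPlane f (c • g) := by
  obtain ⟨v, w, hvw, hv, hw⟩ := h
  exact ⟨v, w, hvw, Submodule.smul_mem _ _ hv, Submodule.smul_mem _ _ hw⟩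

theorem phi_smul {E : Type*} [Field E] [Algebra F E] {V : Type*} [AddCommGroup V] [Module F V] {f : SForm F V (RingHom.id F)} {g : Module.End F V} (c : F) (h : GoodPhi E f g) : GoodPhi E f (c • g) := by
  obtain ⟨φ, hφ, hn⟩ := h
  refine ⟨φ, hφ, ?_⟩
  intro x
  obtain ⟨z, hz⟩ := hn x
  exact ⟨z, by rw [smul_mul_assoc, hz, mul_smul_comm]⟩

/-- isometries of six dimensional symplectic spaces in characteristic three -/
theorem main6 [Finite F] [CharP F 3] {E : Type*} [Field E] [Finite E] [Algebra F E] (hE : finrank F E = 3)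
    {V : Type*} [AddCommGroup V] [Module F V] [Module.Finite F V] (hV : finrank F V = 6) {f : SForm F V (RingHom.id F)} (halt : f.Alt) (hnd : f.ND)
    (g : (Module.End F V)ˣ) (hg : f.Isom g) : GoodPlane f (g : Module.End F V) ∨ GoodPhi E f (g : Module.End F V) := by
  haveI : Fact (Nat.Prime 3) := ⟨Nat.prime_three⟩
  haveI : Nontrivial V := Module.nontrivial_of_finrank_pos (R := F) (by omega)
  haveI : Finite V := Module.finite_of_finite F
  haveI : Finite (Module.End F V) := Finite.of_injective (fun g => (g : V → V)) DFunLike.coe_injective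
  have hsym := halt.sym
  have hpos : 0 < orderOf g := orderOf_pos g
  obtain ⟨k, hk⟩ : ∃ k, k = (orderOf g).factorization 3 := ⟨_, rfl⟩
  obtain ⟨m, hmd⟩ : ∃ m, m = orderOf g / 3 ^ k := ⟨_, rfl⟩
  have hpe : 3 ^ k ∣ orderOf g := hk ▸ Nat.ordProj_dvd _ 3
  have hN : orderOf g = m * 3 ^ k := by rw [hmd, Nat.div_mul_cancel hpe]
  have htp : ¬ 3 ∣ m := by rw [hmd, hk]; exact Nat.not_dvd_ordCompl Nat.prime_three hpos.ne'
  have hm0 : (m : F) ≠ 0 := by
    rw [Ne, CharP.cast_eq_zero_iff F 3]
    exact htp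
  obtain ⟨s, hs⟩ : ∃ s : (Module.End F V)ˣ, s = g ^ 3 ^ k := ⟨_, rfl⟩
  have hsm : s ^ m = 1 := by
    rw [hs, ← pow_mul, mul_comm, ← hN, pow_orderOf_eq_one]
  have hst : aeval (s : Module.End F V) (X ^ m - C 1 : F[X]) = 0 := by
    have : (s : Module.End F V) ^ m = 1 := by rw [← Units.val_pow_eq_pow_val, hsm]; rfl
    simp [this]
  have hP : Squarefree (X ^ m - C 1 : F[X]) := (separable_X_pow_sub_C 1 hm0 one_ne_zero).squarefree
  have hgs : Commute (g : Module.End F V) (s : Module.End F V) := by
    rw [hs, Units.val_pow_eq_pow_val]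
    exact Commute.self_pow _ _
  have hsi : f.Isom s := by rw [hs]; exact hg.pow _
  rcases structure_isom (fun _ => rfl) (ε := (-1 : F)) ⟨rfl, by ring⟩ hsym hnd s hsi _ hP hst with h | h | h
  · left
    obtain ⟨W₁, W₂, hW, hW₁, hW₂, horth, hinv⟩ := h
    obtain ⟨h₁, h₂⟩ := hinv _ hgs
    obtain ⟨u₁, u₂, -, -, n₁, n₂, -⟩ := decomp_isom hsym hnd W₁ W₂ hW horth g hg h₁ h₂
    have a₁ : (f.pull W₁.subtype).Alt := fun v => halt _
    have a₂ : (f.pull W₂.subtype).Alt := fun v => halt _
    have e₁ := even_of_alt a₁ n₁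
    have e₂ := even_of_alt a₂ n₂
    haveI hnt₁ : Nontrivial W₁ := Submodule.nontrivial_iff_ne_bot.mpr hW₁
    haveI hnt₂ : Nontrivial W₂ := Submodule.nontrivial_iff_ne_bot.mpr hW₂
    have hfs := Submodule.finrank_add_eq_of_isCompl hW
    have hp1 : 0 < finrank F W₁ := finrank_pos
    have hp2 : 0 < finrank F W₂ := finrank_pos
    have h12 : finrank F W₁ = 2 ∨ finrank F W₂ = 2 := by
      obtain ⟨x, hx⟩ := e₁
      obtain ⟨y, hy⟩ := e₂
      omega
    rcases h12 with d | d
    · obtain ⟨v, w, hvw⟩ := exists_ne_zero_of_nd n₁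
      exact plane_of_dim2 halt d h₁ v.2 w.2 hvw
    · obtain ⟨v, w, hvw⟩ := exists_ne_zero_of_nd n₂
      exact plane_of_dim2 halt d h₂ v.2 w.2 hvw
  · by_cases hs2 : s ^ 2 = 1
    · -- the semisimple part is a sign
      obtain ⟨c, hcc, hc⟩ : ∃ c : F, (c = 1 ∨ c = -1) ∧ (s : Module.End F V) = algebraMap F _ c := by
        obtain ⟨φ, hφ, hinj⟩ := field_act (s : Module.End F V) _ rfl h
        haveI : Fact (Irreducible (minpoly F (s : Module.End F V))) := ⟨h⟩
        have h1 : (AdjoinRoot.root (minpoly F (s : Module.End F V))) ^ 2 = 1 := by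
          apply hinj
          rw [map_pow, hφ, map_one, ← Units.val_pow_eq_pow_val, hs2]; rfl
        have h0 : (AdjoinRoot.root (minpoly F (s : Module.End F V)) - 1) * (AdjoinRoot.root (minpoly F (s : Module.End F V)) + 1) = 0 := by
          linear_combination h1
        have h00 : AdjoinRoot.root (minpoly F (s : Module.End F V)) = 1 ∨ AdjoinRoot.root (minpoly F (s : Module.End F V)) = -1 := by
          rcases mul_eq_zero.mp h0 with h | h
          · exact Or.inl (sub_eq_zero.mp h)
          · exact Or.inr (eq_neg_of_add_eq_zero_left h)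
        rcases h00 with h3 | h3
        · refine ⟨1, Or.inl rfl, ?_⟩
          rw [← hφ, h3, map_one, map_one]
        · refine ⟨-1, Or.inr rfl, ?_⟩
          rw [← hφ, h3, map_neg, map_one, map_neg, map_one]
      have hc2 : c * c = 1 := by rcases hcc with rfl | rfl <;> ring
      have hc3 : c ^ 3 ^ k = c := by
        rcases hcc with rfl | rfl
        · rw [one_pow]
        · exact Odd.neg_one_pow (Odd.pow (by decide))
      haveI : CharP (Module.End F V) 3 := charP_of_injective_algebraMap (FaithfulSMul.algebraMap_injective F (Module.End F V)) 3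
      have hnil : ((g : Module.End F V) - algebraMap F _ c) ^ 3 ^ k = 0 := by
        rw [sub_pow_char_pow_of_commute 3 k (Algebra.commutes c (g : Module.End F V)).symm, ← map_pow, hc3, ← hc, hs, Units.val_pow_eq_pow_val, sub_self]
      have hc0 : c ≠ 0 := left_ne_zero_of_mul_eq_one hc2
      -- the unipotent part
      let g' : (Module.End F V)ˣ := H46.ProdUnit.scalarUnit V (Units.mk0 c hc0) * g
      have hg' : (g' : Module.End F V) = c • (g : Module.End F V) := by
        apply LinearMap.ext
        intro v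
        rw [Units.val_mul]
        change ((H46.ProdUnit.scalarUnit V (Units.mk0 c hc0) : (Module.End F V)ˣ) : Module.End F V) ((g : Module.End F V) v) = _
        rw [H46.ProdUnit.scalarUnit_apply]; rfl
      have hgi' : f.Isom g' := (isom_scalarUnit (by rw [Units.val_mk0]; exact hc2)).mul hg
      have hgg' : (g : Module.End F V) = c • (g' : Module.End F V) := by rw [hg', smul_smul, hc2, one_smul]
      have hN6 : ((g' : Module.End F V) - 1) ^ 6 = 0 := by
        have h1 : (g' : Module.End F V) - 1 = c • ((g : Module.End F V) - algebraMap F _ c) := by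
          rw [hg', smul_sub, Algebra.algebraMap_eq_smul_one, smul_smul, hc2, one_smul]
        have hn : IsNilpotent ((g' : Module.End F V) - 1) := ⟨3 ^ k, by rw [h1, _root_.smul_pow, hnil, smul_zero]⟩
        have h3 : LinearMap.charpoly ((g' : Module.End F V) - 1) = X ^ finrank F V := (LinearMap.isNilpotent_iff_charpoly _).mp hn
        have h4 := LinearMap.aeval_self_charpoly ((g' : Module.End F V) - 1)
        rw [h3, hV] at h4
        simpa using h4
      rw [hgg']
      rcases unip_case hE hV halt hnd g' hgi' rfl hN6 with h | h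
      · exact Or.inl (plane_smul c h)
      · exact Or.inr (phi_smul c h)
    · obtain ⟨K, _, _, _, hK, -⟩ := H46.ExtElt.exists_field_ext F 2 (by norm_num)
      letI := Fintype.ofFinite K
      obtain ⟨φ, h1, h3⟩ := exists_herm_phi hV halt hnd s hsi h hs2 K hK
      exact herm_case hE hV halt hnd g hg K hK φ (h1 _ hgs) h3
  · obtain ⟨W₁, W₂, h, hW, hW₁, hW₂, hiso₁, hiso₂, hinv, hirr, hker⟩ := h
    obtain ⟨h₁, h₂⟩ := hinv _ hgs
    exact pair_case hE hV halt hnd ⟨hW, hiso₁, hiso₂⟩ g hg h₁ h₂ k h hirr (fun v hv => by rw [← hs]; exact hker v hv)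

/-- the covering -/
theorem cover [Fintype F] {a : ℕ} (ha : 1 ≤ a) (hF : Fintype.card F = 3 ^ a) : H46.Cov.Cov (Cfsg.PSp 3 F) := by
  haveI : CharP F 3 := by
    obtain ⟨p, hp⟩ := CharP.exists F
    have hpp : p.Prime := CharP.char_is_prime F p
    haveI : Fact p.Prime := ⟨hpp⟩
    obtain ⟨n, -, hn⟩ := FiniteField.card F p
    have h1 : p ∣ 3 := by
      have h2 : p ∣ Fintype.card F := by rw [hn]; exact dvd_pow_self p n.ne_zero
      rw [hF] at h2
      exact hpp.dvd_of_dvd_pow h2
    have h3 : p = 3 := (Nat.prime_dvd_prime_iff_eq hpp Nat.prime_three).mp h1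
    rw [← h3]; exact hp
  have h2F : (2 : F) ≠ 0 := by
    intro h
    have h1 : ((3 : ℕ) : F) = 0 := CharP.cast_eq_zero F 3
    have h3 : (1 : F) = 0 := by
      have : ((3 : ℕ) : F) = 2 + 1 := by norm_num
      rw [this, h, zero_add] at h1
      exact h1
    exact one_ne_zero h3
  obtain ⟨E, _, _, _, hE, -⟩ := H46.ExtElt.exists_field_ext F 3 (by norm_num)
  apply cover_of hE h2F
  intro u hu
  exact main6 hE (by simp) (stdForm_alt 3) (stdForm_nd 3) u hu

end H46.CovSp6
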