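import Mathlib
import Cfsg.Agent.Lib.H46.SpFinal

/-! Counting unipotent classes of isometry groups. -/

set_option autoImplicit false

namespace H46.UnipClasses

open Polynomial Module H49.FormConj2 H49.FormConj3 H46.FormSplit H46.SigU H46.SigModel H46.IsoCount H46.UnipExist H48.SimStruct
open H46.TyAlg H46.TyCount H46.TyReal H46.TyGL H46.StPoly H46.StTy H46.SdCount H46.SdWeight H46.TySelf H46.IsoBound H46.JordTy H46.TypeReal H49.GUUnip

universe u v w

variable {F : Type u} [Field F] {V : Type v} [AddCommGroup V] [Module F V] [FiniteDimensional F V] {G : Type w} [Group G]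
variable {f : LinearMap.BilinForm F V} (P : IsoG G f)

/-- the type of a unipotent element with given block sizes -/
noncomputable def tyd {t : ℕ} (d : Fin t → ℕ) : ℕ → F[X] := fun e => (X - C 1) ^ mu d e

open scoped Classical in
/-- the positions of the signs -/
noncomputable def Ed (ε : F) {t : ℕ} (d : Fin t → ℕ) : Finset ℕ := (Finset.univ.image d).filter (fun i => ε * (-1) ^ (i - 1) = 1)

theorem exists_eC {t : ℕ} {d : Fin t → ℕ} (hd : ∀ k, 1 ≤ d k) {x : G} (hx : tyG P x = tyd d) :
    ∃ e : V ≃ₗ[F] (I d → F), ∀ v, e (P.ρ x v) = TJ d 1 (e v) := by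
  have h1 := isTy_tyG P x
  rw [hx] at h1
  exact conj_of_isTy h1 (isTy_jord d hd (c := (1 : F)) one_ne_zero)

open scoped Classical in
/-- the number of classes with given block sizes -/
theorem card_fiber_unip [Finite F] [Finite G] (hodd : Odd (Nat.card F)) (h2 : (2 : F) ≠ 0) {ε : F} (hε : ε * ε = 1)
    (hf : NDB f) (hs : ∀ u v, f u v = ε * f v u)
    (huni : ∀ f' : LinearMap.BilinForm F V, NDB f' → (∀ u v, f' u v = ε * f' v u) → ∃ y : V ≃ₗ[F] V, ∀ u v, f (y u) (y v) = f' u v)
    {t : ℕ} {d : Fin t → ℕ} (hd : ∀ k, 1 ≤ d k) (hsum : ∑ k, d k = finrank F V)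
    (hev : ∀ i, ε * (-1) ^ (i - 1) = -1 → Even (Fintype.card {k : Fin t // d k = i})) :
    Nat.card {C : ConjClasses G // tyG P C.out = tyd d} = 2 ^ (Ed ε d).card := by
  have hout : ∀ D : ConjClasses G, ConjClasses.mk D.out = D := fun D => Quotient.out_eq D
  choose e he using fun D : {C : ConjClasses G // tyG P C.out = tyd d} => exists_eC P hd D.2
  have hbij : Function.Bijective (fun D : {C : ConjClasses G // tyG P C.out = tyd d} =>
      (⟨(Ed ε d).filter (fun i => sgn hd i (tp f (e D))), Finset.mem_powerset.mpr (Finset.filter_subset _ _)⟩ : (Ed ε d).powerset)) := by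
    constructor
    · intro D D' h
      have h3 : (Ed ε d).filter (fun i => sgn hd i (tp f (e D))) = (Ed ε d).filter (fun i => sgn hd i (tp f (e D'))) := congrArg Subtype.val h
      have key := unip_eqv hd hodd h2 (c := (1 : F)) (by ring) hε (tp_IF (if_rho P hf hs D.1.out) (e D) (he D)) (tp_IF (if_rho P hf hs D'.1.out) (e D') (he D'))
        (by
          intro i hi hk
          have h5 : i ∈ Ed ε d := by
            unfold Ed
            rw [Finset.mem_filter, Finset.mem_image]
            exact ⟨⟨hk.choose, Finset.mem_univ _, hk.choose_spec⟩, hi⟩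
          have h6 := Finset.ext_iff.mp h3 i
          rw [Finset.mem_filter, Finset.mem_filter, and_iff_right h5, and_iff_right h5] at h6
          exact h6)
      have h7 := isConj_of_eqv P (he D) (he D') key
      apply Subtype.ext
      have h8 := ConjClasses.mk_eq_mk_iff_isConj.mpr h7
      rw [hout, hout] at h8
      exact h8
    · rintro ⟨s, hs'⟩
      rw [Finset.mem_powerset] at hs'
      obtain ⟨f', hf', hσ⟩ := exists_form_unip hd (c := (1 : F)) h2 (by ring) hε hev (fun i => i ∈ s)
      have hfr : finrank F (I d → F) = finrank F V := by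
        rw [Module.finrank_fintype_fun_eq_card, card_I, hsum]
      let e₀ : (I d → F) ≃ₗ[F] V := LinearEquiv.ofFinrankEq _ _ hfr
      obtain ⟨y, hy⟩ := huni (tp f' e₀) (by
        intro x hx
        have h1 : e₀.symm x = 0 := by
          apply hf'.nd
          intro y
          have := hx (e₀ y)
          rw [tp_apply, e₀.symm_apply_apply] at this
          exact this
        rw [← e₀.apply_symm_apply x, h1, map_zero]) (fun u v => hf'.symm _ _)
      have hy' : ∀ u v, f ((e₀.trans y) u) ((e₀.trans y) v) = f' u v := by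
        intro u v
        show f (y (e₀ u)) (y (e₀ v)) = f' u v
        rw [hy, tp_apply, e₀.symm_apply_apply, e₀.symm_apply_apply]
      obtain ⟨g, hg⟩ := exists_elt P hf' (e₀.trans y) hy'
      have hg2 : tyG P g = tyd d := tyG_of_conj P (isTy_jord d hd (c := (1 : F)) one_ne_zero) (e₀.trans y).symm hg
      have hcj : IsConj g (ConjClasses.mk g).out := ConjClasses.mk_eq_mk_iff_isConj.mp (hout _).symm
      have hgo : tyG P (ConjClasses.mk g).out = tyd d := by rw [← tyG_conj P hcj]; exact hg2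
      refine ⟨⟨ConjClasses.mk g, hgo⟩, ?_⟩
      apply Subtype.ext
      ext i
      simp only [Finset.mem_filter]
      obtain ⟨D, hD⟩ : ∃ D : {C : ConjClasses G // tyG P C.out = tyd d}, D = ⟨ConjClasses.mk g, hgo⟩ := ⟨_, rfl⟩
      rw [← hD]
      have hDout : D.1.out = (ConjClasses.mk g).out := by rw [hD]
      obtain ⟨k, hk⟩ := isConj_iff.mp hcj
      have hk' : k * g = D.1.out * k := by rw [hDout, ← hk, inv_mul_cancel_right]
      have heqv : Eqv (TJ d 1) (tp f (e D)) f' := by
        refine ⟨((e₀.trans y).trans (P.ρ k)).trans (e D), ?_, ?_⟩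
        · intro v
          show e D (P.ρ k ((e₀.trans y) (TJ d 1 v))) = TJ d 1 (e D (P.ρ k ((e₀.trans y) v)))
          rw [← he D]
          congr 1
          have h1 : (e₀.trans y) (TJ d 1 v) = P.ρ g ((e₀.trans y) v) := by
            apply (e₀.trans y).symm.injective
            rw [hg, (e₀.trans y).symm_apply_apply, (e₀.trans y).symm_apply_apply]
          rw [h1]
          have h2 := congrArg P.ρ hk'
          rw [map_mul, map_mul] at h2
          exact LinearEquiv.congr_fun h2 _
        · intro u v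
          show tp f (e D) (e D (P.ρ k ((e₀.trans y) u))) (e D (P.ρ k ((e₀.trans y) v))) = f' u v
          rw [tp_apply, (e D).symm_apply_apply, (e D).symm_apply_apply, P.pres, hy']
      have hε0 : ε ≠ 0 := by rintro rfl; simp at hε
      have hsg := sgn_of_eqv hd (c := (1 : F)) one_ne_zero (by ring) hε0 (tp_IF (if_rho P hf hs D.1.out) (e D) (he D)) heqv i
      rw [hsg]
      constructor
      · rintro ⟨h1, h3⟩
        unfold Ed at h1
        rw [Finset.mem_filter, Finset.mem_image] at h1
        obtain ⟨⟨k, _, hk⟩, h5⟩ := h1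
        exact (hσ i h5 ⟨k, hk⟩).mp h3
      · intro h1
        have h6 := hs' h1
        refine ⟨h6, ?_⟩
        unfold Ed at h6
        rw [Finset.mem_filter, Finset.mem_image] at h6
        obtain ⟨⟨k, _, hk⟩, h5⟩ := h6
        exact (hσ i h5 ⟨k, hk⟩).mpr h1
  rw [Nat.card_congr (Equiv.ofBijective _ hbij), Nat.card_eq_fintype_card, Fintype.card_coe, Finset.card_powerset]

/-- labels of a unipotent element of exponent `p` -/
theorem exists_labels {T : V →ₗ[F] V} {τ : ℕ → F[X]} (hT : IsTy T τ) {p : ℕ} (hp : aeval T (((X : F[X]) - C (1 : F)) ^ p) = 0) :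
    ∃ (ι : Type u) (_ : Fintype ι) (m : ι → ℕ), (∀ i, 1 ≤ m i ∧ m i ≤ p) ∧ ∑ i, m i = finrank F V ∧ ∀ e, τ e = (X - C (1 : F)) ^ (Nat.card {i // m i = e}) := by
  classical
  obtain ⟨ι, _, g, hg, ⟨E⟩, rfl⟩ := hT
  have h2 := finrank_isTy hg E
  obtain ⟨K, hK⟩ : ∃ K : ι → ℕ, ∀ i, K i = kd (Cyc (g i)) (((X : F[X]) - C (1 : F)) ^ p) := ⟨_, fun i => rfl⟩
  have h1 : ∑ i, K i = finrank F V := by
    have h1 := kd_struct hg E (((X : F[X]) - C (1 : F)) ^ p)
    rw [hp, LinearMap.ker_zero, finrank_top] at h1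
    rw [← h1]
    exact Finset.sum_congr rfl (fun i _ => hK i)
  have hkd : ∀ i, K i ≤ (g i).2 * (g i).1.natDegree ∧ (K i = (g i).2 * (g i).1.natDegree → (g i).1 = X - C (1 : F) ∧ (g i).2 ≤ p) := by
    intro i
    have h3 := kd_cyc (hg i) (monic_X_sub_C (1 : F)) (irreducible_X_sub_C 1) p
    rw [← hK, natDegree_X_sub_C, mul_one] at h3
    rw [h3]
    have hpos : 0 < (g i).2 * (g i).1.natDegree := Nat.mul_pos (hg i).2.2 (hg i).2.1.natDegree_pos
    split_ifs with h4
    · rw [h4, natDegree_X_sub_C, mul_one]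
      refine ⟨min_le_right _ _, fun h5 => ⟨rfl, ?_⟩⟩
      exact min_eq_right_iff.mp h5
    · exact ⟨Nat.zero_le _, fun h5 => by omega⟩
  have h3 : ∀ i, K i = (g i).2 * (g i).1.natDegree := by
    have h4 := (Finset.sum_eq_sum_iff_of_le (fun i _ => (hkd i).1)).mp (h1.trans h2)
    exact fun i => h4 i (Finset.mem_univ i)
  have h4 : ∀ i, (g i).1 = X - C (1 : F) ∧ (g i).2 ≤ p := fun i => (hkd i).2 (h3 i)
  refine ⟨ι, inferInstance, fun i => (g i).2, fun i => ⟨(hg i).2.2, (h4 i).2⟩, ?_, ?_⟩
  · rw [h2]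
    refine Finset.sum_congr rfl fun i _ => ?_
    rw [(h4 i).1, natDegree_X_sub_C, mul_one]
  · intro e
    unfold tyf
    have h5 : ∀ i, (if (g i).2 = e then (g i).1 else 1) = (if (g i).2 = e then X - C (1 : F) else 1) := by
      intro i
      rw [(h4 i).1]
    rw [Finset.prod_congr rfl (fun i _ => h5 i), Finset.prod_ite, Finset.prod_const_one, mul_one, Finset.prod_const, Nat.card_eq_fintype_card, Fintype.card_subtype]

/-- `T ^ p = 1` in characteristic `p` -/
theorem pow_iff {p : ℕ} [Fact p.Prime] [CharP F p] (T : V →ₗ[F] V) : aeval T (((X : F[X]) - C (1 : F)) ^ p) = 0 ↔ T ^ p = 1 := by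
  have h1 : ((X : F[X]) - C (1 : F)) ^ p = X ^ p - 1 := by
    rw [sub_pow_char, ← C_pow, one_pow, C_1]
  rw [h1, map_sub, map_pow, aeval_X, map_one, sub_eq_zero]

/-- exponent of an element with given block sizes -/
theorem pow_of_tyd {p : ℕ} {t : ℕ} {d : Fin t → ℕ} (hd : ∀ k, 1 ≤ d k) (hdp : ∀ k, d k ≤ p) {x : G} (hx : tyG P x = tyd d) :
    aeval (P.ρ x : V →ₗ[F] V) (((X : F[X]) - C (1 : F)) ^ p) = 0 := by
  obtain ⟨e, he⟩ := exists_eC P hd hx
  have h1 : aeval (TJ d (1 : F)) (((X : F[X]) - C (1 : F)) ^ p) = 0 := by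
    have h2 := rank_jord (F := F) d (c := (1 : F)) one_ne_zero p
    have h3 : ∑ j, (d j - p) = 0 := Finset.sum_eq_zero (fun j _ => by have := hdp j; omega)
    rw [h3] at h2
    have h4 := H48.Jordan.eq_zero_of_rank h2
    have h7 := Polynomial.aeval_algHom_apply (Matrix.toLinAlgEquiv' : Matrix (I d) (I d) F ≃ₐ[F] _).toAlgHom ((1 : F) • Cfsg.jordanTypeMatrix d F) (((X : F[X]) - C (1 : F)) ^ p)
    rw [h4, map_zero] at h7
    exact h7
  have h2 := equiv_of_conj e he (((X : F[X]) - C (1 : F)) ^ p)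
  rw [h1, LinearMap.ker_zero, finrank_top, ← e.finrank_eq] at h2
  rw [← LinearMap.ker_eq_top]
  exact Submodule.eq_top_of_finrank_eq h2

end H46.UnipClasses
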