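import Mathlib
import Cfsg.Agent.Lib.H46.UnipClasses

/-! Classes of elements of order `p` in the symplectic groups. -/

set_option autoImplicit false

namespace H46.SpOrderP

open Polynomial Module H49.FormConj2 H49.FormConj3 H46.FormSplit H46.SigU H46.SigModel H46.IsoCount H46.UnipExist H48.SimStruct
open H46.TyAlg H46.TyCount H46.TyReal H46.TyGL H46.StPoly H46.StTy H46.SdCount H46.SdWeight H46.TySelf H46.IsoBound H46.JordTy H46.TypeReal H49.GUUnip
open H46.UnipClasses H46.SpFinal

universe u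

/-- block sizes of a partition -/
noncomputable def dd {N : ℕ} (μ : Nat.Partition N) : Fin μ.parts.toList.length → ℕ := fun k => μ.parts.toList.get k

theorem map_dd {N : ℕ} (μ : Nat.Partition N) : (Finset.univ.val.map (dd μ) : Multiset ℕ) = μ.parts := by
  have h1 : (Finset.univ.val.map (dd μ) : Multiset ℕ) = (List.ofFn (dd μ) : Multiset ℕ) := by
    rw [List.ofFn_eq_map]
    rfl
  rw [h1]
  unfold dd
  rw [List.ofFn_get, Multiset.coe_toList]

theorem one_le_dd {N : ℕ} (μ : Nat.Partition N) (k) : 1 ≤ dd μ k := by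
  have h1 : dd μ k ∈ μ.parts := by
    rw [← map_dd, Multiset.mem_map]
    exact ⟨k, Finset.mem_val.mpr (Finset.mem_univ k), rfl⟩
  exact μ.parts_pos h1

theorem sum_dd {N : ℕ} (μ : Nat.Partition N) : ∑ k, dd μ k = N := by
  have h1 : ∑ k, dd μ k = (Finset.univ.val.map (dd μ) : Multiset ℕ).sum := rfl
  rw [h1, map_dd, μ.parts_sum]

theorem mu_dd {N : ℕ} (μ : Nat.Partition N) (e : ℕ) : mu (dd μ) e = μ.parts.count e := by
  unfold mu
  rw [Fintype.card_subtype]
  conv_rhs => rw [← map_dd μ, Multiset.count_map]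
  rw [Finset.card_def, Finset.filter_val]
  congr 1
  apply Multiset.filter_congr
  intro k _
  exact eq_comm

theorem mem_image_dd {N : ℕ} (μ : Nat.Partition N) (i : ℕ) : i ∈ Finset.univ.image (dd μ) ↔ i ∈ μ.parts := by
  rw [Finset.mem_image]
  conv_rhs => rw [← map_dd μ, Multiset.mem_map]
  simp

variable {F : Type u} [Field F]

theorem eps_iff (h2 : (2 : F) ≠ 0) {i : ℕ} (hi : 1 ≤ i) : (-1 : F) * (-1) ^ (i - 1) = 1 ↔ Even i := by
  have h1 : (-1 : F) * (-1) ^ (i - 1) = (-1) ^ i := by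
    rw [← pow_succ']; congr 1; omega
  rw [h1]
  constructor
  · intro h
    by_contra hodd
    rw [Nat.not_even_iff_odd] at hodd
    rw [hodd.neg_one_pow] at h
    apply h2
    have h5 : (2 : F) = 1 + 1 := by norm_num
    rw [h5]; nth_rw 1 [← h]; ring
  · exact fun h => h.neg_one_pow

open scoped Classical in
theorem Ed_dd (h2 : (2 : F) ≠ 0) {N : ℕ} (μ : Nat.Partition N) : (Ed (-1 : F) (dd μ)).card = (μ.parts.toFinset.filter (fun j : ℕ => Even j)).card := by
  congr 1
  ext i
  unfold Ed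
  rw [Finset.mem_filter, Finset.mem_filter, Multiset.mem_toFinset]
  rw [show (i ∈ Finset.univ.image (dd μ)) = (i ∈ μ.parts) from propext (mem_image_dd μ i)]
  constructor
  · rintro ⟨a, b⟩
    exact ⟨a, (eps_iff h2 (μ.parts_pos a)).mp b⟩
  · rintro ⟨a, b⟩
    exact ⟨a, (eps_iff h2 (μ.parts_pos a)).mpr b⟩

theorem tyd_inj {N : ℕ} {μ ν : Nat.Partition N} (h : (tyd (dd μ) : ℕ → F[X]) = tyd (dd ν)) : μ = ν := by
  apply Nat.Partition.ext
  ext e
  have h1 := congrFun h e
  unfold tyd at h1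
  rw [mu_dd, mu_dd] at h1
  have h2 := congrArg natDegree h1
  rw [natDegree_pow, natDegree_pow, natDegree_X_sub_C, mul_one, mul_one] at h2
  exact h2

/-- the admissible partitions -/
def Good' (p : ℕ) {N : ℕ} (μ : Nat.Partition N) : Prop := (∀ a ∈ μ.parts, a ≤ p) ∧ ∀ j : ℕ, Odd j → Even (μ.parts.count j)

theorem exists_part [Finite F] (h2 : (2 : F) ≠ 0) {p : ℕ} [Fact p.Prime] [CharP F p] {m : ℕ} (x : Matrix.symplecticGroup (Fin m) F) :
    x ^ p = 1 ↔ ∃ μ : Nat.Partition (2 * m), Good' p μ ∧ tyG (isoSp F m) x = tyd (dd μ) := by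
  have hfr' : finrank F (Fin m ⊕ Fin m → F) = 2 * m := by
    rw [Module.finrank_fintype_fun_eq_card, Fintype.card_sum, Fintype.card_fin]; omega
  have hpow : x ^ p = 1 ↔ aeval ((isoSp F m).ρ x : (Fin m ⊕ Fin m → F) →ₗ[F] (Fin m ⊕ Fin m → F)) (((X : F[X]) - C (1 : F)) ^ p) = 0 := by
    rw [pow_iff]
    have hc : ∀ (e : (Fin m ⊕ Fin m → F) ≃ₗ[F] (Fin m ⊕ Fin m → F)) (k : ℕ), ((e : (Fin m ⊕ Fin m → F) →ₗ[F] (Fin m ⊕ Fin m → F)) : Module.End F (Fin m ⊕ Fin m → F)) ^ k =
        ((e ^ k : (Fin m ⊕ Fin m → F) ≃ₗ[F] (Fin m ⊕ Fin m → F)) : (Fin m ⊕ Fin m → F) →ₗ[F] (Fin m ⊕ Fin m → F)) := by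
      intro e k
      induction k with
      | zero => rfl
      | succ k ih => rw [pow_succ, ih, pow_succ]; rfl
    constructor
    · intro h
      rw [hc, ← map_pow, h, map_one]
      rfl
    · intro h
      apply (isoSp F m).inj
      rw [map_pow, map_one]
      rw [hc] at h
      apply LinearEquiv.ext
      intro v
      exact LinearMap.congr_fun h v
  rw [hpow]
  constructor
  · intro h
    obtain ⟨ι, _, k, hk1, hk2, hk3⟩ := exists_labels (isTy_tyG (isoSp F m) x) h
    rw [hfr'] at hk2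
    let μ : Nat.Partition (2 * m) := ⟨Finset.univ.val.map k, by
      intro i hi
      rw [Multiset.mem_map] at hi
      obtain ⟨j, _, rfl⟩ := hi
      exact (hk1 j).1, hk2⟩
    have hcount : ∀ e, μ.parts.count e = Nat.card {i // k i = e} := by
      intro e
      classical
      show (Finset.univ.val.map k).count e = _
      rw [Multiset.count_map, Nat.card_eq_fintype_card, Fintype.card_subtype, Finset.card_def, Finset.filter_val]
      congr 1
      apply Multiset.filter_congr
      intro k _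
      exact eq_comm
    have hty : tyG (isoSp F m) x = tyd (dd μ) := by
      funext e
      rw [hk3]
      unfold tyd
      rw [mu_dd, hcount]
    refine ⟨μ, ⟨?_, ?_⟩, hty⟩
    · intro a ha
      have ha' : a ∈ Finset.univ.val.map k := ha
      rw [Multiset.mem_map] at ha'
      obtain ⟨j, _, rfl⟩ := ha'
      exact (hk1 j).2
    · intro j hj
      have hj1 : 1 ≤ j := hj.pos
      have h3 := (even_tyG (isoSp F m) ndb_fJ (ε := (-1 : F)) symm_fJ h2 (by ring) x j (by
        rcases eps_cases (F := F) (ε := -1) (by ring) j with h4 | h4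
        · exact absurd ((eps_iff h2 hj1).mp h4) (Nat.not_even_iff_odd.mpr hj)
        · exact h4)).1
      rw [hty] at h3
      unfold tyd at h3
      rw [rootMultiplicity_X_sub_C_pow, mu_dd] at h3
      exact h3
  · rintro ⟨μ, hμ, hx⟩
    apply pow_of_tyd (isoSp F m) (one_le_dd μ) _ hx
    intro k
    apply hμ.1
    rw [← mem_image_dd]
    exact Finset.mem_image_of_mem _ (Finset.mem_univ _)

open scoped Classical in
theorem main [Finite F] (h2 : (2 : F) ≠ 0) (hodd : Odd (Nat.card F)) {p : ℕ} [Fact p.Prime] [CharP F p] (m : ℕ) :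
    Nat.card {C : ConjClasses (Matrix.symplecticGroup (Fin m) F) // ∃ g : Matrix.symplecticGroup (Fin m) F, ConjClasses.mk g = C ∧ orderOf g = p} =
      (∑ μ ∈ Finset.univ.filter (fun μ : Nat.Partition (2 * m) => Good' p μ), 2 ^ ((μ.parts.toFinset.filter (fun j : ℕ => Even j)).card)) - 1 := by
  have hfr' : finrank F (Fin m ⊕ Fin m → F) = 2 * m := by
    rw [Module.finrank_fintype_fun_eq_card, Fintype.card_sum, Fintype.card_fin]; omega
  haveI : Finite (Matrix.symplecticGroup (Fin m) F) := Subtype.finite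
  haveI : Finite (ConjClasses (Matrix.symplecticGroup (Fin m) F)) := Quotient.finite _
  haveI := Fintype.ofFinite (ConjClasses (Matrix.symplecticGroup (Fin m) F))
  have hout : ∀ D : ConjClasses (Matrix.symplecticGroup (Fin m) F), ConjClasses.mk D.out = D := fun D => Quotient.out_eq D
  obtain ⟨S, hS⟩ : ∃ S : Finset (ConjClasses (Matrix.symplecticGroup (Fin m) F)), S = Finset.univ.filter (fun D => D.out ^ p = 1) := ⟨_, rfl⟩
  have h1 : Nat.card {C : ConjClasses (Matrix.symplecticGroup (Fin m) F) // ∃ g : Matrix.symplecticGroup (Fin m) F, ConjClasses.mk g = C ∧ orderOf g = p} =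
      (S.erase (ConjClasses.mk 1)).card := by
    rw [Nat.card_eq_fintype_card, Fintype.card_subtype]
    congr 1
    ext D
    rw [Finset.mem_filter, Finset.mem_erase, hS, Finset.mem_filter]
    constructor
    · rintro ⟨-, g, hg, ho⟩
      have hcj : IsConj g D.out := ConjClasses.mk_eq_mk_iff_isConj.mp (hg.trans (hout D).symm)
      obtain ⟨k, hk⟩ := isConj_iff.mp hcj
      refine ⟨?_, Finset.mem_univ _, ?_⟩
      · rintro rfl
        have h3 : IsConj g 1 := ConjClasses.mk_eq_mk_iff_isConj.mp hg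
        rw [isConj_one_left] at h3
        rw [h3, orderOf_one] at ho
        exact (Fact.out : p.Prime).one_lt.ne ho
      · rw [← hk, conj_pow, ← ho, pow_orderOf_eq_one, mul_one, mul_inv_cancel]
    · rintro ⟨h3, -, h4⟩
      refine ⟨Finset.mem_univ _, D.out, hout D, ?_⟩
      apply orderOf_eq_prime h4
      intro h5
      apply h3
      rw [← hout D, h5]
  have h2' : ConjClasses.mk 1 ∈ S := by
    rw [hS, Finset.mem_filter]
    refine ⟨Finset.mem_univ _, ?_⟩
    have h3 : IsConj (ConjClasses.mk (1 : Matrix.symplecticGroup (Fin m) F)).out 1 := ConjClasses.mk_eq_mk_iff_isConj.mp (hout _)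
    rw [isConj_one_left] at h3
    rw [h3, one_pow]
  rw [h1, Finset.card_erase_of_mem h2']
  congr 1
  have h3 : ∀ D ∈ S, tyG (isoSp F m) D.out ∈ (Finset.univ.filter (fun μ : Nat.Partition (2 * m) => Good' p μ)).image (fun μ => (tyd (dd μ) : ℕ → F[X])) := by
    intro D hD
    rw [hS, Finset.mem_filter] at hD
    obtain ⟨μ, hμ, h4⟩ := (exists_part h2 D.out).mp hD.2
    rw [Finset.mem_image]
    exact ⟨μ, Finset.mem_filter.mpr ⟨Finset.mem_univ _, hμ⟩, h4.symm⟩
  rw [Finset.card_eq_sum_card_fiberwise h3, Finset.sum_image (fun μ _ ν _ h => tyd_inj h)]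
  refine Finset.sum_congr rfl fun μ hμ => ?_
  rw [Finset.mem_filter] at hμ
  rw [← Ed_dd (F := F) h2 μ]
  rw [← card_fiber_unip (isoSp F m) hodd h2 (ε := (-1 : F)) (by ring) ndb_fJ symm_fJ (fun f' hf' hs' => alt_equiv (fJ F m) f' ndb_fJ hf' (isAlt_of_skew h2 symm_fJ) (isAlt_of_skew h2 hs'))
    (one_le_dd μ) (by rw [sum_dd, hfr']) (fun i hi => by
      rcases Nat.eq_zero_or_pos i with rfl | hi0
      · have : IsEmpty {k // dd μ k = 0} := ⟨fun k => by have := one_le_dd μ k.1; have := k.2; omega⟩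
        rw [Fintype.card_eq_zero]
        exact Even.zero
      · have h4 : Odd i := by
          rw [← Nat.not_even_iff_odd]
          intro h5
          rw [(eps_iff h2 hi0).mpr h5] at hi
          apply h2
          have h5 : (2 : F) = 1 + 1 := by norm_num
          rw [h5]; nth_rw 1 [hi]; ring
        have h5 := hμ.2.2 i h4
        rw [← mu_dd] at h5
        exact h5)]
  rw [Nat.card_eq_fintype_card, Fintype.card_subtype]
  congr 1
  ext D
  rw [Finset.mem_filter, Finset.mem_filter, hS, Finset.mem_filter]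
  constructor
  · rintro ⟨⟨_, h5⟩, h6⟩
    exact ⟨Finset.mem_univ _, h6⟩
  · rintro ⟨_, h6⟩
    exact ⟨⟨Finset.mem_univ _, (exists_part h2 D.out).mpr ⟨μ, hμ.2, h6⟩⟩, h6⟩

end H46.SpOrderP
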